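import Mathlib

/-!
# Coprime action on a cyclic `p`-group

* `normalizer_le_normalizer_of_isCyclic`: subgroups of a cyclic group are normalized by its
  normalizer;
* `mem_centralizer_of_pRegular_of_isCyclic`: a `p`-regular element normalizing a cyclic
  `p`-group `P` and centralizing a nontrivial subgroup of `P` centralizes `P`.
-/

set_option autoImplicit false

namespace Cfsg.Agent.Lib.Helper77

section CyclicAct

variable {G : Type*} [Group G]

/-- conjugation by `s ^ j` on an element that `s` conjugates to a power -/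
theorem conj_pow_eq_zpow_pow {s x : G} {k : ℤ} (h : s * x * s⁻¹ = x ^ k) (j : ℕ) :
    s ^ j * x * (s ^ j)⁻¹ = x ^ (k ^ j) := by
  induction j with
  | zero => simp
  | succ j ih =>
    have e : s ^ (j + 1) * x * (s ^ (j + 1))⁻¹ = s * (s ^ j * x * (s ^ j)⁻¹) * s⁻¹ := by
      rw [pow_succ']
      group
    rw [e, ih, ← conj_zpow, h, ← zpow_mul, pow_succ']

/-- the normalizer of a cyclic subgroup normalizes each of its subgroups -/
theorem normalizer_le_normalizer_of_isCyclic {P Q : Subgroup G} (hcyc : IsCyclic P)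
    (hQP : Q ≤ P) : Subgroup.normalizer (P : Set G) ≤ Subgroup.normalizer (Q : Set G) := by
  obtain ⟨g, hg⟩ := hcyc.exists_generator
  have key : ∀ t ∈ Subgroup.normalizer (P : Set G), ∀ q ∈ Q, t * q * t⁻¹ ∈ Q := by
    intro t ht q hq
    obtain ⟨i, hi⟩ := Subgroup.mem_zpowers_iff.mp (hg ⟨q, hQP hq⟩)
    have hi' : (g : G) ^ i = q := by
      have := congrArg (Subtype.val : ↥P → G) hi
      simpa using this
    have hx : t * (g : G) * t⁻¹ ∈ P := (Subgroup.mem_normalizer_iff.mp ht (g : G)).mp g.2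
    obtain ⟨k, hk⟩ := Subgroup.mem_zpowers_iff.mp (hg ⟨_, hx⟩)
    have hk' : (g : G) ^ k = t * (g : G) * t⁻¹ := by
      have := congrArg (Subtype.val : ↥P → G) hk
      simpa using this
    have e : t * q * t⁻¹ = q ^ k := by
      rw [← hi', ← conj_zpow, ← hk', ← zpow_mul, ← zpow_mul, mul_comm]
    rw [e]
    exact Q.zpow_mem hq k
  intro t ht
  rw [Subgroup.mem_normalizer_iff]
  intro h
  refine ⟨fun hh => key t ht h hh, fun hh => ?_⟩
  have h1 := key t⁻¹ ((Subgroup.normalizer (P : Set G)).inv_mem ht) _ hh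
  have e : t⁻¹ * (t * h * t⁻¹) * t⁻¹⁻¹ = h := by group
  rwa [e] at h1

/-- a `p`-regular element normalizing a cyclic `p`-group `P` and centralizing a nontrivial
subgroup of `P` centralizes `P` -/
theorem mem_centralizer_of_pRegular_of_isCyclic {p : ℕ} [Fact p.Prime] {P Q : Subgroup G}
    (hP : IsPGroup p P) (hcyc : IsCyclic P) (hQP : Q ≤ P) (hQ1 : Q ≠ ⊥) {s : G}
    (hsN : s ∈ Subgroup.normalizer (P : Set G)) (hsQ : s ∈ Subgroup.centralizer (Q : Set G))
    (hs : ¬ p ∣ orderOf s) : s ∈ Subgroup.centralizer (P : Set G) := by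
  have hp : p.Prime := Fact.out
  obtain ⟨g, hg⟩ := hcyc.exists_generator
  obtain ⟨n, hn⟩ := hP g
  have hxn : (g : G) ^ (p ^ n) = 1 := by
    have := congrArg (Subtype.val : ↥P → G) hn
    simpa using this
  have hx : s * (g : G) * s⁻¹ ∈ P := (Subgroup.mem_normalizer_iff.mp hsN (g : G)).mp g.2
  obtain ⟨k, hk⟩ := Subgroup.mem_zpowers_iff.mp (hg ⟨_, hx⟩)
  have hk' : s * (g : G) * s⁻¹ = (g : G) ^ k := by
    have := congrArg (Subtype.val : ↥P → G) hk
    simpa using this.symm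
  -- a nontrivial element of `Q`
  obtain ⟨q, hq, hq1⟩ : ∃ q : G, q ∈ Q ∧ q ≠ 1 := by
    obtain ⟨q, hq⟩ := (Subgroup.ne_bot_iff_exists_ne_one).mp hQ1
    exact ⟨(q : G), q.2, fun h => hq (Subtype.ext h)⟩
  obtain ⟨i, hi⟩ := Subgroup.mem_zpowers_iff.mp (hg ⟨q, hQP hq⟩)
  have hi' : (g : G) ^ i = q := by
    have := congrArg (Subtype.val : ↥P → G) hi
    simpa using this
  have hsq : s * q * s⁻¹ = q := by
    have h1 := Subgroup.mem_centralizer_iff.mp hsQ q hq
    rw [← h1]
    group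
  -- `p ∣ k - 1`
  have hdvd : (p : ℤ) ∣ k - 1 := by
    by_contra hnd
    have hpi : Prime (p : ℤ) := Nat.prime_iff_prime_int.mp hp
    have hcop : IsCoprime ((p : ℤ) ^ n) (k - 1) :=
      (hpi.coprime_iff_not_dvd.mpr hnd).pow_left
    have h1 : (g : G) ^ ((k - 1) * i) = 1 := by
      have h2 : (g : G) ^ (k * i) = (g : G) ^ i := by
        rw [zpow_mul, ← hk', conj_zpow, hi', hsq]
      rw [sub_mul, one_mul, zpow_sub, h2, mul_inv_cancel]
    obtain ⟨a, b, hab⟩ := hcop
    apply hq1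
    have h3 : (g : G) ^ ((p : ℤ) ^ n) = 1 := by
      rw [← Nat.cast_pow, zpow_natCast]
      exact hxn
    have h4 : i = a * i * (p : ℤ) ^ n + b * ((k - 1) * i) := by
      calc i = (a * (p : ℤ) ^ n + b * (k - 1)) * i := by rw [hab, one_mul]
        _ = _ := by ring
    rw [← hi', h4, zpow_add, mul_comm (a * i), zpow_mul, h3, one_zpow, one_mul,
      mul_comm b, zpow_mul, h1, one_zpow]
  -- `s ^ (p ^ n)` commutes with the generator
  have hpow : (g : G) ^ (k ^ (p ^ n)) = (g : G) := by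
    have h1 := dvd_sub_pow_of_dvd_sub (R := ℤ) (p := p) (a := k) (b := 1)
      (by simpa using hdvd) n
    rw [one_pow] at h1
    have h2 : ((p : ℤ) ^ n) ∣ k ^ p ^ n - 1 :=
      (pow_dvd_pow (p : ℤ) (Nat.le_succ n)).trans h1
    obtain ⟨d, hd⟩ := h2
    have h3 : k ^ p ^ n = 1 + (p : ℤ) ^ n * d := by linarith
    rw [h3, zpow_add, zpow_one, zpow_mul, ← Nat.cast_pow, zpow_natCast, hxn, one_zpow, mul_one]
  have hc1 : Commute (s ^ (p ^ n)) (g : G) := by
    have h1 := conj_pow_eq_zpow_pow hk' (p ^ n)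
    rw [hpow] at h1
    show s ^ (p ^ n) * (g : G) = (g : G) * s ^ (p ^ n)
    calc s ^ (p ^ n) * (g : G) = s ^ (p ^ n) * (g : G) * (s ^ (p ^ n))⁻¹ * s ^ (p ^ n) := by
          group
      _ = (g : G) * s ^ (p ^ n) := by rw [h1]
  -- Bezout
  have hcop : Nat.Coprime (p ^ n) (orderOf s) :=
    Nat.Coprime.pow_left n ((Nat.Prime.coprime_iff_not_dvd hp).mpr hs)
  have hbez := Int.gcd_eq_gcd_ab (p ^ n : ℕ) (orderOf s)
  rw [Int.gcd_natCast_natCast, hcop] at hbez
  have hs1 : s = (s ^ (p ^ n)) ^ (Int.gcdA (p ^ n : ℕ) (orderOf s)) := by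
    have h1 : s ^ (((p ^ n : ℕ) : ℤ) * Int.gcdA (p ^ n : ℕ) (orderOf s) +
        ((orderOf s : ℕ) : ℤ) * Int.gcdB (p ^ n : ℕ) (orderOf s)) = s := by
      rw [← hbez]
      simp
    rw [zpow_add, zpow_mul, zpow_mul, zpow_natCast, zpow_natCast, pow_orderOf_eq_one,
      one_zpow, mul_one] at h1
    exact h1.symm
  have hc : Commute s (g : G) := by
    rw [hs1]
    exact hc1.zpow_left _
  rw [Subgroup.mem_centralizer_iff]
  intro y hy
  obtain ⟨j, hj⟩ := Subgroup.mem_zpowers_iff.mp (hg ⟨y, hy⟩)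
  have hj' : (g : G) ^ j = y := by
    have := congrArg (Subtype.val : ↥P → G) hj
    simpa using this
  rw [← hj']
  exact (hc.zpow_right j).symm.eq

end CyclicAct

end Cfsg.Agent.Lib.Helper77
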