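import Mathlib
import Cfsg.Prelude.Def_Blocks
import Cfsg.Prelude.Def_BlockLocal
import Cfsg.Prelude.Def_BrauerPairs
import Cfsg.Agent.Lib.Helper77.SubPairs

/-!
# Tools for Brauer pairs below a maximal pair

Normal inclusions from inclusions, pairs of maximal order are maximal, conjugates of maximal
pairs, stabilizers, and the comparison of the stabilizers of `(Q, f) ≤ (P, e)` when `P` is
abelian.
-/

set_option autoImplicit false
set_option linter.unusedSectionVars false

namespace Cfsg.Agent.Lib.Helper77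

open Cfsg Cfsg.Agent.Lib.Helper16 Cfsg.Agent.Lib.Helper81

section Tools

variable {G : Type*} [Group G] [Fintype G] {M : Ideal Cfsg.AlgInt} {p : ℕ} [Fact p.Prime]

/-- an inclusion into a pair whose subgroup normalizes the smaller subgroup is a normal
inclusion -/
theorem isNormalSubpair_of_subpairLE (hM : Cfsg.IsPModular p M) {Q P : Subgroup G}
    {f : Set (Cfsg.IrrCharacter (Subgroup.centralizer (Q : Set G)))}
    {e : Set (Cfsg.IrrCharacter (Subgroup.centralizer (P : Set G)))}
    (hPe : Cfsg.IsBrauerPair p M P e) (hle : Cfsg.SubpairLE p M Q f P e)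
    (hPN : P ≤ Subgroup.normalizer (Q : Set G)) : Cfsg.IsNormalSubpair p M Q f P e := by
  obtain ⟨g, hg, hgle⟩ := exists_isNormalSubpair_of_subpairLE hM hPe hle
    (subpairLE_le (a := ⟨Q, f⟩) (b := ⟨P, e⟩) hle) le_rfl hPN
  have h1 := subpairLE_unique hM _ P e le_rfl hPe P g e hgle Relation.ReflTransGen.refl
  rwa [h1] at hg

/-- a chain between pairs on the same subgroup is an equality -/
theorem eq_of_subpairLE_of_eq (hM : Cfsg.IsPModular p M) {a b : Cfsg.BrauerPairIdx G}
    (h : Relation.ReflTransGen (Cfsg.NormalSubpairRel p M) a b)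
    (hb : Cfsg.IsBrauerPair p M b.1 b.2) (heq : a.1 = b.1) : a = b := by
  obtain ⟨R, g⟩ := a
  obtain ⟨P, e⟩ := b
  simp only at heq
  subst heq
  have h1 := subpairLE_unique hM _ R e le_rfl hb R g e h Relation.ReflTransGen.refl
  rw [h1]

/-- the Brauer pairs of `B` are no larger than a maximal one -/
theorem card_le_of_isBrauerPairOf (hM : Cfsg.IsPModular p M) {B : Set (Cfsg.IrrCharacter G)}
    {P : Subgroup G} {e : Set (Cfsg.IrrCharacter (Subgroup.centralizer (P : Set G)))}
    (hmax : Cfsg.IsMaximalBrauerPair p M B P e) {R : Subgroup G}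
    {g : Set (Cfsg.IrrCharacter (Subgroup.centralizer (R : Set G)))}
    (hRg : Cfsg.IsBrauerPairOf p M B R g) : Nat.card R ≤ Nat.card P := by
  have hMp := isPrime_of_isPModular hM
  obtain ⟨c, hc, hcne⟩ := exists_not_memLocalIdeal_blockCoeff_of_isBrauerPairOf hMp hRg
  obtain ⟨D, hD, hRD⟩ := exists_isDefectGroup_ge hM hRg.2.1 R hRg.1.1 hc hcne
  exact (Subgroup.card_le_of_le hRD).trans (card_le_of_isMaximalBrauerPair hM hmax hD)

/-- a Brauer pair of `B` of maximal order is maximal -/
theorem isMaximalBrauerPair_of_card (hM : Cfsg.IsPModular p M) {B : Set (Cfsg.IrrCharacter G)}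
    {P : Subgroup G} {e : Set (Cfsg.IrrCharacter (Subgroup.centralizer (P : Set G)))}
    (hmax : Cfsg.IsMaximalBrauerPair p M B P e) {P₂ : Subgroup G}
    {e₂ : Set (Cfsg.IrrCharacter (Subgroup.centralizer (P₂ : Set G)))}
    (h₂ : Cfsg.IsBrauerPairOf p M B P₂ e₂) (hcard : Nat.card P ≤ Nat.card P₂) :
    Cfsg.IsMaximalBrauerPair p M B P₂ e₂ := by
  refine ⟨h₂, fun R g hRg hle => ?_⟩
  have h1 : P₂ ≤ R := subpairLE_le (a := ⟨P₂, e₂⟩) (b := ⟨R, g⟩) hle
  have h2 := card_le_of_isBrauerPairOf hM hmax hRg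
  exact (Subgroup.eq_of_le_of_card_ge h1 (h2.trans hcard)).symm

/-- a conjugate of a maximal Brauer pair is maximal -/
theorem isMaximalBrauerPair_conjBlock (hM : Cfsg.IsPModular p M)
    {B : Set (Cfsg.IrrCharacter G)} {P : Subgroup G}
    {e : Set (Cfsg.IrrCharacter (Subgroup.centralizer (P : Set G)))}
    (hmax : Cfsg.IsMaximalBrauerPair p M B P e) (x : G) :
    Cfsg.IsMaximalBrauerPair p M B (P.map (MulAut.conj x).toMonoidHom)
      (Cfsg.conjBlock P x e) :=
  isMaximalBrauerPair_of_card hM hmax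
    (isBrauerPairOf_conjBlockTo (isPrime_of_isPModular hM) x rfl hmax.1)
    (by rw [card_map_conj])

omit [Fintype G] [Fact p.Prime] in
/-- an element stabilizing a set of characters fixes it -/
theorem conjSet_eq_of_stabilizesBlock [Finite G] (K : Subgroup G)
    (A : Set (Cfsg.IrrCharacter K)) {y : G} (hy : Cfsg.StabilizesBlock K A y) :
    conjSet K y hy.1 A = A :=
  conjSet_eq_of_stabilizes (P := blockStab K A) (fun _ hx => hx) hy

omit [Fintype G] [Fact p.Prime] in
/-- the conjugate of a pair by an element of its stabilizer is the pair -/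
theorem sigma_conjBlock_of_stabilizes [Finite G] (Q : Subgroup G)
    (f : Set (Cfsg.IrrCharacter (Subgroup.centralizer (Q : Set G)))) {y : G}
    (hyn : y ∈ Subgroup.normalizer (Q : Set G))
    (hys : Cfsg.StabilizesBlock (Subgroup.centralizer (Q : Set G)) f y) :
    (⟨Q.map (MulAut.conj y).toMonoidHom, Cfsg.conjBlock Q y f⟩ : Cfsg.BrauerPairIdx G) =
      ⟨Q, f⟩ := by
  rw [sigma_conjBlock_eq y Q Q (map_conj_eq_of_mem_normalizer hyn) f,
    conjBlockTo_eq_conjSet Q y hyn, conjSet_eq_of_stabilizesBlock _ f hys]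

/-- an element of the stabilizer of `(P, e)` normalizing `Q` stabilizes the pair on `Q`
below `(P, e)` -/
theorem stabilizesBlock_of_subpairLE (hM : Cfsg.IsPModular p M) {Q P : Subgroup G}
    {f : Set (Cfsg.IrrCharacter (Subgroup.centralizer (Q : Set G)))}
    {e : Set (Cfsg.IrrCharacter (Subgroup.centralizer (P : Set G)))}
    (hPe : Cfsg.IsBrauerPair p M P e) (hle : Cfsg.SubpairLE p M Q f P e) {y : G}
    (hyP : y ∈ Subgroup.normalizer (P : Set G))
    (hye : Cfsg.StabilizesBlock (Subgroup.centralizer (P : Set G)) e y)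
    (hyQ : y ∈ Subgroup.normalizer (Q : Set G)) :
    Cfsg.StabilizesBlock (Subgroup.centralizer (Q : Set G)) f y := by
  have hMp := isPrime_of_isPModular hM
  have h := subpairLE_conjBlock hMp y hle
  unfold Cfsg.SubpairLE at h
  rw [sigma_conjBlock_of_stabilizes P e hyP hye,
    sigma_conjBlock_eq y Q Q (map_conj_eq_of_mem_normalizer hyQ) f] at h
  have h1 := subpairLE_unique hM _ P e le_rfl hPe Q _ f h hle
  rw [conjBlockTo_eq_conjSet Q y hyQ] at h1
  rw [stabilizesBlock_iff _ _ y (normalizer_le_normalizer_centralizer Q hyQ), h1]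

omit [Fintype G] [Fact p.Prime] in
theorem mem_normalizer_of_map_conj_eq {P : Subgroup G} {y : G}
    (h : P.map (MulAut.conj y).toMonoidHom = P) : y ∈ Subgroup.normalizer (P : Set G) := by
  rw [Subgroup.mem_normalizer_iff]
  intro k
  conv_rhs => rw [← h]
  exact (mem_map_conj_iff y P k).symm

omit [Fintype G] [Fact p.Prime] in
theorem mapSet_subCentIso_congr (H : Subgroup G) {a b : Cfsg.BrauerPairIdx H} (hab : a = b)
    (R : Subgroup G) (ha : CentEq H a.1 R) (hb : CentEq H b.1 R) :
    mapSet (subCentIso H a.1 R ha) a.2 = mapSet (subCentIso H b.1 R hb) b.2 := by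
  subst hab
  rfl

end Tools

section Abelian

variable {G : Type*} [Group G] [Fintype G] {M : Ideal Cfsg.AlgInt} {p : ℕ} [Fact p.Prime]

/-- a maximal pair `(P₁, e₁)` above `(Q, f)` with `P₁ ≤ C_G(Q)`, read in `C_G(Q)`, is a maximal
pair of the block `f` -/
theorem isMaximalBrauerPair_centralizer (hM : Cfsg.IsPModular p M)
    {B : Set (Cfsg.IrrCharacter G)} {P₁ : Subgroup G}
    {e₁ : Set (Cfsg.IrrCharacter (Subgroup.centralizer (P₁ : Set G)))}
    (hmax₁ : Cfsg.IsMaximalBrauerPair p M B P₁ e₁) {Q : Subgroup G}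
    {f : Set (Cfsg.IrrCharacter (Subgroup.centralizer (Q : Set G)))} (hf : Cfsg.IsPBlock M f)
    (hle₁ : Cfsg.SubpairLE p M Q f P₁ e₁)
    (hP₁H : P₁ ≤ Subgroup.centralizer (Q : Set G))
    (hC₁H : Subgroup.centralizer (P₁ : Set G) ≤ Subgroup.centralizer (Q : Set G)) :
    Cfsg.IsMaximalBrauerPair p M f (P₁.subgroupOf (Subgroup.centralizer (Q : Set G)))
      (mapSet (subCentIso (Subgroup.centralizer (Q : Set G))
        (P₁.subgroupOf (Subgroup.centralizer (Q : Set G))) P₁
        (centEq_subgroupOf _ P₁ hP₁H hC₁H)).symm e₁) := by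
  have hn := isNormalSubpair_of_subpairLE hM hmax₁.1.1 hle₁
    (hP₁H.trans (Subgroup.centralizer_le_normalizer (Q : Set G)))
  exact isMaximalBrauerPair_sub hM hmax₁ hn (Subgroup.centralizer (Q : Set G)) hf
    (fun t => by rw [subgroupBlockCoeff_eq_ext0, ext0_coe]) hP₁H hC₁H

/-- **Abelian defect groups: comparison of stabilizers.**  Let `(P, e)` be a maximal Brauer
pair with `P` abelian and `(Q, f) ≤ (P, e)`.  Every element of `N_G(Q)` stabilizing `f` is,
up to an element of `C_G(Q)`, an element of `N_G(P)` stabilizing `e`. -/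
theorem exists_mul_mem_stabilizer_of_abelian (hM : Cfsg.IsPModular p M)
    {B : Set (Cfsg.IrrCharacter G)} {P : Subgroup G}
    {e : Set (Cfsg.IrrCharacter (Subgroup.centralizer (P : Set G)))}
    (hmax : Cfsg.IsMaximalBrauerPair p M B P e) (hab : ∀ x ∈ P, ∀ y ∈ P, x * y = y * x)
    {Q : Subgroup G} {f : Set (Cfsg.IrrCharacter (Subgroup.centralizer (Q : Set G)))}
    (hQP : Q ≤ P) (hf : Cfsg.IsPBlock M f) (hle : Cfsg.SubpairLE p M Q f P e) {x : G}
    (hxn : x ∈ Subgroup.normalizer (Q : Set G))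
    (hxs : Cfsg.StabilizesBlock (Subgroup.centralizer (Q : Set G)) f x) :
    ∃ c ∈ Subgroup.centralizer (Q : Set G), c * x ∈ Subgroup.normalizer (P : Set G) ∧
      Cfsg.StabilizesBlock (Subgroup.centralizer (P : Set G)) e (c * x) := by
  classical
  have hMp := isPrime_of_isPModular hM
  have hfinH : Fintype (Subgroup.centralizer (Q : Set G)) := Fintype.ofFinite _
  have hPH : P ≤ Subgroup.centralizer (Q : Set G) := by
    intro u hu
    rw [Subgroup.mem_centralizer_iff]
    intro q hq
    exact hab q (hQP hq) u hu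
  have hCH : Subgroup.centralizer (P : Set G) ≤ Subgroup.centralizer (Q : Set G) :=
    Subgroup.centralizer_le hQP
  -- the conjugate pair
  have hmax₂ := isMaximalBrauerPair_conjBlock hM hmax x
  have hle₂ : Cfsg.SubpairLE p M Q f (P.map (MulAut.conj x).toMonoidHom)
      (Cfsg.conjBlock P x e) := by
    have h := subpairLE_conjBlock hMp x hle
    unfold Cfsg.SubpairLE at h ⊢
    rwa [sigma_conjBlock_of_stabilizes Q f hxn hxs] at h
  have hQP₂ : Q ≤ P.map (MulAut.conj x).toMonoidHom :=
    subpairLE_le (a := ⟨Q, f⟩) (b := ⟨_, Cfsg.conjBlock P x e⟩) hle₂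
  have hP₂H : P.map (MulAut.conj x).toMonoidHom ≤ Subgroup.centralizer (Q : Set G) := by
    rintro _ ⟨u, hu, rfl⟩
    rw [Subgroup.mem_centralizer_iff]
    intro q hq
    obtain ⟨v, hv, hvq⟩ := hQP₂ hq
    have hvq' : x * v * x⁻¹ = q := hvq
    show q * (x * u * x⁻¹) = x * u * x⁻¹ * q
    rw [← hvq']
    have h1 := hab v hv u hu
    calc x * v * x⁻¹ * (x * u * x⁻¹) = x * (v * u) * x⁻¹ := by group
      _ = x * (u * v) * x⁻¹ := by rw [h1]
      _ = x * u * x⁻¹ * (x * v * x⁻¹) := by group
  have hC₂H : Subgroup.centralizer ((P.map (MulAut.conj x).toMonoidHom : Subgroup G) : Set G) ≤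
      Subgroup.centralizer (Q : Set G) := Subgroup.centralizer_le hQP₂
  have hm₁ := isMaximalBrauerPair_centralizer hM hmax hf hle hPH hCH
  have hm₂ := isMaximalBrauerPair_centralizer hM hmax₂ hf hle₂ hP₂H hC₂H
  obtain ⟨c, hc⟩ := Cfsg.Agent.S4660.result p M hM f _ _ _ _ hm₁ hm₂.1
  have hle' : ((P.map (MulAut.conj x).toMonoidHom).subgroupOf
      (Subgroup.centralizer (Q : Set G))).map (MulAut.conj c).toMonoidHom ≤
      P.subgroupOf (Subgroup.centralizer (Q : Set G)) := subpairLE_le hc
  have hcard : Nat.card (P.subgroupOf (Subgroup.centralizer (Q : Set G))) ≤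
      Nat.card ((((P.map (MulAut.conj x).toMonoidHom).subgroupOf
        (Subgroup.centralizer (Q : Set G))).map (MulAut.conj c).toMonoidHom :
          Subgroup (Subgroup.centralizer (Q : Set G)))) := by
    rw [card_map_conj, Nat.card_congr (Subgroup.subgroupOfEquivOfLe hPH).toEquiv,
      Nat.card_congr (Subgroup.subgroupOfEquivOfLe hP₂H).toEquiv, card_map_conj]
  have hgrp : ((P.map (MulAut.conj x).toMonoidHom).subgroupOf
      (Subgroup.centralizer (Q : Set G))).map (MulAut.conj c).toMonoidHom =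
      P.subgroupOf (Subgroup.centralizer (Q : Set G)) :=
    Subgroup.eq_of_le_of_card_ge hle' hcard
  have hsig := eq_of_subpairLE_of_eq hM hc hm₁.1.1 hgrp
  -- back in `G`
  have hgrpG : (P.map (MulAut.conj x).toMonoidHom).map (MulAut.conj (c : G)).toMonoidHom = P := by
    ext z
    constructor
    · rintro ⟨u, hu, rfl⟩
      have h1 : c * (⟨u, hP₂H hu⟩ : Subgroup.centralizer (Q : Set G)) * c⁻¹ ∈
          ((P.map (MulAut.conj x).toMonoidHom).subgroupOf
            (Subgroup.centralizer (Q : Set G))).map (MulAut.conj c).toMonoidHom :=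
        ⟨⟨u, hP₂H hu⟩, Subgroup.mem_subgroupOf.mpr hu, rfl⟩
      rw [hgrp] at h1
      exact Subgroup.mem_subgroupOf.mp h1
    · intro hz
      have h1 : (⟨z, hPH hz⟩ : Subgroup.centralizer (Q : Set G)) ∈
          P.subgroupOf (Subgroup.centralizer (Q : Set G)) := Subgroup.mem_subgroupOf.mpr hz
      rw [← hgrp] at h1
      obtain ⟨u', hu', hu'z⟩ := h1
      refine ⟨(u' : G), Subgroup.mem_subgroupOf.mp hu', ?_⟩
      exact congrArg Subtype.val hu'z
  have hcx : P.map (MulAut.conj (c * x)).toMonoidHom = P := by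
    rw [← map_conj_map_conj]
    exact hgrpG
  have hcxn : c * x ∈ Subgroup.normalizer (P : Set G) := mem_normalizer_of_map_conj_eq hcx
  refine ⟨c, c.2, hcxn, ?_⟩
  have h₁ : CentEq (Subgroup.centralizer (Q : Set G))
      ((P.map (MulAut.conj x).toMonoidHom).subgroupOf (Subgroup.centralizer (Q : Set G)))
      (P.map (MulAut.conj x).toMonoidHom) := centEq_subgroupOf _ _ hP₂H hC₂H
  have h₂ : CentEq (Subgroup.centralizer (Q : Set G))
      (((P.map (MulAut.conj x).toMonoidHom).subgroupOf
        (Subgroup.centralizer (Q : Set G))).map (MulAut.conj c).toMonoidHom) P := by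
    rw [hgrp]
    exact centEq_subgroupOf _ P hPH hCH
  have key := mapSet_subCentIso_conjBlock (Subgroup.centralizer (Q : Set G)) c
    ((P.map (MulAut.conj x).toMonoidHom).subgroupOf (Subgroup.centralizer (Q : Set G)))
    (P.map (MulAut.conj x).toMonoidHom) P h₁ h₂ hgrpG.symm
    (mapSet (subCentIso (Subgroup.centralizer (Q : Set G))
        ((P.map (MulAut.conj x).toMonoidHom).subgroupOf (Subgroup.centralizer (Q : Set G)))
        (P.map (MulAut.conj x).toMonoidHom) (centEq_subgroupOf _ _ hP₂H hC₂H)).symm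
      (Cfsg.conjBlock P x e))
  have hR : conjBlockTo (c : G) (P.map (MulAut.conj x).toMonoidHom) P (Cfsg.conjBlock P x e) =
      conjSet (Subgroup.centralizer (P : Set G)) ((c : G) * x)
        (normalizer_le_normalizer_centralizer P hcxn) e := by
    rw [conjBlock_eq P x e, conjBlockTo_conjBlockTo x (c : G) P _ P rfl hgrpG.symm e,
      conjBlockTo_eq_conjSet P ((c : G) * x) hcxn]
  rw [mapSet_mapSet_symm, hR,
    mapSet_subCentIso_congr (Subgroup.centralizer (Q : Set G)) hsig P h₂
      (centEq_subgroupOf _ P hPH hCH), mapSet_mapSet_symm] at key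
  rw [stabilizesBlock_iff _ _ _ (normalizer_le_normalizer_centralizer P hcxn), ← key]

end Abelian

end Cfsg.Agent.Lib.Helper77
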