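import Mathlib
import Cfsg.Prelude.Def_Blocks
import Cfsg.Prelude.Def_BlockLocal
import Cfsg.Prelude.Def_BrauerPairs
import Cfsg.Agent.Lib.Helper77.PairTools
import Cfsg.Agent.Lib.Helper16.FirstMain
import Cfsg.Agent.S4659

/-!
# Induced blocks and Brauer pairs

A block `c` of `C_G(P)` inducing `B` gives a Brauer pair `(P, c)` of `B`; it is maximal when
`P` is a defect group.  Induction inside a subgroup, `IsInducedBlockIn`, is induction in the
subgroup regarded as a group; for `P` abelian and `Q ≤ P` the block of `C_G(Q)` induced by `c`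
exists and is the block `f` with `(Q, f) ≤ (P, c)`.
-/

set_option autoImplicit false
set_option linter.unusedSectionVars false

namespace Cfsg.Agent.Lib.Helper77

open Cfsg Cfsg.Agent.Lib.Helper16 Cfsg.Agent.Lib.Helper81

section Bridge

variable {G : Type*} [Group G] [Fintype G] {M : Ideal Cfsg.AlgInt} {p : ℕ} [Fact p.Prime]

/-- **Induced blocks give Brauer pairs.**  A block `c` of `C_G(P)` inducing `B` makes `(P, c)`
a Brauer pair of `B`. -/
theorem isBrauerPairOf_of_isInducedBlock (hM : Cfsg.IsPModular p M) {P : Subgroup G}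
    (hP : IsPGroup p P) {c : Set (Cfsg.IrrCharacter (Subgroup.centralizer (P : Set G)))}
    {B : Set (Cfsg.IrrCharacter G)}
    (h : Cfsg.IsInducedBlock M (Subgroup.centralizer (P : Set G)) c B) :
    Cfsg.IsBrauerPairOf p M B P c := by
  classical
  have hMp := isPrime_of_isPModular hM
  have hfin : Fintype (Subgroup.centralizer (P : Set G)) := Fintype.ofFinite _
  refine ⟨⟨hP, h.1⟩, h.2.1, fun ξ hξ => ?_⟩
  obtain ⟨χ, hχ⟩ := IsPBlock.nonempty hMp h.2.1
  have key := omega_resFun_sub hMp (Subgroup.centralizer (P : Set G))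
    (ξ : Subgroup.centralizer (P : Set G) → ℂ) χ (h.2.2 ξ hξ χ hχ)
    (isRClass_blockCoeff hMp h.2.1)
  rw [omega_blockCoeff hMp h.2.1 χ, if_pos hχ] at key
  have e : Cfsg.brauerOmega P (Cfsg.blockCoeff B) (ξ : Subgroup.centralizer (P : Set G) → ℂ) =
      omega (ξ : Subgroup.centralizer (P : Set G) → ℂ)
        (resFun (Subgroup.centralizer (P : Set G)) (Cfsg.blockCoeff B)) := by
    unfold Cfsg.brauerOmega omega resFun
    rw [finsum_eq_sum_of_fintype]
  rw [e]
  exact key

/-- a Brauer pair of `B` on a defect group of `B` is maximal -/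
theorem isMaximalBrauerPair_of_isDefectGroup (hM : Cfsg.IsPModular p M)
    {B : Set (Cfsg.IrrCharacter G)} {P : Subgroup G}
    {c : Set (Cfsg.IrrCharacter (Subgroup.centralizer (P : Set G)))}
    (hPc : Cfsg.IsBrauerPairOf p M B P c) (hD : Cfsg.IsDefectGroup p M B P) :
    Cfsg.IsMaximalBrauerPair p M B P c := by
  obtain ⟨R, g, hRmax, -⟩ := exists_isMaximalBrauerPair_ge (M := M) _ P c rfl hPc
  have hR := Cfsg.Agent.S4659.result p M hM B R g hRmax
  exact isMaximalBrauerPair_of_card hM hRmax hPc
    (le_of_eq (card_eq_of_isDefectGroup hM hPc.2.1 hR hD))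

end Bridge

section Transport

variable {G : Type*} [Group G] {M : Ideal Cfsg.AlgInt}

/-- the central character induced inside `H` is the induced central character in the group
`H` -/
theorem inducedCentralCharIn_eq (H : Subgroup G) (K' : Subgroup H) (K : Subgroup G)
    (φ : K' ≃* K) (hφ : ∀ k' : K', ((φ k' : K) : G) = ((k' : H) : G)) (ξ : K → ℂ) (h : H) :
    Cfsg.inducedCentralCharIn H K ξ (h : G) =
      Cfsg.inducedCentralChar K' (fun k' => ξ (φ k')) h := by
  unfold Cfsg.inducedCentralCharIn Cfsg.inducedCentralChar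
  symm
  apply finsum_mem_eq_of_bijOn (fun k' : K' => φ k')
  · refine ⟨?_, ?_, ?_⟩
    · intro k' hk'
      obtain ⟨x, hx⟩ := isConj_iff.mp (IsConj.symm hk')
      refine ⟨x, ?_⟩
      rw [hφ k']
      have := congrArg (Subtype.val : H → G) hx
      simpa using this
    · intro a _ b _ hab
      exact φ.injective hab
    · intro k hk
      obtain ⟨x, hx⟩ := hk
      refine ⟨φ.symm k, ?_, φ.apply_symm_apply k⟩
      apply IsConj.symm
      rw [isConj_iff]
      refine ⟨x, ?_⟩
      apply Subtype.ext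
      have h1 := hφ (φ.symm k)
      rw [φ.apply_symm_apply] at h1
      push_cast
      rw [← h1]
      exact hx
  · intro k' _
    show ξ (φ k') / ξ (φ 1) = ξ (φ k') / ξ 1
    rw [map_one]

/-- induction inside `H`, for a subgroup identified with a subgroup of the group `H`, is
induction in the group `H` -/
theorem isInducedBlockIn_iff (hM : M.IsPrime) (H : Subgroup G) (K' : Subgroup H)
    (K : Subgroup G) (φ : K' ≃* K) (hφ : ∀ k' : K', ((φ k' : K) : G) = ((k' : H) : G))
    (c' : Set (Cfsg.IrrCharacter K')) (f : Set (Cfsg.IrrCharacter H)) :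
    Cfsg.IsInducedBlockIn M H K (mapSet φ c') f ↔ Cfsg.IsInducedBlock M K' c' f := by
  have key : ∀ (ξ' : Cfsg.IrrCharacter K') (h : H),
      Cfsg.inducedCentralCharIn H K (mapIrr φ ξ' : K → ℂ) (h : G) =
        Cfsg.inducedCentralChar K' (ξ' : K' → ℂ) h := by
    intro ξ' h
    rw [inducedCentralCharIn_eq H K' K φ hφ]
    congr 1
    funext k'
    exact mapIrr_apply_apply φ ξ' k'
  constructor
  · rintro ⟨h1, h2, h3⟩
    refine ⟨(isPBlock_mapSet_iff hM φ c').mp h1, h2, fun ξ' hξ' χ hχ g => ?_⟩
    rw [← key]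
    exact h3 _ ⟨ξ', hξ', rfl⟩ χ hχ g
  · rintro ⟨h1, h2, h3⟩
    refine ⟨(isPBlock_mapSet_iff hM φ c').mpr h1, h2, ?_⟩
    rintro _ ⟨ξ', hξ', rfl⟩ χ hχ h
    rw [key]
    exact h3 ξ' hξ' χ hχ h

/-- stabilizing a set of characters, read in the group from the subgroup -/
theorem stabilizesBlock_subCentIso_symm (H : Subgroup G) (R' : Subgroup H) (R₂ : Subgroup G)
    (h : CentEq H R' R₂) (g' : Set (Cfsg.IrrCharacter (Subgroup.centralizer (R' : Set H))))
    {x : H} (hx : Cfsg.StabilizesBlock (Subgroup.centralizer (R₂ : Set G))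
      (mapSet (subCentIso H R' R₂ h) g') (x : G)) :
    Cfsg.StabilizesBlock (Subgroup.centralizer (R' : Set H)) g' x := by
  obtain ⟨hxn, hxs⟩ := hx
  refine ⟨?_, ?_⟩
  · rw [Subgroup.mem_normalizer_iff]
    intro k
    constructor
    · intro hk
      have hkG : (k : G) ∈ Subgroup.centralizer (R₂ : Set G) := (h _).mpr ⟨k.2, hk⟩
      have h1 := (Subgroup.mem_normalizer_iff.mp hxn (k : G)).mp hkG
      obtain ⟨_, h2⟩ := (h _).mp h1
      exact h2
    · intro hk
      have hkG : ((x * k * x⁻¹ : H) : G) ∈ Subgroup.centralizer (R₂ : Set G) :=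
        (h _).mpr ⟨(x * k * x⁻¹).2, hk⟩
      have h1 := (Subgroup.mem_normalizer_iff.mp hxn (k : G)).mpr (by simpa using hkG)
      obtain ⟨_, h2⟩ := (h _).mp h1
      exact h2
  · intro ξ hξ
    obtain ⟨χ', ⟨ξ', hξ', rfl⟩, hconj⟩ :=
      hxs (mapIrr (subCentIso H R' R₂ h) ξ) ⟨ξ, hξ, rfl⟩
    refine ⟨ξ', hξ', ?_⟩
    intro k k' hk
    have h1 := hconj (subCentIso H R' R₂ h k) (subCentIso H R' R₂ h k') (by
      show ((k' : H) : G) = (x : G) * ((k : H) : G) * (x : G)⁻¹
      have := congrArg (Subtype.val : H → G) hk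
      simpa using this)
    rw [mapIrr_apply_apply, mapIrr_apply_apply] at h1
    exact h1

end Transport

section AbelianInd

variable {G : Type*} [Group G] [Fintype G] {M : Ideal Cfsg.AlgInt} {p : ℕ} [Fact p.Prime]

/-- **Induction inside a centralizer and inclusion of pairs.**  Let `P` be an abelian
`p`-subgroup, `Q ≤ P`, and `c` a block of `C_G(P)` inducing the block `f` of `C_G(Q)` inside
`C_G(Q)`.  Then `(Q, f)` is normal in `(P, c)`. -/
theorem isNormalSubpair_of_isInducedBlockIn (hM : Cfsg.IsPModular p M) {P Q : Subgroup G}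
    (hP : IsPGroup p P) (hab : ∀ x ∈ P, ∀ y ∈ P, x * y = y * x) (hQP : Q ≤ P)
    {c : Set (Cfsg.IrrCharacter (Subgroup.centralizer (P : Set G)))}
    {f : Set (Cfsg.IrrCharacter (Subgroup.centralizer (Q : Set G)))}
    (h : Cfsg.IsInducedBlockIn M (Subgroup.centralizer (Q : Set G))
      (Subgroup.centralizer (P : Set G)) c f) :
    Cfsg.IsNormalSubpair p M Q f P c := by
  classical
  have hMp := isPrime_of_isPModular hM
  have hfinH : Fintype (Subgroup.centralizer (Q : Set G)) := Fintype.ofFinite _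
  have hPH : P ≤ Subgroup.centralizer (Q : Set G) := by
    intro u hu
    rw [Subgroup.mem_centralizer_iff]
    intro q hq
    exact hab q (hQP hq) u hu
  have hCH : Subgroup.centralizer (P : Set G) ≤ Subgroup.centralizer (Q : Set G) :=
    Subgroup.centralizer_le hQP
  have hcent := centEq_subgroupOf (Subgroup.centralizer (Q : Set G)) P hPH hCH
  have hc : c = mapSet (subCentIso _ _ P hcent) (mapSet (subCentIso _ _ P hcent).symm c) :=
    (mapSet_mapSet_symm _ c).symm
  have hf := h.2.1
  rw [hc] at h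
  have h' := (isInducedBlockIn_iff hMp _ _ _ (subCentIso _ _ P hcent) (fun k' => rfl) _ f).mp h
  have hb := isBrauerPairOf_of_isInducedBlock hM hP.comap_subtype h'
  have hn := isNormalSubpair_of_isBrauerPairOf_sub hMp ⟨hP.to_le hQP, hf⟩
    (Subgroup.centralizer (Q : Set G)) (F := f)
    (fun t => by rw [subgroupBlockCoeff_eq_ext0, ext0_of_mem _ _ t.2]) hcent hP hQP
    (hPH.trans (Subgroup.centralizer_le_normalizer _))
    (fun x hx => stabilizesBlock_of_mem _ f (hPH hx)) hb
  rw [mapSet_mapSet_symm] at hn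
  exact hn

/-- **Existence of the induced block inside a centralizer.**  Let `P` be an abelian
`p`-subgroup and `Q ≤ P`.  Every block of `C_G(P)` induces a block of `C_G(Q)` inside
`C_G(Q)`. -/
theorem exists_isInducedBlockIn (hM : Cfsg.IsPModular p M) {P Q : Subgroup G}
    (hP : IsPGroup p P) (hab : ∀ x ∈ P, ∀ y ∈ P, x * y = y * x) (hQP : Q ≤ P)
    {c : Set (Cfsg.IrrCharacter (Subgroup.centralizer (P : Set G)))} (hc : Cfsg.IsPBlock M c) :
    ∃ f : Set (Cfsg.IrrCharacter (Subgroup.centralizer (Q : Set G))),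
      Cfsg.IsInducedBlockIn M (Subgroup.centralizer (Q : Set G))
        (Subgroup.centralizer (P : Set G)) c f := by
  classical
  have hMp := isPrime_of_isPModular hM
  have hfinH : Fintype (Subgroup.centralizer (Q : Set G)) := Fintype.ofFinite _
  have hPH : P ≤ Subgroup.centralizer (Q : Set G) := by
    intro u hu
    rw [Subgroup.mem_centralizer_iff]
    intro q hq
    exact hab q (hQP hq) u hu
  have hCH : Subgroup.centralizer (P : Set G) ≤ Subgroup.centralizer (Q : Set G) :=
    Subgroup.centralizer_le hQP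
  have hcent := centEq_subgroupOf (Subgroup.centralizer (Q : Set G)) P hPH hCH
  have hc' : Cfsg.IsPBlock M (mapSet (subCentIso _ _ P hcent).symm c) := isPBlock_mapSet hMp _ hc
  obtain ⟨ξ', hξ'⟩ := IsPBlock.nonempty hMp hc'
  have hP' : IsPGroup p (P.subgroupOf (Subgroup.centralizer (Q : Set G))) := hP.comap_subtype
  have hfinK : Fintype (Subgroup.centralizer
      ((P.subgroupOf (Subgroup.centralizer (Q : Set G)) :
        Subgroup (Subgroup.centralizer (Q : Set G))) :
        Set (Subgroup.centralizer (Q : Set G)))) := Fintype.ofFinite _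
  obtain ⟨χ, hχ⟩ := exists_irr_brauer hM (P.subgroupOf (Subgroup.centralizer (Q : Set G)))
    (Subgroup.centralizer ((P.subgroupOf (Subgroup.centralizer (Q : Set G)) :
        Subgroup (Subgroup.centralizer (Q : Set G))) :
        Set (Subgroup.centralizer (Q : Set G)))) hP' le_rfl
    (Subgroup.centralizer_le_normalizer _) ξ'
  have hP'K : P.subgroupOf (Subgroup.centralizer (Q : Set G)) ≤
      Subgroup.centralizer ((P.subgroupOf (Subgroup.centralizer (Q : Set G)) :
        Subgroup (Subgroup.centralizer (Q : Set G))) :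
        Set (Subgroup.centralizer (Q : Set G))) := by
    intro u hu
    rw [Subgroup.mem_centralizer_iff]
    intro v hv
    apply Subtype.ext
    exact hab v (Subgroup.mem_subgroupOf.mp hv) u (Subgroup.mem_subgroupOf.mp hu)
  have hind := isInducedBlock_of_brauer hM (P.subgroupOf (Subgroup.centralizer (Q : Set G))) _
    hP' hP'K (Subgroup.centralizer_le_normalizer _) ξ' χ (fun g => by
      have h3 := hχ (classInd g) (isRClass_classInd hMp g)
      rwa [← brauerCentralChar_eq_omega, omega_classInd (irrCharacter_conj_eq χ)] at h3)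
  rw [← IsPBlock.eq_blockOf hMp hc' hξ'] at hind
  refine ⟨Cfsg.blockOf M (χ : Subgroup.centralizer (Q : Set G) → ℂ), ?_⟩
  have h4 := (isInducedBlockIn_iff hMp _ _ _ (subCentIso _ _ P hcent) (fun k' => rfl) _ _).mpr hind
  rwa [mapSet_mapSet_symm] at h4

end AbelianInd

end Cfsg.Agent.Lib.Helper77
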