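import Mathlib
import Cfsg.Prelude.Def_Blocks
import Cfsg.Prelude.Def_BlockLocal
import Cfsg.Prelude.Def_BrauerPairs
import Cfsg.Agent.Lib.Helper77.IndBridge
import Cfsg.Agent.Lib.Helper77.SubPairs
import Cfsg.Agent.Lib.Helper77.PairTools
import Cfsg.Agent.Lib.Helper77.MinMax
import Cfsg.Agent.Lib.Helper16.FirstMain
import Cfsg.Agent.S4659

/-!
# Induced blocks from subgroups containing the centralizer of a defect group

Let `b` be a block of the subgroup `H` of `G` with defect group `D₀` such that `C_G(D₀) ≤ H`.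
Then `b` induces a block `B` of `G`, the Brauer pair of `b` on `D₀` is a Brauer pair of `B`, and
`B` has a defect group `D` with `Z(D) ≤ Z(D₀) ≤ D₀ ≤ D`.
-/

set_option autoImplicit false
set_option linter.unusedSectionVars false

namespace Cfsg.Agent.Lib.Helper77

open Cfsg Cfsg.Agent.Lib.Helper16 Cfsg.Agent.Lib.Helper81

section Exists

variable {G : Type*} [Group G] [Fintype G] {M : Ideal Cfsg.AlgInt} {p : ℕ} [Fact p.Prime]

/-- a `p`-subgroup centralizing an element at which the idempotent of `B` is outside the local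
ideal carries a Brauer pair of `B` -/
theorem exists_isBrauerPairOf_of_not_memLocalIdeal (hM : Cfsg.IsPModular p M)
    {B : Set (Cfsg.IrrCharacter G)} (hB : Cfsg.IsPBlock M B) {P : Subgroup G}
    (hP : IsPGroup p P) {y : G} (hy : y ∈ Subgroup.centralizer (P : Set G))
    (hne : ¬ Cfsg.MemLocalIdeal M (Cfsg.blockCoeff B y)) :
    ∃ e : Set (Cfsg.IrrCharacter (Subgroup.centralizer (P : Set G))),
      Cfsg.IsBrauerPairOf p M B P e := by
  classical
  have hMp := isPrime_of_isPModular hM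
  have hfin : Fintype (Subgroup.centralizer (P : Set G)) := Fintype.ofFinite _
  have hBR : LocInt M (Cfsg.blockCoeff B) := fun g => memLocalRing_blockCoeff hMp B hB g
  have hBc := blockCoeff_isClassFunction B
  have hadm : BrAdm M P (Cfsg.blockCoeff B) := brAdm_of_isClassFunction hBR hBc
  have hex : ∃ ξ : Cfsg.IrrCharacter (Subgroup.centralizer (P : Set G)),
      ¬ Cfsg.MemLocalIdeal M (Cfsg.brauerOmega P (Cfsg.blockCoeff B)
        (ξ : Subgroup.centralizer (P : Set G) → ℂ)) := by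
    by_contra hcon
    push Not at hcon
    have hu : LocIdl M (res (Subgroup.centralizer (P : Set G)) (Cfsg.blockCoeff B)) := by
      apply locIdl_of_idem_of_omegaF hMp (isClassFunction_res hadm.2.2) (locInt_res _ hBR)
      · have h1 := locIdl_res_conv_sub hM P hP hBR hBR hadm.2.1 hadm.2.1
        rw [conv_blockCoeff_self] at h1
        have h2 := locIdl_neg h1
        rwa [neg_sub] at h2
      · intro ξ
        rw [← brauerOmega_eq_omegaF]
        exact hcon ξ
    exact hne (hu ⟨y, hy⟩)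
  obtain ⟨ξ, hξ⟩ := hex
  obtain ⟨A, hA, hA1, hAu⟩ := exists_block_of_brauerOmega hM P hP ξ
  have hBA : B = A := hAu B hB hξ
  refine ⟨Cfsg.blockOf M (ξ : Subgroup.centralizer (P : Set G) → ℂ), ⟨hP, ⟨ξ, rfl⟩⟩, hB,
    fun ξ' hξ' => ?_⟩
  have h1 := memLocalIdeal_brauerOmega_sub_of_sameBlock hMp P (ξ := ξ') (ξ' := ξ)
    (sameBlock_symm hξ') hadm
  rw [← hBA] at hA1
  have h2 := memLocalIdeal_add hMp h1 hA1
  rwa [sub_add_sub_cancel] at h2

/-- a block with defect group `D` has a maximal Brauer pair on `D` -/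
theorem exists_isMaximalBrauerPair_of_isDefectGroup (hM : Cfsg.IsPModular p M)
    {B : Set (Cfsg.IrrCharacter G)} (hB : Cfsg.IsPBlock M B) {D : Subgroup G}
    (hD : Cfsg.IsDefectGroup p M B D) :
    ∃ e : Set (Cfsg.IrrCharacter (Subgroup.centralizer (D : Set G))),
      Cfsg.IsMaximalBrauerPair p M B D e := by
  obtain ⟨g0, hg0, hg0D, -⟩ := exists_isDefectClass_mem_centralizer hD
  obtain ⟨e, he⟩ := exists_isBrauerPairOf_of_not_memLocalIdeal hM hB
    (isPGroup_of_isDefectGroup hD) hg0D hg0.2.1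
  exact ⟨e, isMaximalBrauerPair_of_isDefectGroup hM he hD⟩

end Exists

section Sub

variable {G : Type*} [Group G] [Fintype G] {M : Ideal Cfsg.AlgInt} {p : ℕ} [Fact p.Prime]

/-- a normal inclusion of Brauer pairs of `G` on subgroups of `H` whose centralizers lie in `H`
is a normal inclusion of Brauer pairs of `H` -/
theorem isNormalSubpair_sub_symm (hM : M.IsPrime) (H : Subgroup G) {R₁' R₂' : Subgroup H}
    {g₁' : Set (Cfsg.IrrCharacter (Subgroup.centralizer (R₁' : Set H)))}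
    {g₂' : Set (Cfsg.IrrCharacter (Subgroup.centralizer (R₂' : Set H)))}
    (h₁ : CentEq H R₁' (R₁'.map H.subtype)) (h₂ : CentEq H R₂' (R₂'.map H.subtype))
    (hn : Cfsg.IsNormalSubpair p M (R₁'.map H.subtype) (mapSet (subCentIso H R₁' _ h₁) g₁')
      (R₂'.map H.subtype) (mapSet (subCentIso H R₂' _ h₂) g₂')) :
    Cfsg.IsNormalSubpair p M R₁' g₁' R₂' g₂' := by
  obtain ⟨⟨hp₁, hg₁⟩, ⟨hp₂, hg₂⟩, hle, hnorm, hstab, hω⟩ := hn
  have hinj := Subgroup.subtype_injective H
  have hle' : R₁' ≤ R₂' := (Subgroup.map_le_map_iff_of_injective hinj).mp hle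
  refine ⟨⟨?_, (isPBlock_mapSet_iff hM _ g₁').mp hg₁⟩, ⟨?_, (isPBlock_mapSet_iff hM _ g₂').mp hg₂⟩,
    hle', ?_, ?_, ?_⟩
  · have h1 := hp₁.comap_of_injective H.subtype hinj
    rwa [Subgroup.comap_map_eq_self_of_injective hinj] at h1
  · have h1 := hp₂.comap_of_injective H.subtype hinj
    rwa [Subgroup.comap_map_eq_self_of_injective hinj] at h1
  · intro r hr
    have h1 := hnorm (Subgroup.mem_map_of_mem H.subtype hr)
    rw [Subgroup.mem_normalizer_iff] at h1 ⊢
    intro k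
    have h2 := h1 (k : G)
    constructor
    · intro hk
      obtain ⟨k', hk', hk'eq⟩ := h2.mp ⟨k, hk, rfl⟩
      have e : k' = r * k * r⁻¹ := Subtype.ext hk'eq
      rw [← e]
      exact hk'
    · intro hk
      obtain ⟨k', hk', hk'eq⟩ := h2.mpr ⟨r * k * r⁻¹, hk, rfl⟩
      have e : k' = k := Subtype.ext hk'eq
      rw [← e]
      exact hk'
  · intro x hx
    exact stabilizesBlock_subCentIso_symm H R₁' _ h₁ g₁'
      (hstab (x : G) (Subgroup.mem_map_of_mem H.subtype hx))
  · intro ξ' hξ'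
    have h1 := hω (mapIrr (subCentIso H R₂' _ h₂) ξ') ⟨ξ', hξ', rfl⟩
    rw [brauerOmega_subCentIso H R₂' _ h₂ _
      (Cfsg.subgroupBlockCoeff (Subgroup.centralizer (R₁' : Set H)) g₁') (by
        intro y hy
        have hy1 : y ∈ Subgroup.centralizer (R₁' : Set H) := Subgroup.centralizer_le hle' hy
        have hy2 : (y : G) ∈ Subgroup.centralizer ((R₁'.map H.subtype : Subgroup G) : Set G) :=
          (h₁ _).mpr ⟨y.2, hy1⟩
        rw [subgroupBlockCoeff_eq_ext0, subgroupBlockCoeff_eq_ext0, ext0_of_mem _ _ hy1,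
          ext0_of_mem _ _ hy2, blockCoeff_mapSet']
        rfl) ξ'] at h1
    exact h1

/-- **Induction from a subgroup containing the centralizer of a defect group.**  Let `b` be a
block of `H` with defect group `D₀` and `C_G(D₀) ≤ H`.  Then `b` induces a block `B` of `G`
having a defect group `D` with `Z(D) ≤ Z(D₀)` and `D₀ ≤ D`. -/
theorem exists_induced_of_centralizer_le (hM : Cfsg.IsPModular p M) (H : Subgroup G)
    (b : Set (Cfsg.IrrCharacter H)) (hb : Cfsg.IsPBlock M b) (D₀ : Subgroup H)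
    (hD₀ : Cfsg.IsDefectGroup p M b D₀)
    (hC : Subgroup.centralizer ((D₀.map H.subtype : Subgroup G) : Set G) ≤ H) :
    ∃ B : Set (Cfsg.IrrCharacter G), Cfsg.IsInducedBlock M H b B ∧
      ∃ D : Subgroup G, Cfsg.IsDefectGroup p M B D ∧
        (Subgroup.center D).map D.subtype ≤
          ((Subgroup.center D₀).map D₀.subtype).map H.subtype ∧
        D₀.map H.subtype ≤ D := by
  classical
  have hMp := isPrime_of_isPModular hM
  have hfinH : Fintype H := Fintype.ofFinite _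
  obtain ⟨e₀', hmaxH⟩ := exists_isMaximalBrauerPair_of_isDefectGroup hM hb hD₀
  have hpairH := hmaxH.1
  have hD₀p : IsPGroup p D₀ := hpairH.1.1
  have h₁ : CentEq H D₀ (D₀.map H.subtype) := centEq_map H D₀ hC
  have hD₁p : IsPGroup p (D₀.map H.subtype) := hD₀p.map _
  have he₀ : Cfsg.IsPBlock M (mapSet (subCentIso H D₀ _ h₁) e₀') :=
    isPBlock_mapSet hMp _ hpairH.1.2
  obtain ⟨ξ', hξ'⟩ := IsPBlock.nonempty hMp hpairH.1.2
  have hξ : mapIrr (subCentIso H D₀ _ h₁) ξ' ∈ mapSet (subCentIso H D₀ _ h₁) e₀' :=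
    ⟨ξ', hξ', rfl⟩
  obtain ⟨A, hA, hA1, -⟩ := exists_block_of_brauerOmega hM (D₀.map H.subtype) hD₁p
    (mapIrr (subCentIso H D₀ _ h₁) ξ')
  have hAR : LocInt M (Cfsg.blockCoeff A) := fun g => memLocalRing_blockCoeff hMp A hA g
  have hAadm : BrAdm M (D₀.map H.subtype) (Cfsg.blockCoeff A) :=
    brAdm_of_isClassFunction hAR (blockCoeff_isClassFunction A)
  have hpairG : Cfsg.IsBrauerPairOf p M A (D₀.map H.subtype)
      (mapSet (subCentIso H D₀ _ h₁) e₀') := by
    refine ⟨⟨hD₁p, he₀⟩, hA, fun ζ hζ => ?_⟩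
    have h1 := memLocalIdeal_brauerOmega_sub_of_sameBlock hMp (D₀.map H.subtype)
      (IsPBlock.sameBlock hMp he₀ hζ hξ) hAadm
    have h2 := memLocalIdeal_add hMp h1 hA1
    rwa [sub_add_sub_cancel] at h2
  have hind : Cfsg.IsInducedBlock M H b A := by
    refine ⟨hb, hA, fun ψ hψ χ hχ g => ?_⟩
    have hz := isRClass_classInd hMp g
    have hzH := isRClass_resFun (M := M) H hz
    have h2 := memLocalIdeal_brauerOmega_sub_omegaF hM hpairH hξ' hψ
      (z := resFun H (classInd g)) hzH.2 hzH.1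
    have h3 := memLocalIdeal_brauerOmega_sub_omegaF hM hpairG hξ hχ (z := classInd g) hz.2 hz.1
    rw [brauerOmega_subCentIso H D₀ _ h₁ (classInd g) (resFun H (classInd g))
      (fun y _ => rfl) ξ'] at h3
    rw [omegaF_eq, omega_resFun_classInd] at h2
    rw [omegaF_eq, omega_classInd (irrCharacter_conj_eq χ)] at h3
    have h4 := memLocalIdeal_sub hMp h3 h2
    rwa [sub_sub_sub_cancel_left] at h4
  refine ⟨A, hind, ?_⟩
  obtain ⟨D, eD, hmaxG, hleG⟩ :=
    exists_isMaximalBrauerPair_ge (M := M) _ (D₀.map H.subtype) _ rfl hpairG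
  have hDdef := Cfsg.Agent.S4659.result p M hM A D eD hmaxG
  have hD₁D : D₀.map H.subtype ≤ D :=
    subpairLE_le (a := ⟨D₀.map H.subtype, mapSet (subCentIso H D₀ _ h₁) e₀'⟩) (b := ⟨D, eD⟩) hleG
  obtain ⟨Z, hZ⟩ : ∃ Z : Subgroup G, Z = (Subgroup.center D).map D.subtype := ⟨_, rfl⟩
  have hZD : Z ≤ D := by
    rw [hZ]
    rintro _ ⟨z, -, rfl⟩
    exact z.2
  have hZcomm : ∀ z ∈ Z, ∀ d ∈ D, d * z = z * d := by
    rw [hZ]
    rintro _ ⟨z, hz, rfl⟩ d hd
    have h1 := Subgroup.mem_center_iff.mp hz ⟨d, hd⟩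
    exact congrArg Subtype.val h1
  have hZC : Z ≤ Subgroup.centralizer ((D₀.map H.subtype : Subgroup G) : Set G) := by
    intro z hz
    rw [Subgroup.mem_centralizer_iff]
    intro d hd
    exact hZcomm z hz d (hD₁D hd)
  have hZH : Z ≤ H := hZC.trans hC
  obtain ⟨P', hP'⟩ : ∃ P' : Subgroup H, P' = D₀ ⊔ Z.subgroupOf H := ⟨_, rfl⟩
  have hP'map : P'.map H.subtype = D₀.map H.subtype ⊔ Z := by
    rw [hP', Subgroup.map_sup, Subgroup.map_subgroupOf_eq_of_le hZH]
  have hD₁P : D₀.map H.subtype ≤ P'.map H.subtype := by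
    rw [hP'map]
    exact le_sup_left
  have hPD : P'.map H.subtype ≤ D := by
    rw [hP'map]
    exact sup_le hD₁D hZD
  have hPN : P'.map H.subtype ≤
      Subgroup.normalizer ((D₀.map H.subtype : Subgroup G) : Set G) := by
    rw [hP'map]
    exact sup_le Subgroup.le_normalizer (hZC.trans (Subgroup.centralizer_le_normalizer _))
  obtain ⟨g, hn, -⟩ := exists_isNormalSubpair_of_subpairLE hM hmaxG.1.1 hleG hD₁P hPD hPN
  have h₂ : CentEq H P' (P'.map H.subtype) :=
    centEq_map H P' ((Subgroup.centralizer_le hD₁P).trans hC)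
  rw [← mapSet_mapSet_symm (subCentIso H P' _ h₂) g] at hn
  have hn' := isNormalSubpair_sub_symm hMp H h₁ h₂ hn
  have hP'eq : P' = D₀ := hmaxH.2 P' _ (isBrauerPairOf_of_isNormalSubpair hM hn' hpairH)
    (Relation.ReflTransGen.single hn')
  have hZD₁ : Z ≤ D₀.map H.subtype := by
    intro z hz
    have h1 : (⟨z, hZH hz⟩ : H) ∈ P' := by
      rw [hP']
      exact Subgroup.mem_sup_right (Subgroup.mem_subgroupOf.mpr hz)
    rw [hP'eq] at h1
    exact ⟨_, h1, rfl⟩
  refine ⟨D, hDdef, ?_, hD₁D⟩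
  rw [← hZ]
  intro z hz
  obtain ⟨d₀, hd₀, rfl⟩ := hZD₁ hz
  refine ⟨d₀, ⟨⟨d₀, hd₀⟩, Subgroup.mem_center_iff.mpr ?_, rfl⟩, rfl⟩
  intro d'
  apply Subtype.ext
  apply Subtype.ext
  exact hZcomm (d₀ : G) hz ((d' : H) : G) (hD₁D ⟨d', d'.2, rfl⟩)

end Sub

end Cfsg.Agent.Lib.Helper77
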