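import Mathlib
import Cfsg.Prelude.Def_Blocks
import Cfsg.Prelude.Def_BlockLocal
import Cfsg.Prelude.Def_BrauerPairs
import Cfsg.Prelude.Def_BlockFusion
import Cfsg.Agent.Lib.Helper77.FusionPairs

/-!
# The fusion system of a block: fully normalized subgroups

Transport of the stabilizer of a block of `C_G(Q)` under conjugation, and the characterization
of fully normalized subgroups by defect groups of the block of the stabilizer.
-/

set_option autoImplicit false
set_option linter.unusedSectionVars false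

namespace Cfsg.Agent.Lib.Helper77

open Cfsg Cfsg.Agent.Lib.Helper16 Cfsg.Agent.Lib.Helper81

section StabTransport

variable {G : Type*} [Group G] {M : Ideal Cfsg.AlgInt}

theorem mapSet_subset_mapSet_iff {H H' : Type*} [Group H] [Group H'] (α : H ≃* H')
    (A B : Set (Cfsg.IrrCharacter H)) : mapSet α A ⊆ mapSet α B ↔ A ⊆ B := by
  constructor
  · intro h
    have h1 := mapSet_mono α.symm h
    rwa [mapSet_symm_mapSet, mapSet_symm_mapSet] at h1
  · exact mapSet_mono α

theorem conj_mem_normalizer_map_conj (x : G) (Q : Subgroup G) {t : G}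
    (ht : t ∈ Subgroup.normalizer (Q : Set G)) :
    x * t * x⁻¹ ∈ Subgroup.normalizer
      ((Q.map (MulAut.conj x).toMonoidHom : Subgroup G) : Set G) := by
  rw [← Subgroup.map_equiv_normalizer_eq Q (MulAut.conj x)]
  exact ⟨t, ht, rfl⟩

/-- `x t x⁻¹` stabilizes the conjugate block if and only if `t` stabilizes the block -/
theorem stabilizesBlock_conjBlock_iff (x : G) (Q : Subgroup G)
    (f : Set (Cfsg.IrrCharacter (Subgroup.centralizer (Q : Set G)))) {t : G}
    (ht : t ∈ Subgroup.normalizer (Q : Set G)) :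
    Cfsg.StabilizesBlock (Subgroup.centralizer
        ((Q.map (MulAut.conj x).toMonoidHom : Subgroup G) : Set G)) (Cfsg.conjBlock Q x f)
        (x * t * x⁻¹) ↔
      Cfsg.StabilizesBlock (Subgroup.centralizer (Q : Set G)) f t := by
  have ht' := normalizer_le_normalizer_centralizer Q ht
  have hu' := normalizer_le_normalizer_centralizer _ (conj_mem_normalizer_map_conj x Q ht)
  rw [stabilizesBlock_iff _ _ _ hu', stabilizesBlock_iff _ _ t ht', conjBlock_eq,
    conjBlockTo_eq_mapSet x Q _ rfl]
  have e : conjSet (Subgroup.centralizer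
      ((Q.map (MulAut.conj x).toMonoidHom : Subgroup G) : Set G)) (x * t * x⁻¹) hu'
      (mapSet (centIso x Q (Q.map (MulAut.conj x).toMonoidHom) rfl) f) =
      mapSet (centIso x Q (Q.map (MulAut.conj x).toMonoidHom) rfl)
        (conjSet (Subgroup.centralizer (Q : Set G)) t ht' f) := by
    unfold conjSet
    rw [← mapSet_trans, ← mapSet_trans]
    apply mapSet_congr
    intro c
    apply Subtype.ext
    show x * t * x⁻¹ * (x * (c : G) * x⁻¹) * (x * t * x⁻¹)⁻¹ = x * (t * (c : G) * t⁻¹) * x⁻¹
    group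
  rw [e, mapSet_subset_mapSet_iff]

/-- the stabilizer of the conjugate block is the conjugate of the stabilizer -/
theorem mem_map_conj_stab_iff (x : G) (Q : Subgroup G)
    (f : Set (Cfsg.IrrCharacter (Subgroup.centralizer (Q : Set G)))) (T : Subgroup G)
    (hT : ∀ y : G, y ∈ T ↔ y ∈ Subgroup.normalizer (Q : Set G) ∧
      Cfsg.StabilizesBlock (Subgroup.centralizer (Q : Set G)) f y) (y : G) :
    y ∈ T.map (MulAut.conj x).toMonoidHom ↔
      y ∈ Subgroup.normalizer ((Q.map (MulAut.conj x).toMonoidHom : Subgroup G) : Set G) ∧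
      Cfsg.StabilizesBlock (Subgroup.centralizer
        ((Q.map (MulAut.conj x).toMonoidHom : Subgroup G) : Set G)) (Cfsg.conjBlock Q x f) y := by
  constructor
  · rintro ⟨t, ht, rfl⟩
    obtain ⟨h1, h2⟩ := (hT t).mp ht
    exact ⟨conj_mem_normalizer_map_conj x Q h1, (stabilizesBlock_conjBlock_iff x Q f h1).mpr h2⟩
  · rintro ⟨h1, h2⟩
    rw [← Subgroup.map_equiv_normalizer_eq Q (MulAut.conj x)] at h1
    obtain ⟨t, ht, rfl⟩ := h1
    exact ⟨t, (hT t).mpr ⟨ht, (stabilizesBlock_conjBlock_iff x Q f ht).mp h2⟩, rfl⟩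

/-- the idempotent of the conjugate block -/
theorem ext0_blockCoeff_conjBlock (x : G) (Q : Subgroup G)
    (f : Set (Cfsg.IrrCharacter (Subgroup.centralizer (Q : Set G)))) (t : G) :
    ext0 (Subgroup.centralizer ((Q.map (MulAut.conj x).toMonoidHom : Subgroup G) : Set G))
        (Cfsg.blockCoeff (Cfsg.conjBlock Q x f)) (x * t * x⁻¹) =
      ext0 (Subgroup.centralizer (Q : Set G)) (Cfsg.blockCoeff f) t := by
  rw [conjBlock_eq, conjBlockTo_eq_mapSet x Q _ rfl]
  by_cases ht : t ∈ Subgroup.centralizer (Q : Set G)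
  · have ht' := (mem_centralizer_map_conj_iff x Q t).mp ht
    rw [ext0_of_mem _ _ ht, ext0_of_mem _ _ ht']
    exact blockCoeff_mapSet (centIso x Q _ rfl) f ⟨t, ht⟩
  · have ht' : x * t * x⁻¹ ∉ Subgroup.centralizer
        ((Q.map (MulAut.conj x).toMonoidHom : Subgroup G) : Set G) :=
      fun h => ht ((mem_centralizer_map_conj_iff x Q t).mpr h)
    rw [ext0_of_not_mem _ _ ht, ext0_of_not_mem _ _ ht']

end StabTransport

section FullyNormalized

variable {G : Type*} [Group G] [Fintype G] {M : Ideal Cfsg.AlgInt}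

/-- **Fully normalized subgroups.**  `Q` is fully normalized in the fusion system of the block
if and only if `N_P(Q)` is a defect group of the block of the stabilizer of `f` in `N_G(Q)`
whose idempotent is that of `f`. -/
theorem isFullyNormalized_iff {p : ℕ} [Fact p.Prime] (hM : Cfsg.IsPModular p M)
    {B : Set (Cfsg.IrrCharacter G)} {P : Subgroup G}
    {e : Set (Cfsg.IrrCharacter (Subgroup.centralizer (P : Set G)))} {F : Cfsg.FusionSystem P}
    (hF : Cfsg.IsBlockFusionSystemOn p M B P e F) {Q : Subgroup G}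
    {f : Set (Cfsg.IrrCharacter (Subgroup.centralizer (Q : Set G)))} (hQP : Q ≤ P)
    (hf : Cfsg.IsPBlock M f) (hle : Cfsg.SubpairLE p M Q f P e) (T : Subgroup G)
    (hT : ∀ y : G, y ∈ T ↔ y ∈ Subgroup.normalizer (Q : Set G) ∧
      Cfsg.StabilizesBlock (Subgroup.centralizer (Q : Set G)) f y) :
    F.IsFullyNormalized Q ↔ ∃ F' : Set (Cfsg.IrrCharacter T), Cfsg.IsPBlock M F' ∧
      (∀ t : T, Cfsg.blockCoeff F' t =
        Cfsg.subgroupBlockCoeff (Subgroup.centralizer (Q : Set G)) f (t : G)) ∧
      Cfsg.IsDefectGroup p M F' ((P ⊓ Subgroup.normalizer (Q : Set G)).subgroupOf T) := by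
  have hMp := isPrime_of_isPModular hM
  have hmax := hF.1
  have hfinT : Fintype T := Fintype.ofFinite _
  obtain ⟨hRT, F₀, hF₀, hF₀e, D, hD, hWD⟩ :=
    exists_block_isDefectGroup_normalizer_ge hM hmax hQP hle hf T hT
  have hcardW : Nat.card ((P ⊓ Subgroup.normalizer (Q : Set G)).subgroupOf T) =
      Nat.card (P ⊓ Subgroup.normalizer (Q : Set G) : Subgroup G) :=
    Nat.card_congr (Subgroup.subgroupOfEquivOfLe hRT).toEquiv
  constructor
  · rintro ⟨-, hfn⟩
    have hQD : Q.subgroupOf T ≤ D := by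
      refine le_trans ?_ hWD
      intro t ht
      rw [Subgroup.mem_subgroupOf] at ht ⊢
      exact ⟨hQP ht, Subgroup.le_normalizer ht⟩
    obtain ⟨z, hz, hcard⟩ := exists_conj_card_normalizer_ge hM hmax hle hf T hT F₀ hF₀e D hD hQD
    have h2 := hfn _ ((blockFusion_isConj_iff hM hF hQP hle _).mpr ⟨z, rfl, hz⟩)
    have h3 := Subgroup.eq_of_le_of_card_ge hWD (by rw [hcardW]; exact hcard.trans h2)
    refine ⟨F₀, hF₀, hF₀e, ?_⟩
    rw [h3]
    exact hD
  · rintro ⟨F', hF', hF'e, hDW⟩
    refine ⟨hQP, fun Q' hQ' => ?_⟩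
    obtain ⟨g, rfl, hleg⟩ := (blockFusion_isConj_iff hM hF hQP hle Q').mp hQ'
    have hTg := mem_map_conj_stab_iff g Q f T hT
    have hfinTg : Fintype (T.map (MulAut.conj g).toMonoidHom) := Fintype.ofFinite _
    obtain ⟨hRTg, F'', hF'', hF''e, D'', hD'', hWD''⟩ :=
      exists_block_isDefectGroup_normalizer_ge hM hmax (subpairLE_le hleg) hleg
        (isPBlock_conjBlock hMp Q g hf) (T.map (MulAut.conj g).toMonoidHom) hTg
    have hFeq : mapSet (conjIso g T (T.map (MulAut.conj g).toMonoidHom)
        (fun k => (mem_map_conj_iff g T k).symm)) F' = F'' := by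
      apply eq_of_blockCoeff_eq
      funext t'
      rw [hF''e t', blockCoeff_mapSet' _ F' t', hF'e, subgroupBlockCoeff_eq_ext0,
        subgroupBlockCoeff_eq_ext0]
      have h1 := ext0_blockCoeff_conjBlock g Q f
        ((((conjIso g T (T.map (MulAut.conj g).toMonoidHom)
          (fun k => (mem_map_conj_iff g T k).symm)).symm t' : T)) : G)
      have e1 : g * ((((conjIso g T (T.map (MulAut.conj g).toMonoidHom)
          (fun k => (mem_map_conj_iff g T k).symm)).symm t' : T)) : G) * g⁻¹ = (t' : G) := by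
        rw [conjIso_symm_apply_coe]
        group
      rw [e1] at h1
      exact h1.symm
    have h1 := isDefectGroup_mapSet (M := M) (conjIso g T (T.map (MulAut.conj g).toMonoidHom)
        (fun k => (mem_map_conj_iff g T k).symm)) hDW
    rw [hFeq] at h1
    have h2 := card_eq_of_isDefectGroup hM hF'' hD'' h1
    have h3 := Subgroup.card_le_of_le hWD''
    have hcardWg : Nat.card ((P ⊓ Subgroup.normalizer
        ((Q.map (MulAut.conj g).toMonoidHom : Subgroup G) : Set G)).subgroupOf
        (T.map (MulAut.conj g).toMonoidHom)) =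
        Nat.card (P ⊓ Subgroup.normalizer
          ((Q.map (MulAut.conj g).toMonoidHom : Subgroup G) : Set G) : Subgroup G) :=
      Nat.card_congr (Subgroup.subgroupOfEquivOfLe hRTg).toEquiv
    rw [h2, Subgroup.card_map_of_injective (MulEquiv.injective _), hcardW, hcardWg] at h3
    exact h3

end FullyNormalized

end Cfsg.Agent.Lib.Helper77
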