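import Mathlib
import Cfsg.Prelude.Def_Blocks
import Cfsg.Prelude.Def_BlockLocal
import Cfsg.Prelude.Def_BrauerPairs
import Cfsg.Agent.Lib.Helper77.PairTools
import Cfsg.Agent.Lib.Helper77.SubBlock
import Cfsg.Agent.Lib.Helper77.FusionNorm
import Cfsg.Agent.S4659
import Cfsg.Agent.S4660

/-!
# Nilpotent blocks control their fusion

For a nilpotent block with maximal Brauer pair `(P, e)`, every conjugation between Brauer
pairs below `(P, e)` is induced by an element of `P`.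
-/

set_option autoImplicit false
set_option linter.unusedSectionVars false

namespace Cfsg.Agent.Lib.Helper77

open Cfsg Cfsg.Agent.Lib.Helper16 Cfsg.Agent.Lib.Helper81

section Ctrl

variable {G : Type*} [Group G]

/-- the elements acting on `P` by conjugation as elements of `P` do -/
def ctrlSubgroup (P : Subgroup G) : Subgroup G where
  carrier := {x | ∃ u ∈ P, ∀ q ∈ P, x * q * x⁻¹ = u * q * u⁻¹}
  one_mem' := ⟨1, P.one_mem, fun q _ => rfl⟩
  mul_mem' := by
    rintro x y ⟨u, hu, hxu⟩ ⟨w, hw, hyw⟩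
    refine ⟨u * w, P.mul_mem hu hw, fun q hq => ?_⟩
    have h1 := hyw q hq
    have h2 := hxu (w * q * w⁻¹) (P.mul_mem (P.mul_mem hw hq) (P.inv_mem hw))
    calc x * y * q * (x * y)⁻¹ = x * (y * q * y⁻¹) * x⁻¹ := by group
      _ = x * (w * q * w⁻¹) * x⁻¹ := by rw [h1]
      _ = u * (w * q * w⁻¹) * u⁻¹ := h2
      _ = u * w * q * (u * w)⁻¹ := by group
  inv_mem' := by
    rintro x ⟨u, hu, hxu⟩
    refine ⟨u⁻¹, P.inv_mem hu, fun q hq => ?_⟩
    have h2 := hxu (u⁻¹ * q * u) (P.mul_mem (P.mul_mem (P.inv_mem hu) hq) hu)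
    have h3 : x * (u⁻¹ * q * u) * x⁻¹ = q := by rw [h2]; group
    calc x⁻¹ * q * x⁻¹⁻¹ = x⁻¹ * (x * (u⁻¹ * q * u) * x⁻¹) * x := by rw [h3, inv_inv]
      _ = u⁻¹ * q * u⁻¹⁻¹ := by group

theorem mem_ctrlSubgroup {P : Subgroup G} {x : G} :
    x ∈ ctrlSubgroup P ↔ ∃ u ∈ P, ∀ q ∈ P, x * q * x⁻¹ = u * q * u⁻¹ := Iff.rfl

theorem le_ctrlSubgroup (P : Subgroup G) : P ≤ ctrlSubgroup P :=
  fun u hu => ⟨u, hu, fun _ _ => rfl⟩

theorem centralizer_le_ctrlSubgroup (P : Subgroup G) :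
    Subgroup.centralizer (P : Set G) ≤ ctrlSubgroup P := by
  intro c hc
  refine ⟨1, P.one_mem, fun q hq => ?_⟩
  have h := Subgroup.mem_centralizer_iff.mp hc q hq
  calc c * q * c⁻¹ = (q * c) * c⁻¹ := by rw [h]
    _ = 1 * q * 1⁻¹ := by group

end Ctrl

section Nil

variable {G : Type*} [Group G] [Fintype G] {M : Ideal Cfsg.AlgInt} {p : ℕ} [Fact p.Prime]

/-- an element of a finite group is the product of powers of its `p`-regular power and its
`p`-power power -/
theorem exists_pow_decomp (x : G) :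
    ∃ (k m : ℕ) (A B : ℤ), ¬ p ∣ m ∧ orderOf x = p ^ k * m ∧
      x = (x ^ (p ^ k)) ^ A * (x ^ m) ^ B := by
  have hp : p.Prime := Fact.out
  obtain ⟨k, m, hpm, hord⟩ :=
    Nat.exists_eq_pow_mul_and_not_dvd (orderOf_pos x).ne' p hp.ne_one
  have hcop : Nat.Coprime (p ^ k) m :=
    Nat.Coprime.pow_left k ((Nat.Prime.coprime_iff_not_dvd hp).mpr hpm)
  have hbez := Int.gcd_eq_gcd_ab (p ^ k : ℕ) m
  rw [Int.gcd_natCast_natCast, hcop] at hbez
  refine ⟨k, m, Int.gcdA (p ^ k : ℕ) m, Int.gcdB (p ^ k : ℕ) m, hpm, hord, ?_⟩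
  rw [← zpow_natCast x (p ^ k), ← zpow_natCast x m, ← zpow_mul, ← zpow_mul, ← zpow_add,
    ← hbez]
  simp

/-- the `p`-regular power of an element -/
theorem isPRegular_pow_of_orderOf {x : G} {k m : ℕ} (hpm : ¬ p ∣ m)
    (hord : orderOf x = p ^ k * m) : Cfsg.IsPRegular p (x ^ (p ^ k)) := by
  intro hdvd
  apply hpm
  have h1 : orderOf (x ^ (p ^ k)) ∣ m := by
    apply orderOf_dvd_of_pow_eq_one
    rw [← pow_mul, ← hord, pow_orderOf_eq_one]
  exact hdvd.trans h1

/-- the `p`-power power of an element generates a `p`-group -/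
theorem isPGroup_zpowers_pow_of_orderOf {x : G} {k m : ℕ}
    (hord : orderOf x = p ^ k * m) : IsPGroup p (Subgroup.zpowers (x ^ m)) := by
  have hp : p.Prime := Fact.out
  have h1 : orderOf (x ^ m) ∣ p ^ k := by
    apply orderOf_dvd_of_pow_eq_one
    rw [← pow_mul, mul_comm, ← hord, pow_orderOf_eq_one]
  obtain ⟨j, -, hj⟩ := (Nat.dvd_prime_pow hp).mp h1
  exact IsPGroup.of_card (n := j) (by rw [Nat.card_zpowers, hj])

/-- **Nilpotent blocks: the stabilizer of a pair.**  For a Brauer pair `(Q, f)` of a nilpotent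
block, the index of `C_G(Q)` in the stabilizer `T` of `f` in `N_G(Q)` is a power of `p`. -/
theorem relIndex_stab_of_isNilpotentBlock {B : Set (Cfsg.IrrCharacter G)}
    (hnil : Cfsg.IsNilpotentBlock p M B) {Q : Subgroup G}
    {f : Set (Cfsg.IrrCharacter (Subgroup.centralizer (Q : Set G)))}
    (hQf : Cfsg.IsBrauerPairOf p M B Q f) (T : Subgroup G)
    (hT : ∀ y : G, y ∈ T ↔ y ∈ Subgroup.normalizer (Q : Set G) ∧
      Cfsg.StabilizesBlock (Subgroup.centralizer (Q : Set G)) f y) :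
    ∃ k : ℕ, (Subgroup.centralizer (Q : Set G)).relIndex T = p ^ k := by
  have hCT : Subgroup.centralizer (Q : Set G) ≤ T := fun c hc =>
    (hT c).mpr ⟨Subgroup.centralizer_le_normalizer (Q : Set G) hc, stabilizesBlock_of_mem _ f hc⟩
  have hTN : T ≤ Subgroup.normalizer ((Subgroup.centralizer (Q : Set G) : Subgroup G) : Set G) :=
    fun t ht => normalizer_le_normalizer_centralizer Q ((hT t).mp ht).1
  haveI hn : ((Subgroup.centralizer (Q : Set G)).subgroupOf T).Normal :=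
    (Subgroup.normal_subgroupOf_iff_le_normalizer hCT).mpr hTN
  have hpg : IsPGroup p (T ⧸ (Subgroup.centralizer (Q : Set G)).subgroupOf T) := by
    intro xbar
    obtain ⟨x, rfl⟩ := QuotientGroup.mk_surjective xbar
    obtain ⟨k, m, A, B', hpm, hord, -⟩ := exists_pow_decomp (p := p) (x : G)
    refine ⟨k, ?_⟩
    rw [← QuotientGroup.mk_pow, QuotientGroup.eq_one_iff, Subgroup.mem_subgroupOf]
    push_cast
    have hx := (hT (x : G)).mp x.2
    exact hnil.2 Q f hQf _ (Subgroup.pow_mem _ hx.1 _)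
      (Subgroup.pow_mem (blockStab (Subgroup.centralizer (Q : Set G)) f) hx.2 _)
      (isPRegular_pow_of_orderOf hpm hord)
  obtain ⟨k, hk⟩ := IsPGroup.iff_card.mp hpg
  exact ⟨k, by rw [← hk]; rfl⟩

/-- **Nilpotent blocks: the inertial group of a maximal pair.**  Every element of `N_G(P)`
stabilizing `e` acts on `P` as an element of `P`. -/
theorem mem_ctrlSubgroup_of_isNilpotentBlock (hM : Cfsg.IsPModular p M)
    {B : Set (Cfsg.IrrCharacter G)} {P : Subgroup G}
    {e : Set (Cfsg.IrrCharacter (Subgroup.centralizer (P : Set G)))}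
    (hmax : Cfsg.IsMaximalBrauerPair p M B P e) (hnil : Cfsg.IsNilpotentBlock p M B) {x : G}
    (hxn : x ∈ Subgroup.normalizer (P : Set G))
    (hxs : Cfsg.StabilizesBlock (Subgroup.centralizer (P : Set G)) e x) :
    x ∈ ctrlSubgroup P := by
  obtain ⟨k, m, A, B', hpm, hord, hx⟩ := exists_pow_decomp (p := p) x
  have hu : x ^ (p ^ k) ∈ Subgroup.centralizer (P : Set G) :=
    hnil.2 P e hmax.1 _ (Subgroup.pow_mem _ hxn _)
      (Subgroup.pow_mem (blockStab (Subgroup.centralizer (P : Set G)) e) hxs _)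
      (isPRegular_pow_of_orderOf hpm hord)
  have hv := mem_sup_centralizer_of_isMaximalBrauerPair hM hmax (Subgroup.pow_mem _ hxn m)
    (Subgroup.pow_mem (blockStab (Subgroup.centralizer (P : Set G)) e) hxs m)
    (isPGroup_zpowers_pow_of_orderOf hord)
  have hle : P ⊔ Subgroup.centralizer (P : Set G) ≤ ctrlSubgroup P :=
    sup_le (le_ctrlSubgroup P) (centralizer_le_ctrlSubgroup P)
  rw [hx]
  exact Subgroup.mul_mem _ (Subgroup.zpow_mem _ (centralizer_le_ctrlSubgroup P hu) _)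
    (Subgroup.zpow_mem _ (hle hv) _)

/-- **Sylow's theorem for the pairs above a pair.**  Let `T` be the stabilizer of the Brauer
pair `(Q, f)` and `b` the block of `T` with the idempotent of `f`.  Two pairs normally
containing `(Q, f)` lie, one of them after conjugation by an element of `T`, below a common
pair read from a maximal Brauer pair `(D, eD)` of `b`. -/
theorem exists_conj_subpairLE_of_isNormalSubpair (hM : Cfsg.IsPModular p M) {Q : Subgroup G}
    {f : Set (Cfsg.IrrCharacter (Subgroup.centralizer (Q : Set G)))} (T : Subgroup G)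
    (hT : ∀ y : G, y ∈ T ↔ y ∈ Subgroup.normalizer (Q : Set G) ∧
      Cfsg.StabilizesBlock (Subgroup.centralizer (Q : Set G)) f y)
    {b : Set (Cfsg.IrrCharacter T)} (hb : Cfsg.IsPBlock M b)
    (hbf : ∀ t : T, Cfsg.blockCoeff b t =
      Cfsg.subgroupBlockCoeff (Subgroup.centralizer (Q : Set G)) f (t : G))
    {R₁ R₃ : Subgroup G}
    {g₁ : Set (Cfsg.IrrCharacter (Subgroup.centralizer (R₁ : Set G)))}
    {g₃ : Set (Cfsg.IrrCharacter (Subgroup.centralizer (R₃ : Set G)))}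
    (hn₁ : Cfsg.IsNormalSubpair p M Q f R₁ g₁) (hn₃ : Cfsg.IsNormalSubpair p M Q f R₃ g₃) :
    ∃ (D : Subgroup T) (eD : Set (Cfsg.IrrCharacter (Subgroup.centralizer (D : Set T))))
      (hD : CentEq T D (D.map T.subtype)) (t : T),
      Cfsg.IsMaximalBrauerPair p M b D eD ∧
      Cfsg.SubpairLE p M R₁ g₁ (D.map T.subtype) (mapSet (subCentIso T D _ hD) eD) ∧
      Cfsg.SubpairLE p M (R₃.map (MulAut.conj (t : G)).toMonoidHom)
        (Cfsg.conjBlock R₃ (t : G) g₃) (D.map T.subtype)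
        (mapSet (subCentIso T D _ hD) eD) := by
  classical
  have hMp := isPrime_of_isPModular hM
  have hfinT : Fintype T := Fintype.ofFinite _
  have hCT : Subgroup.centralizer (Q : Set G) ≤ T := fun c hc =>
    (hT c).mpr ⟨Subgroup.centralizer_le_normalizer (Q : Set G) hc, stabilizesBlock_of_mem _ f hc⟩
  have key : ∀ {R : Subgroup G}
      {g : Set (Cfsg.IrrCharacter (Subgroup.centralizer (R : Set G)))},
      Cfsg.IsNormalSubpair p M Q f R g → R ≤ T ∧ Subgroup.centralizer (R : Set G) ≤ T := by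
    intro R g hn
    exact ⟨fun r hr => (hT r).mpr ⟨hn.2.2.2.1 hr, hn.2.2.2.2.1 r hr⟩,
      (Subgroup.centralizer_le hn.2.2.1).trans hCT⟩
  obtain ⟨hR₁T, hC₁T⟩ := key hn₁
  obtain ⟨hR₃T, hC₃T⟩ := key hn₃
  have h₁ := centEq_subgroupOf T R₁ hR₁T hC₁T
  have h₃ := centEq_subgroupOf T R₃ hR₃T hC₃T
  have pair₁ : Cfsg.IsBrauerPairOf p M b (R₁.subgroupOf T)
      (mapSet (subCentIso T _ R₁ h₁).symm g₁) := by
    apply isBrauerPairOf_of_isNormalSubpair_sub hMp T hb hbf h₁ hn₁.2.1.1.comap_subtype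
    rw [mapSet_mapSet_symm]
    exact hn₁
  have pair₃ : Cfsg.IsBrauerPairOf p M b (R₃.subgroupOf T)
      (mapSet (subCentIso T _ R₃ h₃).symm g₃) := by
    apply isBrauerPairOf_of_isNormalSubpair_sub hMp T hb hbf h₃ hn₃.2.1.1.comap_subtype
    rw [mapSet_mapSet_symm]
    exact hn₃
  obtain ⟨D, eD, hDmax, hle₁⟩ :=
    exists_isMaximalBrauerPair_ge (M := M) _ (R₁.subgroupOf T) _ rfl pair₁
  obtain ⟨t, ht⟩ := Cfsg.Agent.S4660.result p M hM b D (R₃.subgroupOf T) eD _ hDmax pair₃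
  -- the first chain
  have hmap₁ : (R₁.subgroupOf T).map T.subtype = R₁ := Subgroup.map_subgroupOf_eq_of_le hR₁T
  have ha₁ : CentEq T (R₁.subgroupOf T) ((R₁.subgroupOf T).map T.subtype) := by
    apply centEq_map
    rw [hmap₁]
    exact hC₁T
  obtain ⟨hD, hchain₁⟩ := subpairLE_sub hMp T
    ⟨R₁.subgroupOf T, mapSet (subCentIso T _ R₁ h₁).symm g₁⟩ ⟨D, eD⟩ hle₁ ha₁
  have hsig₁ : (⟨(R₁.subgroupOf T).map T.subtype, mapSet (subCentIso T (R₁.subgroupOf T) _ ha₁)
      (mapSet (subCentIso T (R₁.subgroupOf T) R₁ h₁).symm g₁)⟩ : Cfsg.BrauerPairIdx G) =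
      ⟨R₁, g₁⟩ := by
    rw [sigma_subCentIso_eq T (R₁.subgroupOf T) _ R₁ ha₁ h₁ hmap₁, mapSet_mapSet_symm]
  rw [hsig₁] at hchain₁
  -- the second chain
  have hmap₃ : ((R₃.subgroupOf T).map (MulAut.conj t).toMonoidHom).map T.subtype =
      R₃.map (MulAut.conj (t : G)).toMonoidHom := by
    ext z
    constructor
    · rintro ⟨_, ⟨r, hr, rfl⟩, rfl⟩
      exact ⟨(r : G), Subgroup.mem_subgroupOf.mp hr, rfl⟩
    · rintro ⟨r, hr, rfl⟩
      exact ⟨t * ⟨r, hR₃T hr⟩ * t⁻¹, ⟨⟨r, hR₃T hr⟩, Subgroup.mem_subgroupOf.mpr hr, rfl⟩, rfl⟩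
  have hQle : Q ≤ R₃.map (MulAut.conj (t : G)).toMonoidHom :=
    (map_conj_eq_of_mem_normalizer ((hT t).mp t.2).1).le.trans (Subgroup.map_mono hn₃.2.2.1)
  have hC₃c : Subgroup.centralizer
      ((R₃.map (MulAut.conj (t : G)).toMonoidHom : Subgroup G) : Set G) ≤ T :=
    (Subgroup.centralizer_le hQle).trans hCT
  have ha₃ : CentEq T ((R₃.subgroupOf T).map (MulAut.conj t).toMonoidHom)
      (((R₃.subgroupOf T).map (MulAut.conj t).toMonoidHom).map T.subtype) := by
    apply centEq_map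
    rw [hmap₃]
    exact hC₃c
  have h₃c : CentEq T ((R₃.subgroupOf T).map (MulAut.conj t).toMonoidHom)
      (R₃.map (MulAut.conj (t : G)).toMonoidHom) := by
    rw [← hmap₃]
    exact ha₃
  obtain ⟨hD', hchain₃⟩ := subpairLE_sub hMp T
    ⟨_, Cfsg.conjBlock (R₃.subgroupOf T) t (mapSet (subCentIso T _ R₃ h₃).symm g₃)⟩ ⟨D, eD⟩
    ht ha₃
  have hsig₃ : (⟨((R₃.subgroupOf T).map (MulAut.conj t).toMonoidHom).map T.subtype,
      mapSet (subCentIso T _ _ ha₃) (Cfsg.conjBlock (R₃.subgroupOf T) t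
        (mapSet (subCentIso T (R₃.subgroupOf T) R₃ h₃).symm g₃))⟩ : Cfsg.BrauerPairIdx G) =
      ⟨R₃.map (MulAut.conj (t : G)).toMonoidHom, Cfsg.conjBlock R₃ (t : G) g₃⟩ := by
    rw [sigma_subCentIso_eq T _ _ _ ha₃ h₃c hmap₃,
      mapSet_subCentIso_conjBlock T t (R₃.subgroupOf T) R₃ _ h₃ h₃c rfl, mapSet_mapSet_symm,
      ← conjBlock_eq]
  rw [hsig₃] at hchain₃
  exact ⟨D, eD, hD, t, hDmax, hchain₁, hchain₃⟩

omit [Fintype G] in
/-- a proper subgroup of a finite `p`-group is properly contained in a subgroup normalizing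
it -/
theorem exists_normalizer_step [Finite G] {P Q : Subgroup G} (hP : IsPGroup p P) (hQP : Q ≤ P)
    (hne : Q ≠ P) : ∃ R : Subgroup G, Q ≤ R ∧ R ≤ P ∧ R ≤ Subgroup.normalizer (Q : Set G) ∧
      Nat.card Q < Nat.card R := by
  obtain ⟨x, hxP, hxN, hxQ⟩ := exists_mem_normalizer_not_mem hP hQP hne
  have hle : Q ≤ P ⊓ Subgroup.normalizer (Q : Set G) := le_inf hQP Subgroup.le_normalizer
  refine ⟨P ⊓ Subgroup.normalizer (Q : Set G), hle, inf_le_left, inf_le_right, ?_⟩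
  by_contra hcon
  push_neg at hcon
  have h := Subgroup.eq_of_le_of_card_ge hle hcon
  exact hxQ (h ▸ (⟨hxP, hxN⟩ : x ∈ P ⊓ Subgroup.normalizer (Q : Set G)))

/-- **Nilpotent blocks control their fusion.**  Let `(P, e)` be a maximal Brauer pair of the
nilpotent block `B`.  If `(Q, f)` and its conjugate by `g` both lie below `(P, e)`, then `g`
acts on `Q` as an element of `P`. -/
theorem exists_conj_eq_of_isNilpotentBlock (hM : Cfsg.IsPModular p M)
    {B : Set (Cfsg.IrrCharacter G)} {P : Subgroup G}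
    {e : Set (Cfsg.IrrCharacter (Subgroup.centralizer (P : Set G)))}
    (hmax : Cfsg.IsMaximalBrauerPair p M B P e) (hnil : Cfsg.IsNilpotentBlock p M B) :
    ∀ (n : ℕ) (Q : Subgroup G) (f : Set (Cfsg.IrrCharacter (Subgroup.centralizer (Q : Set G))))
      (g : G), Nat.card P - Nat.card Q = n → Cfsg.SubpairLE p M Q f P e →
      Cfsg.SubpairLE p M (Q.map (MulAut.conj g).toMonoidHom) (Cfsg.conjBlock Q g f) P e →
      ∃ u ∈ P, ∀ q ∈ Q, g * q * g⁻¹ = u * q * u⁻¹ := by
  classical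
  have hMp := isPrime_of_isPModular hM
  have hPe := hmax.1.1
  intro n
  induction n using Nat.strong_induction_on with
  | _ n ih =>
    intro Q f g hn hle hle'
    have hQP : Q ≤ P := subpairLE_le hle
    have hQ'P : Q.map (MulAut.conj g).toMonoidHom ≤ P := subpairLE_le hle'
    by_cases hQeq : Q = P
    · subst hQeq
      have hfe : f = e := subpairLE_unique hM _ Q e le_rfl hPe Q f e hle Relation.ReflTransGen.refl
      subst hfe
      have hgrp : Q.map (MulAut.conj g).toMonoidHom = Q :=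
        Subgroup.eq_of_le_of_card_ge hQ'P (by rw [card_map_conj])
      have hgn : g ∈ Subgroup.normalizer (Q : Set G) := mem_normalizer_of_map_conj_eq hgrp
      have hsig := eq_of_subpairLE_of_eq hM hle' hPe hgrp
      rw [sigma_conjBlock_eq g Q Q hgrp.symm f] at hsig
      have h1 : conjBlockTo g Q Q f = f := eq_of_heq (Sigma.mk.inj hsig).2
      rw [conjBlockTo_eq_conjSet Q g hgn] at h1
      have hgs : Cfsg.StabilizesBlock (Subgroup.centralizer (Q : Set G)) f g :=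
        (stabilizesBlock_iff _ _ _ (normalizer_le_normalizer_centralizer Q hgn)).mpr h1.le
      exact mem_ctrlSubgroup_of_isNilpotentBlock hM hmax hnil hgn hgs
    · have hcardQ' : Nat.card (Q.map (MulAut.conj g).toMonoidHom) = Nat.card Q := card_map_conj g Q
      have hQ'ne : Q.map (MulAut.conj g).toMonoidHom ≠ P := by
        intro h
        apply hQeq
        apply Subgroup.eq_of_le_of_card_ge hQP
        rw [← hcardQ', h]
      obtain ⟨Q₁, hQQ₁, hQ₁P, hQ₁N, hcard₁⟩ := exists_normalizer_step hPe.1 hQP hQeq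
      obtain ⟨Q₂, hQQ₂, hQ₂P, hQ₂N, hcard₂⟩ := exists_normalizer_step hPe.1 hQ'P hQ'ne
      obtain ⟨f₁, hns₁, hle₁⟩ := exists_isNormalSubpair_of_subpairLE hM hPe hle hQQ₁ hQ₁P hQ₁N
      obtain ⟨f₂, hns₂, hle₂⟩ := exists_isNormalSubpair_of_subpairLE hM hPe hle' hQQ₂ hQ₂P hQ₂N
      have hf : Cfsg.IsPBlock M f := hns₁.1.2
      -- the pair `(Q₃, f₃)`, the conjugate of `(Q₂, f₂)` by `g⁻¹`
      have hback : (Q.map (MulAut.conj g).toMonoidHom).map (MulAut.conj g⁻¹).toMonoidHom = Q := by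
        rw [map_conj_map_conj, inv_mul_cancel]
        exact (map_conj_eq_of_mem_normalizer (Subgroup.one_mem _)).symm
      have hle₃ : Cfsg.SubpairLE p M Q f (Q₂.map (MulAut.conj g⁻¹).toMonoidHom)
          (Cfsg.conjBlock Q₂ g⁻¹ f₂) := by
        have h := subpairLE_conjBlock hMp g⁻¹
          (show Cfsg.SubpairLE p M (Q.map (MulAut.conj g).toMonoidHom) (Cfsg.conjBlock Q g f) Q₂ f₂
            from Relation.ReflTransGen.single hns₂)
        unfold Cfsg.SubpairLE at h ⊢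
        rwa [sigma_conjBlock_conjBlock, inv_mul_cancel, sigma_conjBlock_one] at h
      have hQ₃N : Q₂.map (MulAut.conj g⁻¹).toMonoidHom ≤ Subgroup.normalizer (Q : Set G) := by
        rintro _ ⟨r, hr, rfl⟩
        have h := conj_mem_normalizer_map_conj g⁻¹ _ (hQ₂N hr)
        rw [hback] at h
        exact h
      have hns₃ : Cfsg.IsNormalSubpair p M Q f (Q₂.map (MulAut.conj g⁻¹).toMonoidHom)
          (Cfsg.conjBlock Q₂ g⁻¹ f₂) :=
        isNormalSubpair_of_subpairLE hM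
          ⟨(hPe.1.to_le hQ₂P).map _, isPBlock_conjBlock hMp Q₂ g⁻¹ hns₂.2.1.2⟩ hle₃ hQ₃N
      -- the stabilizer and its block
      obtain ⟨T, hT⟩ : ∃ T : Subgroup G, ∀ y : G, y ∈ T ↔ y ∈ Subgroup.normalizer (Q : Set G) ∧
          Cfsg.StabilizesBlock (Subgroup.centralizer (Q : Set G)) f y :=
        ⟨blockStab (Subgroup.centralizer (Q : Set G)) f ⊓ Subgroup.normalizer (Q : Set G),
          fun y => ⟨fun h => ⟨h.2, h.1⟩, fun h => ⟨h.2, h.1⟩⟩⟩
      have hfinT : Fintype T := Fintype.ofFinite _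
      have hCT : Subgroup.centralizer (Q : Set G) ≤ T := fun c hc =>
        (hT c).mpr ⟨Subgroup.centralizer_le_normalizer (Q : Set G) hc,
          stabilizesBlock_of_mem _ f hc⟩
      have hTN : T ≤ Subgroup.normalizer
          ((Subgroup.centralizer (Q : Set G) : Subgroup G) : Set G) :=
        fun t ht => normalizer_le_normalizer_centralizer Q ((hT t).mp ht).1
      obtain ⟨-, b, hb, hbf, -⟩ :=
        exists_block_isDefectGroup_normalizer_ge hM hmax hQP hle hf T hT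
      obtain ⟨D, eD, hD, t, hDmax, hc₁, hc₃⟩ :=
        exists_conj_subpairLE_of_isNormalSubpair hM T hT hb hbf hns₁ hns₃
      have hB₁ : Cfsg.IsBrauerPairOf p M B Q₁ f₁ := isBrauerPairOf_of_subpairLE_down hM hle₁ hmax.1
      have hBD : Cfsg.IsBrauerPairOf p M B (D.map T.subtype) (mapSet (subCentIso T D _ hD) eD) :=
        isBrauerPairOf_of_subpairLE hM hc₁ hB₁
      obtain ⟨a, ha⟩ := Cfsg.Agent.S4660.result p M hM B P (D.map T.subtype) e _ hmax hBD
      have hDaP : (D.map T.subtype).map (MulAut.conj a).toMonoidHom ≤ P := subpairLE_le ha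
      -- the induction hypothesis, twice
      have hcQ₁P : Nat.card Q₁ ≤ Nat.card P := Subgroup.card_le_of_le hQ₁P
      have hcQ₂P : Nat.card Q₂ ≤ Nat.card P := Subgroup.card_le_of_le hQ₂P
      have hle₁a : Cfsg.SubpairLE p M (Q₁.map (MulAut.conj a).toMonoidHom)
          (Cfsg.conjBlock Q₁ a f₁) P e := (subpairLE_conjBlock hMp a hc₁).trans ha
      obtain ⟨u₁, hu₁, hA⟩ := ih (Nat.card P - Nat.card Q₁) (by omega) Q₁ f₁ a rfl hle₁ hle₁a
      have hle₂a : Cfsg.SubpairLE p M (Q₂.map (MulAut.conj (a * t * g⁻¹)).toMonoidHom)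
          (Cfsg.conjBlock Q₂ (a * t * g⁻¹) f₂) P e := by
        have h := (subpairLE_conjBlock hMp a hc₃).trans ha
        unfold Cfsg.SubpairLE at h ⊢
        rwa [sigma_conjBlock_conjBlock, sigma_conjBlock_conjBlock] at h
      obtain ⟨u₂, hu₂, hB⟩ := ih (Nat.card P - Nat.card Q₂) (by omega) Q₂ f₂ (a * t * g⁻¹) rfl
        hle₂ hle₂a
      -- the decomposition of `t`
      have hDdef : Cfsg.IsDefectGroup p M b D := Cfsg.Agent.S4659.result p M hM b D eD hDmax
      have hQf : Cfsg.IsBrauerPairOf p M B Q f := isBrauerPairOf_of_subpairLE_down hM hle hmax.1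
      have hidx := relIndex_stab_of_isNilpotentBlock hnil hQf T hT
      have hsup := (sup_eq_top_and_isDefectGroup_inf_rel hM hCT hTN hidx f hf
        (fun x hx => ((hT x).mp hx).2) b hbf D hDdef).1
      haveI hnorm : ((Subgroup.centralizer (Q : Set G)).subgroupOf T).Normal :=
        (Subgroup.normal_subgroupOf_iff_le_normalizer hCT).mpr hTN
      have htmem : t ∈ (((Subgroup.centralizer (Q : Set G)).subgroupOf T ⊔ D : Subgroup T) :
          Set T) := by
        rw [hsup]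
        exact Set.mem_univ _
      rw [Subgroup.normal_mul] at htmem
      obtain ⟨c, hc, d, hd, hcd⟩ := Set.mem_mul.mp htmem
      have hcC : (c : G) ∈ Subgroup.centralizer (Q : Set G) := Subgroup.mem_subgroupOf.mp hc
      have hdN : (d : G) ∈ Subgroup.normalizer (Q : Set G) := ((hT d).mp d.2).1
      have hwP : a * (d : G) * a⁻¹ ∈ P := hDaP ⟨(d : G), ⟨d, hd, rfl⟩, rfl⟩
      have htd : ∀ q ∈ Q, (t : G) * q * (t : G)⁻¹ = (d : G) * q * (d : G)⁻¹ := by
        intro q hq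
        have hdq : (d : G) * q * (d : G)⁻¹ ∈ Q := (Subgroup.mem_normalizer_iff.mp hdN q).mp hq
        have h1 := Subgroup.mem_centralizer_iff.mp hcC _ hdq
        have h2 : (t : G) = (c : G) * (d : G) := by rw [← hcd]; rfl
        calc (t : G) * q * (t : G)⁻¹ = (c : G) * ((d : G) * q * (d : G)⁻¹) * (c : G)⁻¹ := by
              rw [h2]; group
          _ = ((d : G) * q * (d : G)⁻¹ * (c : G)) * (c : G)⁻¹ := by rw [h1]
          _ = (d : G) * q * (d : G)⁻¹ := by group
      refine ⟨u₂⁻¹ * (a * (d : G) * a⁻¹) * u₁, P.mul_mem (P.mul_mem (P.inv_mem hu₂) hwP) hu₁, ?_⟩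
      intro q hq
      have hr : g * q * g⁻¹ ∈ Q₂ := hQQ₂ ⟨q, hq, rfl⟩
      have h1 := hB _ hr
      have h2 := hA q (hQQ₁ hq)
      have h3 := htd q hq
      have h4 : a * (t : G) * g⁻¹ * (g * q * g⁻¹) * (a * (t : G) * g⁻¹)⁻¹ =
          a * (d : G) * a⁻¹ * (u₁ * q * u₁⁻¹) * (a * (d : G) * a⁻¹)⁻¹ := by
        calc a * (t : G) * g⁻¹ * (g * q * g⁻¹) * (a * (t : G) * g⁻¹)⁻¹
            = a * ((t : G) * q * (t : G)⁻¹) * a⁻¹ := by group
          _ = a * ((d : G) * q * (d : G)⁻¹) * a⁻¹ := by rw [h3]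
          _ = a * (d : G) * a⁻¹ * (a * q * a⁻¹) * (a * (d : G) * a⁻¹)⁻¹ := by group
          _ = a * (d : G) * a⁻¹ * (u₁ * q * u₁⁻¹) * (a * (d : G) * a⁻¹)⁻¹ := by rw [h2]
      rw [h4] at h1
      calc g * q * g⁻¹ = u₂⁻¹ * (u₂ * (g * q * g⁻¹) * u₂⁻¹) * u₂ := by group
        _ = u₂⁻¹ * (a * (d : G) * a⁻¹ * (u₁ * q * u₁⁻¹) * (a * (d : G) * a⁻¹)⁻¹) * u₂ := by
            rw [h1]
        _ = u₂⁻¹ * (a * (d : G) * a⁻¹) * u₁ * q * (u₂⁻¹ * (a * (d : G) * a⁻¹) * u₁)⁻¹ := by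
            group

end Nil

end Cfsg.Agent.Lib.Helper77
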