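import Mathlib
import Cfsg.Prelude.Def_Blocks
import Cfsg.Prelude.Def_BrauerPairs
import Cfsg.Agent.Lib.Helper16.FirstMain2
import Cfsg.Agent.Lib.Helper77.ClassAlg
import Cfsg.Agent.Lib.Helper77.IdemSet
import Cfsg.Agent.Lib.Helper77.FusionPairs

/-!
# The Brauer correspondence through the Brauer map

For a block `B` of `G` with defect group `D` and its Brauer correspondent `b` in `N_G(D)`, the
idempotents of `B` and `b` agree modulo the local ideal on `C_G(D)`; blocks with defect group
`D` are determined by their idempotent modulo the local ideal on `C_G(D)`.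
-/

set_option autoImplicit false

namespace Cfsg.Agent.Lib.Helper77

open Cfsg Cfsg.Agent.Lib.Helper16

section
variable {G : Type*} [Group G] [Fintype G] {M : Ideal Cfsg.AlgInt}

/-- the induced block is unique -/
theorem isInducedBlock_unique (hM : M.IsPrime) {H : Subgroup G} {b : Set (Cfsg.IrrCharacter H)}
    {B B' : Set (Cfsg.IrrCharacter G)} (h : Cfsg.IsInducedBlock M H b B)
    (h' : Cfsg.IsInducedBlock M H b B') : B = B' := by
  obtain ⟨ξ, hξ⟩ := IsPBlock.nonempty hM h.1
  obtain ⟨χ, hχ⟩ := IsPBlock.nonempty hM h.2.1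
  obtain ⟨χ', hχ'⟩ := IsPBlock.nonempty hM h'.2.1
  rw [IsPBlock.eq_blockOf hM h.2.1 hχ, IsPBlock.eq_blockOf hM h'.2.1 hχ']
  apply blockOf_eq_of_sameBlock hM
  intro g
  have h1 := h.2.2 ξ hξ χ hχ g
  have h2 := h'.2.2 ξ hξ χ' hχ' g
  have := memLocalIdeal_sub hM h2 h1
  rwa [sub_sub_sub_cancel_left] at this

/-- blocks whose idempotents agree modulo the local ideal are equal -/
theorem eq_of_blockCoeff_congr (hM : M.IsPrime) {b b' : Set (Cfsg.IrrCharacter G)}
    (hb : Cfsg.IsPBlock M b) (hb' : Cfsg.IsPBlock M b')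
    (h : ∀ g : G, MemLocalIdeal M (Cfsg.blockCoeff b g - Cfsg.blockCoeff b' g)) : b = b' := by
  classical
  obtain ⟨ξ, hξ⟩ := IsPBlock.nonempty hM hb
  have hcl : IsRClass M (Cfsg.blockCoeff b - Cfsg.blockCoeff b') :=
    isRClass_sub hM (isRClass_blockCoeff hM hb) (isRClass_blockCoeff hM hb')
  have h1 := memLocalIdeal_omega_of_forall hM ξ hcl.1 (fun g => h g)
  rw [omega_sub, omega_blockCoeff hM hb ξ, if_pos hξ, omega_blockCoeff hM hb' ξ] at h1
  by_cases hξ' : ξ ∈ b'
  · rw [IsPBlock.eq_blockOf hM hb hξ, IsPBlock.eq_blockOf hM hb' hξ']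
  · rw [if_neg hξ', sub_zero] at h1
    exact absurd h1 (not_memLocalIdeal_one hM)

/-- every block of a subgroup between `P C_G(P)` and `N_G(P)` induces a block of `G` -/
theorem exists_isInducedBlock_of_isPBlock {p : ℕ} [Fact p.Prime] (hM : Cfsg.IsPModular p M)
    (P H : Subgroup G) (hP : IsPGroup p P) (hPH : P ≤ H)
    (hCH : Subgroup.centralizer (P : Set G) ≤ H) (hHN : H ≤ Subgroup.normalizer (P : Set G))
    (b : Set (Cfsg.IrrCharacter H)) (hb : Cfsg.IsPBlock M b) :
    ∃ B : Set (Cfsg.IrrCharacter G), Cfsg.IsInducedBlock M H b B := by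
  classical
  have hMp := isPrime_of_isPModular hM
  have : Fintype H := Fintype.ofFinite _
  obtain ⟨ξ, hξ⟩ := IsPBlock.nonempty hMp hb
  obtain ⟨χ, hχ⟩ := exists_irr_brauer hM P H hP hCH hHN ξ
  refine ⟨Cfsg.blockOf M (χ : G → ℂ), ?_⟩
  rw [IsPBlock.eq_blockOf hMp hb hξ]
  apply isInducedBlock_of_brauer hM P H hP hPH hHN ξ χ
  intro g
  have h3 := hχ (classInd g) (isRClass_classInd hMp g)
  rwa [← brauerCentralChar_eq_omega, omega_classInd (irrCharacter_conj_eq χ)] at h3

/-- idempotent calculus in the commutative algebra of class functions -/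
theorem conv_idem_calc {a s : G → ℂ} (hs : Cfsg.IsClassFunction G s) (hss : conv s s = s) :
    conv (a - conv a s) (a - conv a s) - (a - conv a s) =
        (conv a a - a) - conv (conv a a - a) s ∧
    conv (s - conv a s) (s - conv a s) - (s - conv a s) = conv (conv a a - a) s := by
  have hsa : conv s a = conv a s := conv_comm_of_isClassFunction hs a
  have e1 : conv a (conv a s) = conv (conv a a) s := (conv_assoc a a s).symm
  have e5 : conv (conv a s) s = conv a s := by rw [conv_assoc, hss]
  have e4 : conv s (conv a s) = conv a s := by rw [← conv_assoc, hsa, e5]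
  have e2 : conv (conv a s) a = conv (conv a a) s := by rw [conv_assoc, hsa, e1]
  have e3 : conv (conv a s) (conv a s) = conv (conv a a) s := by rw [conv_assoc, e4, e1]
  constructor
  · rw [conv_sub_left, conv_sub_right, conv_sub_right, e1, e2, e3, conv_sub_left]
    abel
  · rw [conv_sub_left, conv_sub_right, conv_sub_right, hss, e4, e5, e3, conv_sub_left]
    abel

/-- two class functions with local integer values, one idempotent and the other idempotent
modulo the local ideal, whose central character values agree modulo the local ideal, agree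
modulo the local ideal -/
theorem memLocalIdeal_sub_of_omega (hM : M.IsPrime) {a s : G → ℂ} (ha : IsRClass M a)
    (hs : IsRClass M s) (hss : conv s s = s)
    (hd : ∀ g : G, MemLocalIdeal M ((conv a a - a) g))
    (hω : ∀ ξ : Cfsg.IrrCharacter G,
      MemLocalIdeal M (omega (ξ : G → ℂ) a - omega (ξ : G → ℂ) s))
    (h01 : ∀ ξ : Cfsg.IrrCharacter G, omega (ξ : G → ℂ) s = 0 ∨ omega (ξ : G → ℂ) s = 1)
    (g : G) : MemLocalIdeal M (a g - s g) := by
  classical
  obtain ⟨k1, k2⟩ := conv_idem_calc (a := a) hs.1 hss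
  have hds : ∀ h : G, MemLocalIdeal M (conv (conv a a - a) s h) := by
    intro h
    rw [conv_apply]
    apply memLocalIdeal_sum hM
    intro x _
    exact memLocalIdeal_mul_right hM (hd x) (hs.2 _)
  have has : IsRClass M (conv a s) := isRClass_conv hM ha hs
  have hu1 : IsRClass M (a - conv a s) := isRClass_sub hM ha has
  have hu2 : IsRClass M (s - conv a s) := isRClass_sub hM hs has
  have hωas : ∀ ξ : Cfsg.IrrCharacter G, omega (ξ : G → ℂ) (conv a s) =
      omega (ξ : G → ℂ) a * omega (ξ : G → ℂ) s := fun ξ => omega_conv ξ ha.1 hs.1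
  have m1 : ∀ h : G, MemLocalIdeal M ((a - conv a s) h) := by
    apply memLocalIdeal_of_idem hM hu1
    · intro h
      have e : Cfsg.Agent.Lib.Helper16.conv (a - conv a s) (a - conv a s) h - (a - conv a s) h =
          ((conv a a - a) - conv (conv a a - a) s) h := by
        rw [← k1]; rfl
      rw [e]
      exact memLocalIdeal_sub hM (hd h) (hds h)
    · intro ξ
      rw [omega_sub, hωas]
      rcases h01 ξ with h0 | h1
      · have := hω ξ
        rw [h0, sub_zero] at this
        rw [h0, mul_zero, sub_zero]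
        exact this
      · rw [h1, mul_one, sub_self]
        exact memLocalIdeal_zero hM
  have m2 : ∀ h : G, MemLocalIdeal M ((s - conv a s) h) := by
    apply memLocalIdeal_of_idem hM hu2
    · intro h
      have e : Cfsg.Agent.Lib.Helper16.conv (s - conv a s) (s - conv a s) h - (s - conv a s) h =
          (conv (conv a a - a) s) h := by
        rw [← k2]; rfl
      rw [e]
      exact hds h
    · intro ξ
      rw [omega_sub, hωas]
      rcases h01 ξ with h0 | h1
      · rw [h0, mul_zero, sub_self]
        exact memLocalIdeal_zero hM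
      · have := memLocalIdeal_neg (hω ξ)
        rw [h1, neg_sub] at this
        rw [h1, mul_one]
        exact this
  have e : a g - s g = (a - conv a s) g - (s - conv a s) g := by
    simp only [Pi.sub_apply]; ring
  rw [e]
  exact memLocalIdeal_sub hM (m1 g) (m2 g)

/-- **The Brauer correspondent through the Brauer map.** If `B` has defect group `D` and the
block `b` of `N_G(D)` induces `B`, then the truncation of the idempotent of `B` to `C_G(D)` is
the idempotent of `b` modulo the local ideal. -/
theorem brRes_blockCoeff_sub {p : ℕ} [Fact p.Prime] (hM : Cfsg.IsPModular p M)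
    (B : Set (Cfsg.IrrCharacter G)) (hB : Cfsg.IsPBlock M B) (D : Subgroup G)
    (hD : Cfsg.IsDefectGroup p M B D)
    (b : Set (Cfsg.IrrCharacter (Subgroup.normalizer (D : Set G))))
    (hind : Cfsg.IsInducedBlock M (Subgroup.normalizer (D : Set G)) b B)
    (c : Subgroup.normalizer (D : Set G)) :
    MemLocalIdeal M (brRes D (Subgroup.normalizer (D : Set G)) (Cfsg.blockCoeff B) c -
      Cfsg.blockCoeff b c) := by
  classical
  have hMp := isPrime_of_isPModular hM
  have : Fintype (Subgroup.normalizer (D : Set G)) := Fintype.ofFinite _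
  have hDp : IsPGroup p D := isPGroup_of_isDefectGroup hD
  have hb := hind.1
  have hDb := (isDefectGroup_of_isInducedBlock_normalizer hM B hB D hD b hind).1
  have heB := isRClass_blockCoeff hMp hB
  have ha : IsRClass M (brRes D (Subgroup.normalizer (D : Set G)) (Cfsg.blockCoeff B)) :=
    isRClass_brRes hMp le_rfl heB
  have hs : IsRClass M (Cfsg.blockCoeff b) := isRClass_blockCoeff hMp hb
  apply memLocalIdeal_sub_of_omega hMp ha hs (conv_blockCoeff_self b)
  · intro h
    have := brRes_conv hM hDp (Subgroup.centralizer_le_normalizer _) heB heB h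
    rw [Cfsg.Agent.Lib.Helper16.conv_blockCoeff] at this
    have h2 := memLocalIdeal_neg this
    rw [neg_sub] at h2
    exact h2
  · intro ξ
    rw [omega_blockCoeff hMp hb ξ]
    by_cases hξ : ξ ∈ b
    · rw [if_pos hξ]
      obtain ⟨χ, hχ⟩ := IsPBlock.nonempty hMp hB
      have h1 := omega_brRes_sub hM D (Subgroup.normalizer (D : Set G)) hDp Subgroup.le_normalizer
        le_rfl ξ χ (hind.2.2 ξ hξ χ hχ) heB
      rwa [omega_blockCoeff hMp hB χ, if_pos hχ] at h1
    · rw [if_neg hξ, sub_zero]
      obtain ⟨χ, hχ⟩ := exists_irr_brauer hM D (Subgroup.normalizer (D : Set G)) hDp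
        (Subgroup.centralizer_le_normalizer _) le_rfl ξ
      have h1 := hχ _ heB
      rw [omega_blockCoeff hMp hB χ] at h1
      by_cases hχB : χ ∈ B
      · exfalso
        apply hξ
        have hind2 : Cfsg.IsInducedBlock M (Subgroup.normalizer (D : Set G))
            (Cfsg.blockOf M (ξ : Subgroup.normalizer (D : Set G) → ℂ))
            (Cfsg.blockOf M (χ : G → ℂ)) := by
          apply isInducedBlock_of_brauer hM D (Subgroup.normalizer (D : Set G)) hDp
            Subgroup.le_normalizer le_rfl ξ χ
          intro g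
          have h3 := hχ (classInd g) (isRClass_classInd hMp g)
          rwa [← brauerCentralChar_eq_omega, omega_classInd (irrCharacter_conj_eq χ)] at h3
        rw [← IsPBlock.eq_blockOf hMp hB hχB] at hind2
        have := firstMain_unique hM D hDp B hB b _ hb hDb hind hind2
        rw [← this]
        exact mem_blockOf_self hMp ξ
      · rwa [if_neg hχB, sub_zero] at h1
  · intro ξ
    rw [omega_blockCoeff hMp hb ξ]
    by_cases hξ : ξ ∈ b
    · right; rw [if_pos hξ]
    · left; rw [if_neg hξ]

/-- a block with defect group `D` has a Brauer correspondent in `N_G(D)` -/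
theorem exists_brauer_correspondent {p : ℕ} [Fact p.Prime] (hM : Cfsg.IsPModular p M)
    (B : Set (Cfsg.IrrCharacter G)) (hB : Cfsg.IsPBlock M B) (D : Subgroup G)
    (hD : Cfsg.IsDefectGroup p M B D) :
    ∃ b : Set (Cfsg.IrrCharacter (Subgroup.normalizer (D : Set G))),
      Cfsg.IsPBlock M b ∧
      Cfsg.IsDefectGroup p M b (D.subgroupOf (Subgroup.normalizer (D : Set G))) ∧
      Cfsg.IsInducedBlock M (Subgroup.normalizer (D : Set G)) b B ∧
      ∀ c : Subgroup.normalizer (D : Set G),
        MemLocalIdeal M (brRes D (Subgroup.normalizer (D : Set G)) (Cfsg.blockCoeff B) c -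
          Cfsg.blockCoeff b c) := by
  obtain ⟨b, hind⟩ := exists_isInducedBlock_normalizer hM B hB D hD
  exact ⟨b, hind.1, (isDefectGroup_of_isInducedBlock_normalizer hM B hB D hD b hind).1, hind,
    brRes_blockCoeff_sub hM B hB D hD b hind⟩

/-- a block of `N_G(D)` with defect group `D` is the Brauer correspondent of a block of `G`
with defect group `D` -/
theorem exists_block_of_brauer_correspondent {p : ℕ} [Fact p.Prime] (hM : Cfsg.IsPModular p M)
    (D : Subgroup G) (hDp : IsPGroup p D)
    (b : Set (Cfsg.IrrCharacter (Subgroup.normalizer (D : Set G)))) (hb : Cfsg.IsPBlock M b)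
    (hDb : Cfsg.IsDefectGroup p M b (D.subgroupOf (Subgroup.normalizer (D : Set G)))) :
    ∃ B : Set (Cfsg.IrrCharacter G), Cfsg.IsPBlock M B ∧ Cfsg.IsDefectGroup p M B D ∧
      Cfsg.IsInducedBlock M (Subgroup.normalizer (D : Set G)) b B ∧
      ∀ c : Subgroup.normalizer (D : Set G),
        MemLocalIdeal M (brRes D (Subgroup.normalizer (D : Set G)) (Cfsg.blockCoeff B) c -
          Cfsg.blockCoeff b c) := by
  obtain ⟨B, hind⟩ := exists_isInducedBlock_of_isPBlock hM D _ hDp Subgroup.le_normalizer
    (Subgroup.centralizer_le_normalizer _) le_rfl b hb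
  have hDB := firstMain_i hM D hDp b hb hDb B hind
  exact ⟨B, hind.2.1, hDB, hind, brRes_blockCoeff_sub hM B hind.2.1 D hDB b hind⟩

/-- blocks with defect group `D` are determined by their idempotents on `C_G(D)` modulo the
local ideal -/
theorem eq_of_blockCoeff_congr_centralizer {p : ℕ} [Fact p.Prime] (hM : Cfsg.IsPModular p M)
    (D : Subgroup G) (B B' : Set (Cfsg.IrrCharacter G)) (hB : Cfsg.IsPBlock M B)
    (hB' : Cfsg.IsPBlock M B') (hD : Cfsg.IsDefectGroup p M B D)
    (hD' : Cfsg.IsDefectGroup p M B' D)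
    (h : ∀ x : G, x ∈ Subgroup.centralizer (D : Set G) →
      MemLocalIdeal M (Cfsg.blockCoeff B x - Cfsg.blockCoeff B' x)) : B = B' := by
  classical
  have hMp := isPrime_of_isPModular hM
  have hDp : IsPGroup p D := isPGroup_of_isDefectGroup hD
  obtain ⟨b, hb, hDb, hind, hc⟩ := exists_brauer_correspondent hM B hB D hD
  obtain ⟨b', hb', hDb', hind', hc'⟩ := exists_brauer_correspondent hM B' hB' D hD'
  have : Fintype (Subgroup.normalizer (D : Set G)) := Fintype.ofFinite _
  have hbb : b = b' := by
    apply eq_of_blockCoeff_congr hMp hb hb'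
    intro c
    by_cases hcD : (c : G) ∈ Subgroup.centralizer (D : Set G)
    · have h1 := hc c
      have h2 := hc' c
      have h3 := h (c : G) hcD
      unfold brRes at h1 h2
      rw [if_pos hcD] at h1 h2
      have e : Cfsg.blockCoeff b c - Cfsg.blockCoeff b' c =
          (Cfsg.blockCoeff B (c : G) - Cfsg.blockCoeff B' (c : G)) -
          (Cfsg.blockCoeff B (c : G) - Cfsg.blockCoeff b c) +
          (Cfsg.blockCoeff B' (c : G) - Cfsg.blockCoeff b' c) := by ring
      rw [e]
      exact memLocalIdeal_add hMp (memLocalIdeal_sub hMp h3 h1) h2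
    · rw [blockCoeff_eq_zero_of_not_mem_centralizer' hM _ D hDp Subgroup.le_normalizer le_rfl
          b hb c hcD,
        blockCoeff_eq_zero_of_not_mem_centralizer' hM _ D hDp Subgroup.le_normalizer le_rfl
          b' hb' c hcD, sub_self]
      exact memLocalIdeal_zero hMp
  subst hbb
  exact isInducedBlock_unique hMp hind hind'

end

section Sub

variable {G : Type*} [Group G]

/-- for `N_G(P) ≤ H`, the normalizer in `H` of `P` is the normalizer of `P` -/
def normSubIso (P H : Subgroup G) (hH : Subgroup.normalizer (P : Set G) ≤ H) :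
    Subgroup.normalizer ((P.subgroupOf H : Subgroup H) : Set H) ≃*
      Subgroup.normalizer (P : Set G) where
  toFun y := ⟨((y : H) : G), by
    have hy := y.2
    rw [Subgroup.mem_normalizer_iff] at hy ⊢
    intro u
    constructor
    · intro hu
      have := (hy ⟨u, hH (Subgroup.le_normalizer hu)⟩).mp (Subgroup.mem_subgroupOf.mpr hu)
      exact Subgroup.mem_subgroupOf.mp this
    · intro hu
      have huH : u ∈ H := by
        have h1 : ((y : H) : G) * u * ((y : H) : G)⁻¹ ∈ H := hH (Subgroup.le_normalizer hu)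
        have h2 : u = ((y : H) : G)⁻¹ * (((y : H) : G) * u * ((y : H) : G)⁻¹) * ((y : H) : G) := by
          group
        rw [h2]
        exact H.mul_mem (H.mul_mem (H.inv_mem (y : H).2) h1) (y : H).2
      have := (hy ⟨u, huH⟩).mpr (Subgroup.mem_subgroupOf.mpr hu)
      exact Subgroup.mem_subgroupOf.mp this⟩
  invFun z := ⟨⟨(z : G), hH z.2⟩, by
    have hz := z.2
    rw [Subgroup.mem_normalizer_iff] at hz ⊢
    intro h
    rw [Subgroup.mem_subgroupOf, Subgroup.mem_subgroupOf]
    exact hz (h : G)⟩
  left_inv y := rfl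
  right_inv z := rfl
  map_mul' y y' := rfl

theorem map_normSubIso (P H : Subgroup G) (hH : Subgroup.normalizer (P : Set G) ≤ H) :
    ((P.subgroupOf H).subgroupOf
      (Subgroup.normalizer ((P.subgroupOf H : Subgroup H) : Set H))).map
        (normSubIso P H hH).toMonoidHom = P.subgroupOf (Subgroup.normalizer (P : Set G)) := by
  ext z
  rw [Subgroup.mem_map_equiv, Subgroup.mem_subgroupOf, Subgroup.mem_subgroupOf,
    Subgroup.mem_subgroupOf]
  rfl

theorem map_normSubIso_symm (P H : Subgroup G) (hH : Subgroup.normalizer (P : Set G) ≤ H) :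
    (P.subgroupOf (Subgroup.normalizer (P : Set G))).map (normSubIso P H hH).symm.toMonoidHom =
      (P.subgroupOf H).subgroupOf
        (Subgroup.normalizer ((P.subgroupOf H : Subgroup H) : Set H)) := by
  ext y
  rw [Subgroup.mem_map_equiv, Subgroup.mem_subgroupOf, Subgroup.mem_subgroupOf,
    Subgroup.mem_subgroupOf]
  rfl

variable [Fintype G] {M : Ideal Cfsg.AlgInt}

/-- if the truncations of the idempotents of `B` (a block of `G`) and of `c` (a block of `H`)
agree with the idempotents of corresponding blocks of the normalizers of `P`, then the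
idempotents of `B` and `c` agree on `C_G(P)` -/
theorem brauerCorr_bridge (hM : M.IsPrime) (P H : Subgroup G)
    (hH : Subgroup.normalizer (P : Set G) ≤ H) (B : Set (Cfsg.IrrCharacter G))
    (c : Set (Cfsg.IrrCharacter H))
    (b : Set (Cfsg.IrrCharacter (Subgroup.normalizer (P : Set G))))
    (h1 : ∀ z : Subgroup.normalizer (P : Set G),
      MemLocalIdeal M (brRes P (Subgroup.normalizer (P : Set G)) (Cfsg.blockCoeff B) z -
        Cfsg.blockCoeff b z))
    (h2 : ∀ y : Subgroup.normalizer ((P.subgroupOf H : Subgroup H) : Set H),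
      MemLocalIdeal M (brRes (P.subgroupOf H)
        (Subgroup.normalizer ((P.subgroupOf H : Subgroup H) : Set H)) (Cfsg.blockCoeff c) y -
        Cfsg.blockCoeff (mapSet (normSubIso P H hH).symm b) y))
    (x : G) (hx : x ∈ Subgroup.centralizer (P : Set G)) :
    MemLocalIdeal M (Cfsg.blockCoeff B x - Cfsg.subgroupBlockCoeff H c x) := by
  classical
  have hxN : x ∈ Subgroup.normalizer (P : Set G) := Subgroup.centralizer_le_normalizer _ hx
  have k1 := h1 ⟨x, hxN⟩
  have k2 := h2 ((normSubIso P H hH).symm ⟨x, hxN⟩)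
  have hxc : (⟨x, hH hxN⟩ : H) ∈ Subgroup.centralizer ((P.subgroupOf H : Subgroup H) : Set H) := by
    rw [Subgroup.mem_centralizer_iff]
    intro u hu
    apply Subtype.ext
    exact Subgroup.mem_centralizer_iff.mp hx (u : G) (Subgroup.mem_subgroupOf.mp hu)
  rw [blockCoeff_mapSet', MulEquiv.symm_symm, MulEquiv.apply_symm_apply] at k2
  unfold brRes at k1 k2
  rw [if_pos hx] at k1
  change MemLocalIdeal M ((if (⟨x, hH hxN⟩ : H) ∈
      Subgroup.centralizer ((P.subgroupOf H : Subgroup H) : Set H) then
      Cfsg.blockCoeff c ⟨x, hH hxN⟩ else 0) - Cfsg.blockCoeff b ⟨x, hxN⟩) at k2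
  rw [if_pos hxc] at k2
  rw [subgroupBlockCoeff_eq_ext0, ext0_of_mem H _ (hH hxN)]
  have e : Cfsg.blockCoeff B x - Cfsg.blockCoeff c ⟨x, hH hxN⟩ =
      (Cfsg.blockCoeff B x - Cfsg.blockCoeff b ⟨x, hxN⟩) -
      (Cfsg.blockCoeff c ⟨x, hH hxN⟩ - Cfsg.blockCoeff b ⟨x, hxN⟩) := by ring
  rw [e]
  exact memLocalIdeal_sub hM k1 k2

/-- **Brauer correspondence, downwards.** A block of `G` with defect group `P` has a
correspondent with defect group `P` in every subgroup containing `N_G(P)`. -/
theorem exists_block_sub_of_block {p : ℕ} [Fact p.Prime] (hM : Cfsg.IsPModular p M)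
    (P H : Subgroup G) (hH : Subgroup.normalizer (P : Set G) ≤ H)
    (B : Set (Cfsg.IrrCharacter G)) (hB : Cfsg.IsPBlock M B)
    (hD : Cfsg.IsDefectGroup p M B P) :
    ∃ c : Set (Cfsg.IrrCharacter H), Cfsg.IsPBlock M c ∧
      Cfsg.IsDefectGroup p M c (P.subgroupOf H) ∧
      ∀ x : G, x ∈ Subgroup.centralizer (P : Set G) →
        MemLocalIdeal M (Cfsg.blockCoeff B x - Cfsg.subgroupBlockCoeff H c x) := by
  classical
  have hMp := isPrime_of_isPModular hM
  have hP : IsPGroup p P := isPGroup_of_isDefectGroup hD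
  have hfinH : Fintype H := Fintype.ofFinite _
  have hfinN : Fintype (Subgroup.normalizer (P : Set G)) := Fintype.ofFinite _
  have hfinNH : Fintype (Subgroup.normalizer ((P.subgroupOf H : Subgroup H) : Set H)) :=
    Fintype.ofFinite _
  obtain ⟨b, hb, hDb, hind, h1⟩ := exists_brauer_correspondent hM B hB P hD
  have hb' : Cfsg.IsPBlock M (mapSet (normSubIso P H hH).symm b) := isPBlock_mapSet hMp _ hb
  have hDb' : Cfsg.IsDefectGroup p M (mapSet (normSubIso P H hH).symm b)
      ((P.subgroupOf H).subgroupOf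
        (Subgroup.normalizer ((P.subgroupOf H : Subgroup H) : Set H))) := by
    have := isDefectGroup_mapSet (M := M) (normSubIso P H hH).symm hDb
    rwa [map_normSubIso_symm] at this
  obtain ⟨c, hc, hDc, hindc, h2⟩ := exists_block_of_brauer_correspondent hM (P.subgroupOf H)
    hP.comap_subtype (mapSet (normSubIso P H hH).symm b) hb' hDb'
  exact ⟨c, hc, hDc, fun x hx => brauerCorr_bridge hMp P H hH B c b h1 h2 x hx⟩

/-- **Brauer correspondence, upwards.** A block with defect group `P` of a subgroup
containing `N_G(P)` has a correspondent with defect group `P` in `G`. -/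
theorem exists_block_of_block_sub {p : ℕ} [Fact p.Prime] (hM : Cfsg.IsPModular p M)
    (P H : Subgroup G) (hP : IsPGroup p P) (hH : Subgroup.normalizer (P : Set G) ≤ H)
    (c : Set (Cfsg.IrrCharacter H)) (hc : Cfsg.IsPBlock M c)
    (hD : Cfsg.IsDefectGroup p M c (P.subgroupOf H)) :
    ∃ B : Set (Cfsg.IrrCharacter G), Cfsg.IsPBlock M B ∧ Cfsg.IsDefectGroup p M B P ∧
      ∀ x : G, x ∈ Subgroup.centralizer (P : Set G) →
        MemLocalIdeal M (Cfsg.blockCoeff B x - Cfsg.subgroupBlockCoeff H c x) := by
  classical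
  have hMp := isPrime_of_isPModular hM
  have hfinH : Fintype H := Fintype.ofFinite _
  have hfinN : Fintype (Subgroup.normalizer (P : Set G)) := Fintype.ofFinite _
  have hfinNH : Fintype (Subgroup.normalizer ((P.subgroupOf H : Subgroup H) : Set H)) :=
    Fintype.ofFinite _
  obtain ⟨b', hb', hDb', hind', h2⟩ := exists_brauer_correspondent hM c hc (P.subgroupOf H) hD
  have hb : Cfsg.IsPBlock M (mapSet (normSubIso P H hH) b') := isPBlock_mapSet hMp _ hb'
  have hDb : Cfsg.IsDefectGroup p M (mapSet (normSubIso P H hH) b')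
      (P.subgroupOf (Subgroup.normalizer (P : Set G))) := by
    have := isDefectGroup_mapSet (M := M) (normSubIso P H hH) hDb'
    rwa [map_normSubIso] at this
  obtain ⟨B, hB, hDB, hindB, h1⟩ := exists_block_of_brauer_correspondent hM P hP
    (mapSet (normSubIso P H hH) b') hb hDb
  refine ⟨B, hB, hDB, fun x hx => brauerCorr_bridge hMp P H hH B c _ h1 ?_ x hx⟩
  rw [mapSet_symm_mapSet]
  exact h2

/-- blocks with defect group `P` of a subgroup `H` containing `P` are determined by their
idempotents on `C_G(P)` modulo the local ideal -/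
theorem eq_of_subgroupBlockCoeff_congr {p : ℕ} [Fact p.Prime] (hM : Cfsg.IsPModular p M)
    (P H : Subgroup G) (hPH : P ≤ H) (c c' : Set (Cfsg.IrrCharacter H))
    (hc : Cfsg.IsPBlock M c) (hc' : Cfsg.IsPBlock M c')
    (hD : Cfsg.IsDefectGroup p M c (P.subgroupOf H))
    (hD' : Cfsg.IsDefectGroup p M c' (P.subgroupOf H))
    (h : ∀ x : G, x ∈ Subgroup.centralizer (P : Set G) →
      MemLocalIdeal M (Cfsg.subgroupBlockCoeff H c x - Cfsg.subgroupBlockCoeff H c' x)) :
    c = c' := by
  classical
  have hfinH : Fintype H := Fintype.ofFinite _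
  apply eq_of_blockCoeff_congr_centralizer hM (P.subgroupOf H) c c' hc hc' hD hD'
  intro y hy
  have hyG : (y : G) ∈ Subgroup.centralizer (P : Set G) := by
    rw [Subgroup.mem_centralizer_iff]
    intro u hu
    have := Subgroup.mem_centralizer_iff.mp hy ⟨u, hPH hu⟩ (Subgroup.mem_subgroupOf.mpr hu)
    exact congrArg Subtype.val this
  have := h (y : G) hyG
  rwa [subgroupBlockCoeff_eq_ext0, subgroupBlockCoeff_eq_ext0, ext0_coe, ext0_coe] at this

end Sub

end Cfsg.Agent.Lib.Helper77
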