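import Mathlib
import Cfsg.Prelude.Def_Blocks
import Cfsg.Prelude.Def_BlockLocal
import Cfsg.Prelude.Def_BrauerPairs
import Cfsg.Prelude.Def_BlockFusion
import Cfsg.Agent.Lib.Helper77.NilControl
import Cfsg.Agent.Lib.Helper77.LocalPairs

/-!
# The fusion system of a block: construction

The conjugation maps between the Brauer pairs below a Brauer pair `(P, e)` form a fusion system
over `P`.
-/

set_option autoImplicit false
set_option linter.unusedSectionVars false

namespace Cfsg.Agent.Lib.Helper77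

open Cfsg Cfsg.Agent.Lib.Helper16 Cfsg.Agent.Lib.Helper81

section BlockFusSys

variable {G : Type*} [Group G] [Fintype G] {M : Ideal Cfsg.AlgInt} {p : ℕ} [Fact p.Prime]

/-- a pair below a Brauer pair is a Brauer pair -/
theorem isBrauerPair_of_subpairLE (hM : Cfsg.IsPModular p M) {Q P : Subgroup G}
    {f : Set (Cfsg.IrrCharacter (Subgroup.centralizer (Q : Set G)))}
    {e : Set (Cfsg.IrrCharacter (Subgroup.centralizer (P : Set G)))}
    (hPe : Cfsg.IsBrauerPair p M P e) (hle : Cfsg.SubpairLE p M Q f P e) :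
    Cfsg.IsBrauerPair p M Q f := by
  have hQP : Q ≤ P := subpairLE_le (a := ⟨Q, f⟩) (b := ⟨P, e⟩) hle
  obtain ⟨f', hf', hle'⟩ := exists_subpairLE hM P e hPe _ Q hQP le_rfl
  have hff := subpairLE_unique hM _ P e le_rfl hPe Q f' f hle' hle
  subst hff
  exact ⟨hPe.1.to_le hQP, hf'⟩

/-- two pairs below a common pair, on nested subgroups, are nested -/
theorem subpairLE_of_le (hM : Cfsg.IsPModular p M) {Q R P : Subgroup G}
    {f : Set (Cfsg.IrrCharacter (Subgroup.centralizer (Q : Set G)))}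
    {g : Set (Cfsg.IrrCharacter (Subgroup.centralizer (R : Set G)))}
    {e : Set (Cfsg.IrrCharacter (Subgroup.centralizer (P : Set G)))}
    (hPe : Cfsg.IsBrauerPair p M P e) (hQ : Cfsg.SubpairLE p M Q f P e)
    (hR : Cfsg.SubpairLE p M R g P e) (hQR : Q ≤ R) : Cfsg.SubpairLE p M Q f R g := by
  have hRg := isBrauerPair_of_subpairLE hM hPe hR
  obtain ⟨f', -, hle'⟩ := exists_subpairLE hM R g hRg _ Q hQR le_rfl
  have h2 : Cfsg.SubpairLE p M Q f' P e := Relation.ReflTransGen.trans hle' hR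
  have hff := subpairLE_unique hM _ P e le_rfl hPe Q f' f h2 hQ
  subst hff
  exact hle'

/-- conjugating a pair below `(P, e)` by an element of `P` gives a pair below `(P, e)` -/
theorem subpairLE_conjBlock_of_mem (hM : Cfsg.IsPModular p M) {Q P : Subgroup G}
    {f : Set (Cfsg.IrrCharacter (Subgroup.centralizer (Q : Set G)))}
    {e : Set (Cfsg.IrrCharacter (Subgroup.centralizer (P : Set G)))}
    (hle : Cfsg.SubpairLE p M Q f P e) {g : G} (hg : g ∈ P) :
    Cfsg.SubpairLE p M (Q.map (MulAut.conj g).toMonoidHom) (Cfsg.conjBlock Q g f) P e := by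
  have hMp := isPrime_of_isPModular hM
  have h := subpairLE_conjBlock hMp g hle
  unfold Cfsg.SubpairLE at h ⊢
  rw [sigma_conjBlock_of_stabilizes P e (Subgroup.le_normalizer hg)
    (stabilizesBlock_of_mem_self P e hg)] at h
  exact h

/-- the maps of the fusion system of a block on a Brauer pair `(P, e)` -/
def blockFusionHom (p : ℕ) (M : Ideal Cfsg.AlgInt) (P : Subgroup G)
    (e : Set (Cfsg.IrrCharacter (Subgroup.centralizer (P : Set G)))) (Q : Subgroup G) :
    Set (Q →* G) :=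
  {φ | Q ≤ P ∧ ∃ g : G, (∀ u : Q, φ u = g * (u : G) * g⁻¹) ∧
    Q.map (MulAut.conj g).toMonoidHom ≤ P ∧
    ∃ f : Set (Cfsg.IrrCharacter (Subgroup.centralizer (Q : Set G))),
      Cfsg.SubpairLE p M Q f P e ∧
        Cfsg.SubpairLE p M (Q.map (MulAut.conj g).toMonoidHom) (Cfsg.conjBlock Q g f) P e}

theorem blockFusion_inv_aux (hM : M.IsPrime) {P : Subgroup G}
    {e : Set (Cfsg.IrrCharacter (Subgroup.centralizer (P : Set G)))} {Q R : Subgroup G} (g : G)
    (hr : R = Q.map (MulAut.conj g).toMonoidHom)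
    {f : Set (Cfsg.IrrCharacter (Subgroup.centralizer (Q : Set G)))}
    (hle : Cfsg.SubpairLE p M Q f P e)
    (hleg : Cfsg.SubpairLE p M (Q.map (MulAut.conj g).toMonoidHom) (Cfsg.conjBlock Q g f) P e) :
    ∃ f'' : Set (Cfsg.IrrCharacter (Subgroup.centralizer (R : Set G))),
      Cfsg.SubpairLE p M R f'' P e ∧
        Cfsg.SubpairLE p M (R.map (MulAut.conj g⁻¹).toMonoidHom) (Cfsg.conjBlock R g⁻¹ f'') P e := by
  subst hr
  refine ⟨Cfsg.conjBlock Q g f, hleg, ?_⟩
  unfold Cfsg.SubpairLE at hle ⊢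
  rw [sigma_conjBlock_conjBlock, inv_mul_cancel, sigma_conjBlock_one]
  exact hle

/-- **The fusion system of a block.** -/
def blockFusionSystem (hM : Cfsg.IsPModular p M) (P : Subgroup G)
    (e : Set (Cfsg.IrrCharacter (Subgroup.centralizer (P : Set G))))
    (hPe : Cfsg.IsBrauerPair p M P e) : Cfsg.FusionSystem P where
  Hom := blockFusionHom p M P e
  le_of_mem := by
    rintro Q φ ⟨hQ, g, hg, hQg, -⟩
    refine ⟨hQ, fun x => ?_⟩
    rw [hg]
    exact hQg ⟨x, x.2, rfl⟩
  injective_of_mem := by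
    rintro Q φ ⟨-, g, hg, -⟩ a b hab
    have h : g * (a : G) * g⁻¹ = g * (b : G) * g⁻¹ := ((hg a).symm.trans hab).trans (hg b)
    exact Subtype.ext (mul_left_cancel (mul_right_cancel h))
  conj_mem := by
    intro Q g hQ hg
    obtain ⟨f, -, hle⟩ := exists_subpairLE hM P e hPe _ Q hQ le_rfl
    have hle' := subpairLE_conjBlock_of_mem hM hle hg
    exact ⟨hQ, g, fun u => rfl, subpairLE_le (a := ⟨_, _⟩) (b := ⟨P, e⟩) hle', f, hle, hle'⟩
  comp_mem := by
    rintro Q Q' φ ψ ⟨hQ, g, hg, hQg, f, hle, hleg⟩ ⟨hQ', k, hk, hQ'k, f', hle', hlek'⟩ h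
    have hMp := isPrime_of_isPModular hM
    have hsub : Q.map (MulAut.conj g).toMonoidHom ≤ Q' := by
      rintro _ ⟨q, hq, rfl⟩
      have h1 := h ⟨q, hq⟩
      rw [hg] at h1
      exact h1
    have h1 := subpairLE_of_le hM hPe hleg hle' hsub
    have h2 := subpairLE_conjBlock hMp k h1
    have h3 : Cfsg.SubpairLE p M (Q.map (MulAut.conj (k * g)).toMonoidHom)
        (Cfsg.conjBlock Q (k * g) f) P e := by
      have h4 := Relation.ReflTransGen.trans h2 hlek'
      unfold Cfsg.SubpairLE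
      rw [sigma_conjBlock_conjBlock] at h4
      exact h4
    refine ⟨hQ, k * g, fun x => ?_, subpairLE_le (a := ⟨_, _⟩) (b := ⟨P, e⟩) h3, f, hle, h3⟩
    show ψ (φ.codRestrict Q' h x) = k * g * (x : G) * (k * g)⁻¹
    rw [hk]
    show k * φ x * k⁻¹ = _
    rw [hg, mul_inv_rev]
    simp only [mul_assoc]
  inv_mem := by
    rintro Q φ ⟨hQ, g, hg, hQg, f, hle, hleg⟩
    have hMp := isPrime_of_isPModular hM
    have hr : φ.range = Q.map (MulAut.conj g).toMonoidHom := by
      ext y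
      constructor
      · rintro ⟨x, rfl⟩
        rw [hg]
        exact ⟨x, x.2, rfl⟩
      · rintro ⟨q, hq, rfl⟩
        exact ⟨⟨q, hq⟩, hg _⟩
    obtain ⟨f'', h1, h2⟩ := blockFusion_inv_aux hMp g hr hle hleg
    refine ⟨Cfsg.conjHom φ.range g⁻¹, ⟨hr ▸ hQg, g⁻¹, fun y => rfl,
      subpairLE_le (a := ⟨_, _⟩) (b := ⟨P, e⟩) h2, f'', h1, h2⟩, ?_⟩
    intro x
    show g⁻¹ * φ x * g⁻¹⁻¹ = x
    rw [hg, inv_inv]
    simp only [mul_assoc, inv_mul_cancel, mul_one, inv_mul_cancel_left]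

theorem isBlockFusionSystemOn_blockFusionSystem (hM : Cfsg.IsPModular p M)
    {B : Set (Cfsg.IrrCharacter G)} {P : Subgroup G}
    {e : Set (Cfsg.IrrCharacter (Subgroup.centralizer (P : Set G)))}
    (hmax : Cfsg.IsMaximalBrauerPair p M B P e) :
    Cfsg.IsBlockFusionSystemOn p M B P e (blockFusionSystem hM P e hmax.1.1) :=
  ⟨hmax, fun _ _ => Iff.rfl⟩

end BlockFusSys

end Cfsg.Agent.Lib.Helper77
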