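import Mathlib
import Cfsg.Prelude.Def_Blocks
import Cfsg.Prelude.Def_BlockLocal
import Cfsg.Prelude.Def_BrauerPairs
import Cfsg.Prelude.Def_BlockFusion
import Cfsg.Agent.Lib.Helper77.BlockFusSys
import Cfsg.Agent.Lib.Helper84.FusionRS
import Cfsg.Agent.S4659
import Cfsg.Agent.S4660

/-!
# The fusion system of a block is saturated
-/

set_option autoImplicit false
set_option linter.unusedSectionVars false

namespace Cfsg.Agent.Lib.Helper77

open Cfsg Cfsg.Agent.Lib.Helper16 Cfsg.Agent.Lib.Helper81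

section Sat

variable {G : Type*} [Group G] [Fintype G] {M : Ideal Cfsg.AlgInt} {p : ℕ} [Fact p.Prime]

omit [Fintype G] in
theorem aut_pow_apply {P : Subgroup G} (a : MulAut P) (g : G)
    (h : ∀ q : P, ((a q : P) : G) = g * q * g⁻¹) (n : ℕ) :
    ∀ q : P, (((a ^ n) q : P) : G) = g ^ n * q * (g ^ n)⁻¹ := by
  induction n with
  | zero => intro q; simp
  | succ n ih =>
    intro q
    rw [pow_succ, MulAut.mul_apply, ih, h, pow_succ]
    group

/-- **The defect group is fully automized.** -/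
theorem blockFusion_fullyAutomized_top (hM : Cfsg.IsPModular p M)
    {B : Set (Cfsg.IrrCharacter G)} {P : Subgroup G}
    {e : Set (Cfsg.IrrCharacter (Subgroup.centralizer (P : Set G)))}
    {F : Cfsg.FusionSystem P} (hF : Cfsg.IsBlockFusionSystemOn p M B P e F) :
    F.IsFullyAutomized p P := by
  classical
  have hp : p.Prime := Fact.out
  have hmax := hF.1
  have hPe := hmax.1.1
  have hPp : IsPGroup p P := hPe.1
  have hfinA : Finite (F.autGroup P) := Helper84.finite_autGroup F le_rfl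
  have hHp : IsPGroup p ((Cfsg.autInducedBy P P).subgroupOf (F.autGroup P)) :=
    (Helper84.autInducedBy_isPGroup hPp P).comap_subtype
  obtain ⟨R, hHR⟩ := hHp.exists_le_sylow
  refine ⟨le_rfl, R, le_antisymm ?_ hHR⟩
  intro α hα
  rw [Subgroup.mem_subgroupOf]
  have hαF : P.subtype.comp (α : MulAut P).toMonoidHom ∈ F.Hom P :=
    (Helper84.mem_autGroup_iff F le_rfl _).mp α.2
  obtain ⟨-, g, hg, hPg, f, hle, hleg⟩ := (hF.2 P _).mp hαF
  have hg' : ∀ q : P, (((α : MulAut P) q : P) : G) = g * q * g⁻¹ := fun q => hg q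
  have hfe : f = e := subpairLE_unique hM _ P e le_rfl hPe P f e hle Relation.ReflTransGen.refl
  subst hfe
  have hPg' : P.map (MulAut.conj g).toMonoidHom = P :=
    Subgroup.eq_of_le_of_card_ge hPg (card_map_conj g P).ge
  have hgn : g ∈ Subgroup.normalizer (P : Set G) := mem_normalizer_of_map_conj_eq hPg'
  have hsig : (⟨P.map (MulAut.conj g).toMonoidHom, Cfsg.conjBlock P g f⟩ :
      Cfsg.BrauerPairIdx G) = ⟨P, f⟩ := eq_of_subpairLE_of_eq hM hleg hPe hPg'
  have hgs : Cfsg.StabilizesBlock (Subgroup.centralizer (P : Set G)) f g := by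
    rw [sigma_conjBlock_eq g P P hPg'.symm f] at hsig
    have h1 : conjBlockTo g P P f = f := eq_of_heq (Sigma.mk.inj_iff.mp hsig).2
    rw [conjBlockTo_eq_conjSet P g hgn f] at h1
    rw [stabilizesBlock_iff _ _ _ (normalizer_le_normalizer_centralizer P hgn)]
    exact h1.le
  obtain ⟨k, m, A', B', hpm, hord, hgd⟩ := exists_pow_decomp (p := p) g
  have hv := mem_sup_centralizer_of_isMaximalBrauerPair hM hmax (Subgroup.pow_mem _ hgn m)
    (Subgroup.pow_mem (blockStab (Subgroup.centralizer (P : Set G)) f) hgs m)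
    (isPGroup_zpowers_pow_of_orderOf hord)
  have hle2 : P ⊔ Subgroup.centralizer (P : Set G) ≤ ctrlSubgroup P :=
    sup_le (le_ctrlSubgroup P) (centralizer_le_ctrlSubgroup P)
  have hu : g ^ (p ^ k) ∈ Subgroup.centralizer (P : Set G) := by
    obtain ⟨j, hj⟩ := R.isPGroup' ⟨α, hα⟩
    have hj' : (α : MulAut P) ^ (p ^ j) = 1 := by
      have := congrArg (fun x : (R : Subgroup (F.autGroup P)) =>
        ((x : F.autGroup P) : MulAut P)) hj
      simpa using this
    have h1 : ((α : MulAut P) ^ (p ^ k)) ^ m = 1 := by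
      rw [← pow_mul, ← hord]
      ext q
      rw [aut_pow_apply _ g hg' (orderOf g) q, pow_orderOf_eq_one]
      simp
    have h2 : ((α : MulAut P) ^ (p ^ k)) ^ (p ^ j) = 1 := by
      rw [← pow_mul, mul_comm, pow_mul, hj', one_pow]
    have hcop : Nat.Coprime m (p ^ j) :=
      Nat.Coprime.pow_right j ((Nat.Prime.coprime_iff_not_dvd hp).mpr hpm).symm
    have h3 := pow_gcd_eq_one.mpr ⟨h1, h2⟩
    rw [hcop, pow_one] at h3
    rw [Subgroup.mem_centralizer_iff]
    intro q hq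
    have h4 := aut_pow_apply _ g hg' (p ^ k) ⟨q, hq⟩
    rw [h3] at h4
    have h5 : q = g ^ (p ^ k) * q * (g ^ (p ^ k))⁻¹ := h4
    calc q * g ^ (p ^ k) = (g ^ (p ^ k) * q * (g ^ (p ^ k))⁻¹) * g ^ (p ^ k) := by rw [← h5]
      _ = g ^ (p ^ k) * q := by group
  have hgc : g ∈ ctrlSubgroup P := by
    rw [hgd]
    exact Subgroup.mul_mem _ (Subgroup.zpow_mem _ (centralizer_le_ctrlSubgroup P hu) _)
      (Subgroup.zpow_mem _ (hle2 hv) _)
  obtain ⟨u, huP, hu'⟩ := mem_ctrlSubgroup.mp hgc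
  rw [Helper84.mem_autInducedBy_iff]
  exact ⟨u, huP, fun x => by rw [hg' x, hu' x x.2]⟩

/-- **Sylow's theorem for the pairs above a pair, in a subgroup.**  Let `L` be a subgroup with
`C_G(Q) ≤ L ≤ N_G(Q)` and `b` a block of `L` with the idempotent of `f`.  Two pairs normally
containing `(Q, f)`, on subgroups of `L`, lie, one of them after conjugation by an element of
`L`, below a common pair read from a maximal Brauer pair `(D, eD)` of `b`. -/
theorem exists_conj_subpairLE_of_isNormalSubpair_sub (hM : Cfsg.IsPModular p M) {Q : Subgroup G}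
    {f : Set (Cfsg.IrrCharacter (Subgroup.centralizer (Q : Set G)))} (L : Subgroup G)
    (hCL : Subgroup.centralizer (Q : Set G) ≤ L) (hLN : L ≤ Subgroup.normalizer (Q : Set G))
    {b : Set (Cfsg.IrrCharacter L)} (hb : Cfsg.IsPBlock M b)
    (hbf : ∀ t : L, Cfsg.blockCoeff b t =
      Cfsg.subgroupBlockCoeff (Subgroup.centralizer (Q : Set G)) f (t : G))
    {R₁ R₃ : Subgroup G}
    {g₁ : Set (Cfsg.IrrCharacter (Subgroup.centralizer (R₁ : Set G)))}
    {g₃ : Set (Cfsg.IrrCharacter (Subgroup.centralizer (R₃ : Set G)))}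
    (hn₁ : Cfsg.IsNormalSubpair p M Q f R₁ g₁) (hn₃ : Cfsg.IsNormalSubpair p M Q f R₃ g₃)
    (hR₁T : R₁ ≤ L) (hR₃T : R₃ ≤ L) :
    ∃ (D : Subgroup L) (eD : Set (Cfsg.IrrCharacter (Subgroup.centralizer (D : Set L))))
      (hD : CentEq L D (D.map L.subtype)) (t : L),
      Cfsg.IsMaximalBrauerPair p M b D eD ∧
      Cfsg.SubpairLE p M R₁ g₁ (D.map L.subtype) (mapSet (subCentIso L D _ hD) eD) ∧
      Cfsg.SubpairLE p M (R₃.map (MulAut.conj (t : G)).toMonoidHom)
        (Cfsg.conjBlock R₃ (t : G) g₃) (D.map L.subtype)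
        (mapSet (subCentIso L D _ hD) eD) := by
  classical
  have hMp := isPrime_of_isPModular hM
  have hfinT : Fintype L := Fintype.ofFinite _
  have hC₁T : Subgroup.centralizer (R₁ : Set G) ≤ L :=
    (Subgroup.centralizer_le hn₁.2.2.1).trans hCL
  have hC₃T : Subgroup.centralizer (R₃ : Set G) ≤ L :=
    (Subgroup.centralizer_le hn₃.2.2.1).trans hCL
  have h₁ := centEq_subgroupOf L R₁ hR₁T hC₁T
  have h₃ := centEq_subgroupOf L R₃ hR₃T hC₃T
  have pair₁ : Cfsg.IsBrauerPairOf p M b (R₁.subgroupOf L)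
      (mapSet (subCentIso L _ R₁ h₁).symm g₁) := by
    apply isBrauerPairOf_of_isNormalSubpair_sub hMp L hb hbf h₁ hn₁.2.1.1.comap_subtype
    rw [mapSet_mapSet_symm]
    exact hn₁
  have pair₃ : Cfsg.IsBrauerPairOf p M b (R₃.subgroupOf L)
      (mapSet (subCentIso L _ R₃ h₃).symm g₃) := by
    apply isBrauerPairOf_of_isNormalSubpair_sub hMp L hb hbf h₃ hn₃.2.1.1.comap_subtype
    rw [mapSet_mapSet_symm]
    exact hn₃
  obtain ⟨D, eD, hDmax, hle₁⟩ :=
    exists_isMaximalBrauerPair_ge (M := M) _ (R₁.subgroupOf L) _ rfl pair₁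
  obtain ⟨t, ht⟩ := Cfsg.Agent.S4660.result p M hM b D (R₃.subgroupOf L) eD _ hDmax pair₃
  -- the first chain
  have hmap₁ : (R₁.subgroupOf L).map L.subtype = R₁ := Subgroup.map_subgroupOf_eq_of_le hR₁T
  have ha₁ : CentEq L (R₁.subgroupOf L) ((R₁.subgroupOf L).map L.subtype) := by
    apply centEq_map
    rw [hmap₁]
    exact hC₁T
  obtain ⟨hD, hchain₁⟩ := subpairLE_sub hMp L
    ⟨R₁.subgroupOf L, mapSet (subCentIso L _ R₁ h₁).symm g₁⟩ ⟨D, eD⟩ hle₁ ha₁
  have hsig₁ : (⟨(R₁.subgroupOf L).map L.subtype, mapSet (subCentIso L (R₁.subgroupOf L) _ ha₁)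
      (mapSet (subCentIso L (R₁.subgroupOf L) R₁ h₁).symm g₁)⟩ : Cfsg.BrauerPairIdx G) =
      ⟨R₁, g₁⟩ := by
    rw [sigma_subCentIso_eq L (R₁.subgroupOf L) _ R₁ ha₁ h₁ hmap₁, mapSet_mapSet_symm]
  rw [hsig₁] at hchain₁
  -- the second chain
  have hmap₃ : ((R₃.subgroupOf L).map (MulAut.conj t).toMonoidHom).map L.subtype =
      R₃.map (MulAut.conj (t : G)).toMonoidHom := by
    ext z
    constructor
    · rintro ⟨_, ⟨r, hr, rfl⟩, rfl⟩
      exact ⟨(r : G), Subgroup.mem_subgroupOf.mp hr, rfl⟩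
    · rintro ⟨r, hr, rfl⟩
      exact ⟨t * ⟨r, hR₃T hr⟩ * t⁻¹, ⟨⟨r, hR₃T hr⟩, Subgroup.mem_subgroupOf.mpr hr, rfl⟩, rfl⟩
  have hQle : Q ≤ R₃.map (MulAut.conj (t : G)).toMonoidHom :=
    (map_conj_eq_of_mem_normalizer (hLN t.2)).le.trans (Subgroup.map_mono hn₃.2.2.1)
  have hC₃c : Subgroup.centralizer
      ((R₃.map (MulAut.conj (t : G)).toMonoidHom : Subgroup G) : Set G) ≤ L :=
    (Subgroup.centralizer_le hQle).trans hCL
  have ha₃ : CentEq L ((R₃.subgroupOf L).map (MulAut.conj t).toMonoidHom)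
      (((R₃.subgroupOf L).map (MulAut.conj t).toMonoidHom).map L.subtype) := by
    apply centEq_map
    rw [hmap₃]
    exact hC₃c
  have h₃c : CentEq L ((R₃.subgroupOf L).map (MulAut.conj t).toMonoidHom)
      (R₃.map (MulAut.conj (t : G)).toMonoidHom) := by
    rw [← hmap₃]
    exact ha₃
  obtain ⟨hD', hchain₃⟩ := subpairLE_sub hMp L
    ⟨_, Cfsg.conjBlock (R₃.subgroupOf L) t (mapSet (subCentIso L _ R₃ h₃).symm g₃)⟩ ⟨D, eD⟩
    ht ha₃
  have hsig₃ : (⟨((R₃.subgroupOf L).map (MulAut.conj t).toMonoidHom).map L.subtype,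
      mapSet (subCentIso L _ _ ha₃) (Cfsg.conjBlock (R₃.subgroupOf L) t
        (mapSet (subCentIso L (R₃.subgroupOf L) R₃ h₃).symm g₃))⟩ : Cfsg.BrauerPairIdx G) =
      ⟨R₃.map (MulAut.conj (t : G)).toMonoidHom, Cfsg.conjBlock R₃ (t : G) g₃⟩ := by
    rw [sigma_subCentIso_eq L _ _ _ ha₃ h₃c hmap₃,
      mapSet_subCentIso_conjBlock L t (R₃.subgroupOf L) R₃ _ h₃ h₃c rfl, mapSet_mapSet_symm,
      ← conjBlock_eq]
  rw [hsig₃] at hchain₃
  exact ⟨D, eD, hD, t, hDmax, hchain₁, hchain₃⟩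

/-- **Fully normalized subgroups are receptive.** -/
theorem blockFusion_receptive_of_fullyNormalized (hM : Cfsg.IsPModular p M)
    {B : Set (Cfsg.IrrCharacter G)} {P : Subgroup G}
    {e : Set (Cfsg.IrrCharacter (Subgroup.centralizer (P : Set G)))}
    {F : Cfsg.FusionSystem P} (hF : Cfsg.IsBlockFusionSystemOn p M B P e F)
    {Q : Subgroup G} (hQn : F.IsFullyNormalized Q) : F.IsReceptive Q := by
  classical
  have hMp := isPrime_of_isPModular hM
  have hmax := hF.1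
  have hPe := hmax.1.1
  have hQP : Q ≤ P := hQn.1
  refine ⟨hQP, ?_⟩
  intro R φ hφ hrange
  obtain ⟨hRP, g, hg, hRg, fR, hleR, hleRg⟩ := (hF.2 R φ).mp hφ
  have hQeq : Q = R.map (MulAut.conj g).toMonoidHom := by
    rw [← hrange]
    ext y
    constructor
    · rintro ⟨x, rfl⟩
      rw [hg]
      exact ⟨x, x.2, rfl⟩
    · rintro ⟨q, hq, rfl⟩
      exact ⟨⟨q, hq⟩, hg _⟩
  obtain ⟨f, hf, hle⟩ := exists_subpairLE hM P e hPe _ Q hQP le_rfl
  have hfR : conjBlockTo g R Q fR = f := by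
    have h1 := hleRg
    unfold Cfsg.SubpairLE at h1
    rw [sigma_conjBlock_eq g R Q hQeq fR] at h1
    exact subpairLE_unique hM _ P e le_rfl hPe Q _ f h1 hle
  -- the stabilizer and its block
  obtain ⟨T, hT⟩ : ∃ T : Subgroup G, ∀ y : G, y ∈ T ↔ y ∈ Subgroup.normalizer (Q : Set G) ∧
      Cfsg.StabilizesBlock (Subgroup.centralizer (Q : Set G)) f y :=
    ⟨Subgroup.normalizer (Q : Set G) ⊓ blockStab (Subgroup.centralizer (Q : Set G)) f,
      fun y => by rw [Subgroup.mem_inf, mem_blockStab_iff]⟩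
  obtain ⟨bT, hbT, hbTf, hdefT⟩ := (isFullyNormalized_iff hM hF hQP hf hle T hT).mp hQn
  -- the normalizer of `Q` in `P`
  obtain ⟨N₁, hN₁⟩ : ∃ N₁ : Subgroup G, N₁ = P ⊓ Subgroup.normalizer (Q : Set G) := ⟨_, rfl⟩
  have hQN₁ : Q ≤ N₁ := hN₁ ▸ le_inf hQP Subgroup.le_normalizer
  have hN₁P : N₁ ≤ P := hN₁ ▸ inf_le_left
  have hN₁N : N₁ ≤ Subgroup.normalizer (Q : Set G) := hN₁ ▸ inf_le_right
  obtain ⟨f₁, hns₁, hle₁⟩ := exists_isNormalSubpair_of_subpairLE hM hPe hle hQN₁ hN₁P hN₁N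
  -- the subgroup `L = N_P(Q) C_G(Q)`
  obtain ⟨L, hL⟩ : ∃ L : Subgroup G, L = N₁ ⊔ Subgroup.centralizer (Q : Set G) := ⟨_, rfl⟩
  have hCL : Subgroup.centralizer (Q : Set G) ≤ L := hL ▸ le_sup_right
  have hN₁L : N₁ ≤ L := hL ▸ le_sup_left
  have hLN : L ≤ Subgroup.normalizer (Q : Set G) :=
    hL ▸ sup_le hN₁N (Subgroup.centralizer_le_normalizer _)
  have hN₁T : N₁ ≤ T := fun r hr => (hT r).mpr ⟨hN₁N hr, hns₁.2.2.2.2.1 r hr⟩
  have hCT : Subgroup.centralizer (Q : Set G) ≤ T := fun c hc =>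
    (hT c).mpr ⟨Subgroup.centralizer_le_normalizer _ hc, stabilizesBlock_of_mem _ f hc⟩
  have hLT : L ≤ T := hL ▸ sup_le hN₁T hCT
  have hQL : Q ≤ L := hQN₁.trans hN₁L
  have hQp : IsPGroup p Q := hPe.1.to_le hQP
  obtain ⟨bL, hbL, hbLf⟩ := exists_block_eq_ext0 hMp L (Subgroup.centralizer (Q : Set G)) hCL
    f hf (fun t ht => ((hT t).mp (hLT ht)).2)
    (fun F' hF' t ht => blockCoeff_eq_zero_of_not_mem_centralizer' hM L Q hQp hQL hLN F' hF' t ht)
  -- the extender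
  obtain ⟨N, hN⟩ : ∃ N : Subgroup G, N = Cfsg.FusionSystem.extender P R φ := ⟨_, rfl⟩
  have hNle : N ≤ Cfsg.FusionSystem.normalizerIn P R :=
    hN ▸ Helper84.extender_le_normalizerIn P R φ
  have hNP : N ≤ P := hNle.trans inf_le_left
  have hNN : N ≤ Subgroup.normalizer (R : Set G) := hNle.trans inf_le_right
  have hφP : ∀ x : R, φ x ∈ P := fun x => (F.le_of_mem hφ).2 x
  have hRN : R ≤ N := hN ▸ Helper84.le_extender hRP φ hφP
  obtain ⟨fN, hnsN, hleN⟩ := exists_isNormalSubpair_of_subpairLE hM hPe hleR hRN hNP hNN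
  have hns₃ : Cfsg.IsNormalSubpair p M Q f (N.map (MulAut.conj g).toMonoidHom)
      (Cfsg.conjBlock N g fN) := by
    have h1 := isNormalSubpair_conjBlockTo hMp g hQeq rfl hnsN
    rw [hfR, ← conjBlock_eq] at h1
    exact h1
  have hR₃L : N.map (MulAut.conj g).toMonoidHom ≤ L := by
    rintro _ ⟨y, hy, rfl⟩
    show g * y * g⁻¹ ∈ L
    have hy' : y ∈ N := hy
    rw [hN, Helper84.mem_extender_iff] at hy'
    obtain ⟨hyP, hyN, h, hhP, hh⟩ := hy'
    have hact : ∀ q ∈ Q, (g * y * g⁻¹) * q * (g * y * g⁻¹)⁻¹ = h * q * h⁻¹ := by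
      intro q hq
      rw [hQeq] at hq
      obtain ⟨x, hx, rfl⟩ := hq
      have hx' : y * x * y⁻¹ ∈ R := (Subgroup.mem_normalizer_iff.mp hyN x).mp hx
      have h1 := hh ⟨x, hx⟩ hx'
      rw [hg, hg] at h1
      show g * y * g⁻¹ * (g * x * g⁻¹) * (g * y * g⁻¹)⁻¹ = h * (g * x * g⁻¹) * h⁻¹
      rw [← h1]
      group
    have hgy : g * y * g⁻¹ ∈ Subgroup.normalizer (Q : Set G) := by
      rw [hQeq]
      exact conj_mem_normalizer_map_conj g R hyN
    have hhN : h ∈ Subgroup.normalizer (Q : Set G) := by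
      apply Helper84.mem_normalizer_of_finite_of_conj_mem
      intro q hq
      rw [← hact q hq]
      exact (Subgroup.mem_normalizer_iff.mp hgy q).mp hq
    have hhN₁ : h ∈ N₁ := hN₁ ▸ ⟨hhP, hhN⟩
    have hc : h⁻¹ * (g * y * g⁻¹) ∈ Subgroup.centralizer (Q : Set G) := by
      rw [Subgroup.mem_centralizer_iff]
      intro q hq
      have h2 : (g * y * g⁻¹) * q = h * q * h⁻¹ * (g * y * g⁻¹) := by
        rw [← hact q hq]
        group
      calc q * (h⁻¹ * (g * y * g⁻¹)) = h⁻¹ * (h * q * h⁻¹ * (g * y * g⁻¹)) := by group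
        _ = h⁻¹ * (g * y * g⁻¹) * q := by rw [← h2]; group
    have hdec : g * y * g⁻¹ = h * (h⁻¹ * (g * y * g⁻¹)) := by group
    rw [hdec]
    exact L.mul_mem (hN₁L hhN₁) (hCL hc)
  -- Sylow's theorem in `L`
  obtain ⟨D, eD, hD, t, hDmax, hchain₁, hchain₃⟩ :=
    exists_conj_subpairLE_of_isNormalSubpair_sub hM L hCL hLN hbL hbLf hns₁ hns₃ hN₁L hR₃L
  have hfinL : Fintype L := Fintype.ofFinite _
  have hfinT : Fintype T := Fintype.ofFinite _
  have hD'p : IsPGroup p (D.map L.subtype) := hDmax.1.1.1.map _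
  have hD'pair : Cfsg.IsBrauerPair p M (D.map L.subtype) (mapSet (subCentIso L D _ hD) eD) :=
    ⟨hD'p, isPBlock_mapSet hMp _ hDmax.1.1.2⟩
  have hD'L : D.map L.subtype ≤ L := by
    rintro _ ⟨d, -, rfl⟩
    exact d.2
  have hN₁D : N₁ ≤ D.map L.subtype := subpairLE_le (a := ⟨N₁, f₁⟩) (b := ⟨_, _⟩) hchain₁
  have hleQD : Cfsg.SubpairLE p M Q f (D.map L.subtype) (mapSet (subCentIso L D _ hD) eD) :=
    Relation.ReflTransGen.head (show Cfsg.NormalSubpairRel p M ⟨Q, f⟩ ⟨N₁, f₁⟩ from hns₁) hchain₁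
  have hnsD := isNormalSubpair_of_subpairLE hM hD'pair hleQD (hD'L.trans hLN)
  have hD'T : D.map L.subtype ≤ T := hD'L.trans hLT
  have hCD'T : Subgroup.centralizer ((D.map L.subtype : Subgroup G) : Set G) ≤ T :=
    (Subgroup.centralizer_le (hQN₁.trans hN₁D)).trans hCT
  have hcT := centEq_subgroupOf T (D.map L.subtype) hD'T hCD'T
  have pairT : Cfsg.IsBrauerPairOf p M bT ((D.map L.subtype).subgroupOf T)
      (mapSet (subCentIso T _ _ hcT).symm (mapSet (subCentIso L D _ hD) eD)) := by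
    apply isBrauerPairOf_of_isNormalSubpair_sub hMp T hbT hbTf hcT hD'p.comap_subtype
    rw [mapSet_mapSet_symm]
    exact hnsD
  obtain ⟨R', g', hmaxT, -⟩ := exists_isMaximalBrauerPair_ge (M := M) _ _ _ rfl pairT
  have hR'def := Cfsg.Agent.S4659.result p M hM bT R' g' hmaxT
  have hc1 : Nat.card ((D.map L.subtype).subgroupOf T) ≤ Nat.card R' :=
    card_le_of_isBrauerPairOf hM hmaxT pairT
  have hc2 : Nat.card R' = Nat.card ((P ⊓ Subgroup.normalizer (Q : Set G)).subgroupOf T) :=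
    card_eq_of_isDefectGroup hM hbT hR'def hdefT
  have hc3 : Nat.card ((D.map L.subtype).subgroupOf T) = Nat.card (D.map L.subtype) :=
    Nat.card_congr (Subgroup.subgroupOfEquivOfLe hD'T).toEquiv
  have hc4 : Nat.card (N₁.subgroupOf T) = Nat.card N₁ :=
    Nat.card_congr (Subgroup.subgroupOfEquivOfLe hN₁T).toEquiv
  have hDN : N₁ = D.map L.subtype := by
    apply Subgroup.eq_of_le_of_card_ge hN₁D
    rw [← hc3, ← hc4, hN₁]
    exact hc1.trans hc2.le
  have hsig : (⟨N₁, f₁⟩ : Cfsg.BrauerPairIdx G) =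
      ⟨D.map L.subtype, mapSet (subCentIso L D _ hD) eD⟩ :=
    eq_of_subpairLE_of_eq hM hchain₁ hD'pair hDN
  unfold Cfsg.SubpairLE at hchain₃
  rw [← hsig] at hchain₃
  -- the element of `L` is an element of `N_P(Q)` times an element of `C_G(Q)`
  have htL : (t : G) ∈ ((N₁ ⊔ Subgroup.centralizer (Q : Set G) : Subgroup G) : Set G) := by
    rw [← hL]
    exact t.2
  rw [Subgroup.coe_mul_of_left_le_normalizer_right N₁ _
    (hN₁N.trans (normalizer_le_normalizer_centralizer Q))] at htL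
  obtain ⟨z, hz, c, hc, hzc⟩ := Set.mem_mul.mp htL
  have h5 := subpairLE_conjBlock_of_mem hM (Relation.ReflTransGen.trans hchain₃ hle₁)
    (P.inv_mem (hN₁P hz))
  unfold Cfsg.SubpairLE at h5
  rw [sigma_conjBlock_conjBlock, sigma_conjBlock_conjBlock] at h5
  have hct : z⁻¹ * (t : G) * g = c * g := by
    rw [← hzc]
    group
  rw [hct] at h5
  have h6 : Cfsg.SubpairLE p M (N.map (MulAut.conj (c * g)).toMonoidHom)
      (Cfsg.conjBlock N (c * g) fN) P e := h5
  have hψ : Cfsg.conjHom N (c * g) ∈ F.Hom N :=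
    (hF.2 N _).mpr ⟨hNP, c * g, fun u => rfl,
      subpairLE_le (a := ⟨_, _⟩) (b := ⟨P, e⟩) h6, fN, hleN, h6⟩
  subst hN
  refine ⟨Cfsg.conjHom _ (c * g), hψ, fun x hxR hxN => ?_⟩
  show c * g * x * (c * g)⁻¹ = φ ⟨x, hxR⟩
  rw [hg]
  have hq : g * x * g⁻¹ ∈ Q := by
    rw [hQeq]
    exact ⟨x, hxR, rfl⟩
  have hcomm := Subgroup.mem_centralizer_iff.mp hc (g * x * g⁻¹) hq
  calc c * g * x * (c * g)⁻¹ = c * (g * x * g⁻¹) * c⁻¹ := by group
    _ = (g * x * g⁻¹) * c * c⁻¹ := by rw [hcomm]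
    _ = g * x * g⁻¹ := by group

/-- **The fusion system of a block is saturated.** -/
theorem blockFusion_isSaturated (hM : Cfsg.IsPModular p M)
    {B : Set (Cfsg.IrrCharacter G)} {P : Subgroup G}
    {e : Set (Cfsg.IrrCharacter (Subgroup.centralizer (P : Set G)))}
    {F : Cfsg.FusionSystem P} (hF : Cfsg.IsBlockFusionSystemOn p M B P e F) :
    F.IsSaturated p := by
  have hPp : IsPGroup p P := hF.1.1.1.1
  rw [Helper84.saturated_iff_top_fa_and_fn_receptive p hPp F]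
  exact ⟨blockFusion_fullyAutomized_top hM hF,
    fun Q hQ => blockFusion_receptive_of_fullyNormalized hM hF hQ⟩

end Sat

end Cfsg.Agent.Lib.Helper77
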