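import Mathlib
import Cfsg.Prelude.Def_Blocks
import Cfsg.Prelude.Def_BlockLocal
import Cfsg.Prelude.Def_BrauerPairs
import Cfsg.Agent.Lib.Helper77.IndBridge
import Cfsg.Agent.Lib.Helper77.SubBlock
import Cfsg.Agent.Lib.Helper77.SubPairs
import Cfsg.Agent.Lib.Helper77.IdemSet
import Cfsg.Agent.Lib.Helper16.Cover
import Cfsg.Agent.Lib.Helper16.FirstMain
import Cfsg.Agent.Lib.Helper16.FirstMain2
import Cfsg.Agent.Lib.Helper16.MaxPairChar
import Cfsg.Agent.Lib.Helper78.ExtFirstMain

/-!
# From a block of `D C_G(D)` to a maximal Brauer pair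

Let `D` be a defect group of the block `B` and `b` a block of `H = D C_G(D)` inducing `B`.
Then there is a block `b₀` of `C_G(D)` with `(D, b₀)` a maximal Brauer pair of `B`, such that
every element of `N_G(D)` stabilizing `b₀` stabilizes `b`.
-/

set_option autoImplicit false
set_option linter.unusedSectionVars false
set_option linter.style.haveILetI false

namespace Cfsg.Agent.Lib.Helper77

open Cfsg Cfsg.Agent.Lib.Helper16 Cfsg.Agent.Lib.Helper81

/-- a class function supported on a normal subgroup: its central character value at a character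
of the group is the value at any constituent of the restriction -/
theorem omega_eq_of_under {L : Type*} [Group L] [Fintype L] (N : Subgroup L) [N.Normal]
    [Fintype N] {θ : Cfsg.IrrCharacter L} {ξ' : Cfsg.IrrCharacter N}
    (h : Cfsg.classInner (fun n : N => (θ : L → ℂ) n) (ξ' : N → ℂ) ≠ 0) {α : L → ℂ}
    (hα : Cfsg.IsClassFunction L α) (hsupp : ∀ t : L, t ∉ N → α t = 0) :
    omega (θ : L → ℂ) α = omega (ξ' : N → ℂ) (fun m : N => α m) := by
  classical
  have h1 := sum_res_mul_eq N h hα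
  unfold omega
  rw [← Finset.sum_div, ← Finset.sum_div, ← h1]
  congr 1
  have e : ∀ t : L, α t = ext0 N (fun m : N => α m) t := by
    intro t
    by_cases ht : t ∈ N
    · rw [ext0_of_mem N _ ht]
    · rw [ext0_of_not_mem N _ ht, hsupp t ht]
  calc ∑ t : L, α t * (θ : L → ℂ) t
      = ∑ t : L, ext0 N (fun m : N => α m) t * (θ : L → ℂ) t :=
        Finset.sum_congr rfl (fun t _ => by rw [← e t])
    _ = ∑ m : N, α m * (θ : L → ℂ) m := sum_ext0_mul N (fun m : N => α m) (θ : L → ℂ)

/-- central character values along an isomorphism -/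
theorem omega_mapIrr {K K' : Type*} [Group K] [Fintype K] [Group K'] [Fintype K']
    (α : K ≃* K') (χ : Cfsg.IrrCharacter K) (c : K' → ℂ) :
    omega (mapIrr α χ : K' → ℂ) c = omega (χ : K → ℂ) (fun k => c (α k)) := by
  unfold omega
  rw [mapIrr_one]
  refine (Fintype.sum_equiv α.toEquiv _ _ (fun k => ?_)).symm
  show c (α k) * (χ : K → ℂ) k / _ = c (α k) * (mapIrr α χ : K' → ℂ) (α k) / _
  rw [mapIrr_apply_apply]

variable {G : Type*} [Group G] [Fintype G] {M : Ideal Cfsg.AlgInt} {p : ℕ} [Fact p.Prime]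

/-- **From a block of `D C_G(D)` to a maximal Brauer pair.** -/
theorem exists_maximal_pair_of_induced_sup (hM : Cfsg.IsPModular p M)
    {B : Set (Cfsg.IrrCharacter G)} {D : Subgroup G} (hBD : Cfsg.IsDefectGroup p M B D)
    (H : Subgroup G) (hDH : D ≤ H) (hCH : Subgroup.centralizer (D : Set G) ≤ H)
    (hHle : H ≤ D ⊔ Subgroup.centralizer (D : Set G))
    (b : Set (Cfsg.IrrCharacter H)) (hind : Cfsg.IsInducedBlock M H b B) :
    ∃ b₀ : Set (Cfsg.IrrCharacter (Subgroup.centralizer (D : Set G))),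
      Cfsg.IsMaximalBrauerPair p M B D b₀ ∧
      ∀ g ∈ Subgroup.normalizer (D : Set G),
        Cfsg.StabilizesBlock (Subgroup.centralizer (D : Set G)) b₀ g →
        ∀ θ ∈ b, ∀ θ' : Cfsg.IrrCharacter H,
          (∀ h h' : H, (h' : G) = g * h * g⁻¹ → (θ' : H → ℂ) h' = (θ : H → ℂ) h) → θ' ∈ b := by
  classical
  have hMp := isPrime_of_isPModular hM
  have hp : p.Prime := Fact.out
  letI : Fintype H := Fintype.ofFinite _
  letI : Fintype (Subgroup.centralizer (D : Set G)) := Fintype.ofFinite _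
  have hb := hind.1
  have hB := hind.2.1
  have hDp : IsPGroup p D := isPGroup_of_isDefectGroup hBD
  have hHeq : H = D ⊔ Subgroup.centralizer (D : Set G) := le_antisymm hHle (sup_le hDH hCH)
  have hHN : H ≤ Subgroup.normalizer (D : Set G) :=
    hHle.trans (sup_le Subgroup.le_normalizer (Subgroup.centralizer_le_normalizer _))
  have hLN : H ≤ Subgroup.normalizer ((Subgroup.centralizer (D : Set G) : Subgroup G) : Set G) :=
    fun y hy => normalizer_le_normalizer_centralizer D (hHN hy)
  haveI hn : ((Subgroup.centralizer (D : Set G)).subgroupOf H).Normal :=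
    (Subgroup.normal_subgroupOf_iff_le_normalizer hCH).mpr hLN
  letI : Fintype ((Subgroup.centralizer (D : Set G)).subgroupOf H) := Fintype.ofFinite _
  obtain ⟨θ, hθ⟩ := IsPBlock.nonempty hMp hb
  obtain ⟨ξ', hξ'⟩ := exists_irr_under ((Subgroup.centralizer (D : Set G)).subgroupOf H) θ
  obtain ⟨e, he⟩ : ∃ e : (Subgroup.centralizer (D : Set G)).subgroupOf H ≃*
      Subgroup.centralizer (D : Set G), e = Subgroup.subgroupOfEquivOfLe hCH := ⟨_, rfl⟩
  have hecoe : ∀ m : (Subgroup.centralizer (D : Set G)).subgroupOf H,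
      ((e m : Subgroup.centralizer (D : Set G)) : G) = ((m : H) : G) := by
    intro m; rw [he]; rfl
  obtain ⟨b₀, hb₀def⟩ : ∃ b₀ : Set (Cfsg.IrrCharacter (Subgroup.centralizer (D : Set G))),
      b₀ = Cfsg.blockOf M (mapIrr e ξ' : Subgroup.centralizer (D : Set G) → ℂ) := ⟨_, rfl⟩
  have hb₀ : Cfsg.IsPBlock M b₀ := ⟨_, hb₀def⟩
  have hξmem : mapIrr e ξ' ∈ b₀ := by
    rw [hb₀def]; exact mem_blockOf_self hMp _
  -- the pair `(D, b₀)` belongs to `B`
  have hpair : Cfsg.IsBrauerPairOf p M B D b₀ := by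
    have hadm : BrAdm M D (Cfsg.blockCoeff B) :=
      brAdm_of_isClassFunction (fun g => memLocalRing_blockCoeff hMp B hB g)
        (blockCoeff_isClassFunction B)
    obtain ⟨χ, hχ⟩ := IsPBlock.nonempty hMp hB
    have h1 := omega_brRes_sub hM D H hDp hDH hHN θ χ (hind.2.2 θ hθ χ hχ)
      (isRClass_blockCoeff hMp hB)
    rw [omega_blockCoeff hMp hB χ, if_pos hχ] at h1
    have hcl := (isRClass_brRes hMp hHN (P := D) (H := H) (isRClass_blockCoeff hMp hB)).1
    have hsupp : ∀ t : H, t ∉ (Subgroup.centralizer (D : Set G)).subgroupOf H →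
        brRes D H (Cfsg.blockCoeff B) t = 0 := by
      intro t ht
      unfold brRes
      rw [if_neg (fun h => ht (Subgroup.mem_subgroupOf.mpr h))]
    have h2 : omega (θ : H → ℂ) (brRes D H (Cfsg.blockCoeff B)) =
        Cfsg.brauerOmega D (Cfsg.blockCoeff B)
          (mapIrr e ξ' : Subgroup.centralizer (D : Set G) → ℂ) := by
      rw [omega_eq_of_under _ hξ' hcl hsupp, brauerOmega_eq_omegaF, omegaF_eq, omega_mapIrr]
      congr 1
      funext m
      unfold brRes
      rw [if_pos (Subgroup.mem_subgroupOf.mp m.2), res_apply, hecoe]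
    rw [h2] at h1
    refine ⟨⟨hDp, hb₀⟩, hB, fun ζ hζ => ?_⟩
    have h3 := memLocalIdeal_brauerOmega_sub_of_sameBlock hMp D
      (IsPBlock.sameBlock hMp hb₀ hζ hξmem) hadm
    have h4 := memLocalIdeal_add hMp h3 h1
    rwa [sub_add_sub_cancel] at h4
  refine ⟨b₀, isMaximalBrauerPair_of_isDefectGroup hM hpair hBD, ?_⟩
  -- the idempotent of `b` is the idempotent of `b₀`
  have hidx : ∃ k : ℕ, (Subgroup.centralizer (D : Set G)).relIndex H = p ^ k := by
    rw [hHeq, relIndex_sup_right_of_le_normalizer _ _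
      (Subgroup.le_normalizer.trans (normalizer_le_normalizer_centralizer D))]
    obtain ⟨n, hn⟩ := IsPGroup.iff_card.mp hDp
    have h1 := Subgroup.relIndex_dvd_card (Subgroup.centralizer (D : Set G)) D
    rw [hn] at h1
    obtain ⟨j, -, hj⟩ := (Nat.dvd_prime_pow hp).mp h1
    exact ⟨j, hj⟩
  have hst : ∀ x ∈ H, Cfsg.StabilizesBlock (Subgroup.centralizer (D : Set G)) b₀ x :=
    fun x hx => stabilizesBlock_of_mem_sup_centralizer D _ (hHle hx)
  obtain ⟨F, hF, hFc⟩ := exists_block_of_stable_relIndex hM hCH hLN hidx b₀ hb₀ hst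
  have hθF : θ ∈ F := by
    have h1 := omega_blockCoeff hMp hF θ
    have hsupp : ∀ t : H, t ∉ (Subgroup.centralizer (D : Set G)).subgroupOf H →
        Cfsg.blockCoeff F t = 0 := by
      intro t ht
      rw [hFc, subgroupBlockCoeff_eq_ext0,
        ext0_of_not_mem _ _ (fun h => ht (Subgroup.mem_subgroupOf.mpr h))]
    rw [omega_eq_of_under _ hξ' (blockCoeff_isClassFunction F) hsupp] at h1
    have h2 : (fun m : (Subgroup.centralizer (D : Set G)).subgroupOf H =>
        Cfsg.blockCoeff F (m : H)) = fun m => Cfsg.blockCoeff b₀ (e m) := by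
      funext m
      rw [hFc, subgroupBlockCoeff_eq_ext0, ext0_of_mem _ _ (Subgroup.mem_subgroupOf.mp m.2)]
      congr 1
      exact Subtype.ext (hecoe m).symm
    rw [h2, ← omega_mapIrr e ξ' (Cfsg.blockCoeff b₀), omega_blockCoeff hMp hb₀,
      if_pos hξmem] at h1
    by_contra hcon
    rw [if_neg hcon] at h1
    exact one_ne_zero h1
  have hFb : F = b := by
    rw [IsPBlock.eq_blockOf hMp hF hθF, ← IsPBlock.eq_blockOf hMp hb hθ]
  subst hFb
  have hext : ext0 H (Cfsg.blockCoeff F) =
      ext0 (Subgroup.centralizer (D : Set G)) (Cfsg.blockCoeff b₀) := by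
    funext s
    by_cases hs : s ∈ H
    · rw [ext0_of_mem H _ hs, hFc ⟨s, hs⟩, subgroupBlockCoeff_eq_ext0]
    · rw [ext0_of_not_mem H _ hs, ext0_of_not_mem _ _ (fun h => hs (hCH h))]
  -- the stabilizers
  intro g hg hstab θ₁ hθ₁ θ₁' hconj
  have hgH : g ∈ Subgroup.normalizer (H : Set G) := by
    rw [hHeq]; exact Cfsg.Agent.Lib.Helper78.efm_normalizer_le D hg
  have hgC : g ∈ Subgroup.normalizer
      ((Subgroup.centralizer (D : Set G) : Subgroup G) : Set G) :=
    normalizer_le_normalizer_centralizer D hg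
  have hθ' : θ₁' = mapIrr (conjAut H g hgH) θ₁ := (isConjCharOf_iff H g hgH θ₁ θ₁').mp hconj
  have hc0 : conjSet (Subgroup.centralizer (D : Set G)) g hgC b₀ = b₀ :=
    conjSet_eq_of_stabilizes (P := blockStab (Subgroup.centralizer (D : Set G)) b₀)
      (fun x hx => hx) hstab
  have hcb : conjSet H g hgH F = F := by
    apply eq_of_blockCoeff_eq
    apply ext0_injective H
    funext t
    have e1 : t = g * (g⁻¹ * t * g) * g⁻¹ := by group
    have h5 := ext0_blockCoeff_conjSet (Subgroup.centralizer (D : Set G)) g hgC b₀ (g⁻¹ * t * g)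
    rw [hc0, ← e1] at h5
    have h6 := ext0_blockCoeff_conjSet H g hgH F (g⁻¹ * t * g)
    rw [← e1] at h6
    rw [h6, hext, h5]
  rw [← hcb, hθ']
  exact ⟨θ₁, hθ₁, rfl⟩

end Cfsg.Agent.Lib.Helper77
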