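import Mathlib
import Cfsg.Prelude.Def_Blocks
import Cfsg.Prelude.Def_BlockLocal
import Cfsg.Prelude.Def_BrauerPairs
import Cfsg.Agent.Lib.Helper77.AbelianConj
import Cfsg.Agent.Lib.Helper77.IndBridge
import Cfsg.Agent.Lib.Helper16.Induced
import Cfsg.Agent.Lib.Helper16.Osima
import Cfsg.Agent.S0919
import Cfsg.Agent.S4659
import Cfsg.Agent.S4660

/-!
# Subsections of a block with abelian defect group, in the form `(x, b)` with `b` a block of
`centralizer {x}`

Bridges between blocks of `centralizer {x}` inducing `B` and Brauer pairs `(⟨x⟩, f)` of `B`,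
and the analysis of these pairs for a block with a Klein four defect group.
-/

set_option autoImplicit false
set_option linter.unusedSectionVars false

namespace Cfsg.Agent.Lib.Helper77

open Cfsg Cfsg.Agent.Lib.Helper16 Cfsg.Agent.Lib.Helper81

section Transport

variable {G : Type*} [Group G] {M : Ideal Cfsg.AlgInt}

/-- the centralizer of the cyclic group generated by `x` is the centralizer of `x` -/
theorem centralizer_zpowers_eq (x : G) :
    Subgroup.centralizer (Subgroup.zpowers x : Set G) = Subgroup.centralizer ({x} : Set G) := by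
  ext g
  rw [Subgroup.mem_centralizer_iff, Subgroup.mem_centralizer_iff]
  constructor
  · intro h y hy
    rw [Set.mem_singleton_iff] at hy
    rw [hy]
    exact h x (Subgroup.mem_zpowers x)
  · intro h y hy
    obtain ⟨i, rfl⟩ := Subgroup.mem_zpowers_iff.mp hy
    have h1 : Commute g x := (h x rfl).symm
    exact (h1.zpow_right i).eq.symm

/-- transport of a set of irreducible characters along an equality of subgroups -/
def congrSet {K K' : Subgroup G} (h : K = K') (A : Set (Cfsg.IrrCharacter K)) :
    Set (Cfsg.IrrCharacter K') := mapSet (MulEquiv.subgroupCongr h) A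

theorem congrSet_rfl {K : Subgroup G} (A : Set (Cfsg.IrrCharacter K)) :
    congrSet (rfl : K = K) A = A := by
  unfold congrSet
  have h1 : mapSet (MulEquiv.subgroupCongr (rfl : K = K)) A = mapSet (MulEquiv.refl K) A :=
    mapSet_congr (fun x => rfl) A
  rw [h1, mapSet_refl]

theorem congrSet_congrSet {K K' : Subgroup G} (h : K = K') (A : Set (Cfsg.IrrCharacter K)) :
    congrSet h.symm (congrSet h A) = A := by
  subst h
  rw [congrSet_rfl, congrSet_rfl]

theorem congrSet_congrSet' {K K' : Subgroup G} (h : K = K') (A : Set (Cfsg.IrrCharacter K')) :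
    congrSet h (congrSet h.symm A) = A := by
  subst h
  rw [congrSet_rfl, congrSet_rfl]

theorem congrSet_injective {K K' : Subgroup G} (h : K = K') :
    Function.Injective (congrSet h) := by
  intro A A' hA
  rw [← congrSet_congrSet h A, ← congrSet_congrSet h A', hA]

theorem isInducedBlock_congrSet {K K' : Subgroup G} (h : K = K')
    (b : Set (Cfsg.IrrCharacter K)) (B : Set (Cfsg.IrrCharacter G)) :
    Cfsg.IsInducedBlock M K' (congrSet h b) B ↔ Cfsg.IsInducedBlock M K b B := by
  subst h
  rw [congrSet_rfl]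

theorem isPBlock_congrSet {K K' : Subgroup G} (h : K = K')
    (b : Set (Cfsg.IrrCharacter K)) :
    Cfsg.IsPBlock M (congrSet h b) ↔ Cfsg.IsPBlock M b := by
  subst h
  rw [congrSet_rfl]

theorem blockDefect_congrSet {K K' : Subgroup G} (h : K = K') (p : ℕ)
    (b : Set (Cfsg.IrrCharacter K)) :
    Cfsg.blockDefect p (congrSet h b) = Cfsg.blockDefect p b := by
  subst h
  rw [congrSet_rfl]

end Transport

section Bridge

variable {G : Type*} [Group G] [Fintype G] {M : Ideal Cfsg.AlgInt} {p : ℕ} [Fact p.Prime]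

/-- a Brauer pair `(Q, e)` of `B` with `Q` abelian: the block `e` of `C_G(Q)` induces `B` -/
theorem isInducedBlock_of_isBrauerPairOf (hM : Cfsg.IsPModular p M) {Q : Subgroup G}
    (hQC : Q ≤ Subgroup.centralizer (Q : Set G))
    {e : Set (Cfsg.IrrCharacter (Subgroup.centralizer (Q : Set G)))}
    {B : Set (Cfsg.IrrCharacter G)} (hBe : Cfsg.IsBrauerPairOf p M B Q e) :
    Cfsg.IsInducedBlock M (Subgroup.centralizer (Q : Set G)) e B := by
  classical
  have hP := isPrime_of_isPModular hM
  obtain ⟨⟨hPg, he⟩, hB, hbr⟩ := hBe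
  letI : Fintype (Subgroup.centralizer (Q : Set G)) := Fintype.ofFinite _
  obtain ⟨B', hB'⟩ := Cfsg.Agent.S0919.result p M hM Q
    (Subgroup.centralizer (Q : Set G)) hPg hQC le_rfl
    (Subgroup.centralizer_le_normalizer _) e he
  obtain ⟨ξ, hξ⟩ := IsPBlock.nonempty hP he
  obtain ⟨χ', hχ'⟩ := IsPBlock.nonempty hP hB'.2.1
  have h1 := omega_resFun_sub hP (Subgroup.centralizer (Q : Set G))
    (ξ : Subgroup.centralizer (Q : Set G) → ℂ) χ' (hB'.2.2 ξ hξ χ' hχ')
    (isRClass_blockCoeff hP hB)
  have h2 := hbr ξ hξ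
  have h3 : Cfsg.brauerOmega Q (Cfsg.blockCoeff B)
      (ξ : Subgroup.centralizer (Q : Set G) → ℂ) =
      omega (ξ : Subgroup.centralizer (Q : Set G) → ℂ)
        (resFun (Subgroup.centralizer (Q : Set G)) (Cfsg.blockCoeff B)) := by
    unfold Cfsg.brauerOmega omega resFun
    rw [finsum_eq_sum_of_fintype]
  rw [h3] at h2
  have h4 : MemLocalIdeal M (omega (χ' : G → ℂ) (Cfsg.blockCoeff B) - 1) := by
    have := memLocalIdeal_sub hP h2 h1
    convert this using 1
    ring
  rw [omega_blockCoeff hP hB χ'] at h4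
  have hχ'B : χ' ∈ B := by
    by_contra hc
    rw [if_neg hc, zero_sub] at h4
    exact not_memLocalIdeal_one hP (by simpa using memLocalIdeal_neg h4)
  have hBB' : B' = B := by
    rw [IsPBlock.eq_blockOf hP hB'.2.1 hχ', IsPBlock.eq_blockOf hP hB hχ'B]
  rw [hBB'] at hB'
  exact hB'

/-- the cyclic group generated by `x` lies in its centralizer -/
theorem zpowers_le_centralizer_zpowers (x : G) :
    Subgroup.zpowers x ≤ Subgroup.centralizer (Subgroup.zpowers x : Set G) := by
  rw [Subgroup.zpowers_le, centralizer_zpowers_eq]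
  exact Subgroup.mem_centralizer_iff.mpr (fun h hh => by rw [Set.mem_singleton_iff.mp hh])

/-- **Bridge**: a block of `centralizer {x}` inducing `B` is, transported, a Brauer pair
`(⟨x⟩, f)` of `B`. -/
theorem isBrauerPairOf_of_isInducedBlock_single (hM : Cfsg.IsPModular p M) {x : G}
    (hx : IsPGroup p (Subgroup.zpowers x))
    {b : Set (Cfsg.IrrCharacter (Subgroup.centralizer ({x} : Set G)))}
    {B : Set (Cfsg.IrrCharacter G)}
    (h : Cfsg.IsInducedBlock M (Subgroup.centralizer ({x} : Set G)) b B) :
    Cfsg.IsBrauerPairOf p M B (Subgroup.zpowers x)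
      (congrSet (centralizer_zpowers_eq x).symm b) :=
  isBrauerPairOf_of_isInducedBlock hM hx
    ((isInducedBlock_congrSet (centralizer_zpowers_eq x).symm b B).mpr h)

/-- **Bridge**: a Brauer pair `(⟨x⟩, f)` of `B` gives, transported, a block of `centralizer {x}`
inducing `B`. -/
theorem isInducedBlock_single_of_isBrauerPairOf (hM : Cfsg.IsPModular p M) {x : G}
    {f : Set (Cfsg.IrrCharacter (Subgroup.centralizer (Subgroup.zpowers x : Set G)))}
    {B : Set (Cfsg.IrrCharacter G)}
    (h : Cfsg.IsBrauerPairOf p M B (Subgroup.zpowers x) f) :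
    Cfsg.IsInducedBlock M (Subgroup.centralizer ({x} : Set G))
      (congrSet (centralizer_zpowers_eq x) f) B :=
  (isInducedBlock_congrSet (centralizer_zpowers_eq x) f B).mpr
    (isInducedBlock_of_isBrauerPairOf hM (zpowers_le_centralizer_zpowers x) h)

end Bridge

end Cfsg.Agent.Lib.Helper77
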