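import Mathlib
import Cfsg.Prelude.Def_Blocks
import Cfsg.Agent.Lib.Helper78.HeightZero
import Cfsg.Agent.Lib.Helper16.BlockBasic

/-!
# Major subsections: non-vanishing of all characters of a block

For a block `B` with defect group `D`, there is a `p`-regular element `y` centralizing `D`
such that no member of `B` vanishes at `x * y`, for every `x` in the centre of `D`.
-/

set_option autoImplicit false
set_option linter.unusedSectionVars false

namespace Cfsg.Agent.Lib.Helper77

open Cfsg Cfsg.Agent.Lib.Helper16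

variable {G : Type*} [Group G] [Fintype G] {M : Ideal Cfsg.AlgInt}

/-- For a defect class `y` of `B`, a Sylow `p`-subgroup `P` of its centralizer and a
`p`-element `x` commuting with `y` and with `P`: the central character of every member of `B`
at `x * y` is a unit, so no member of `B` vanishes at `x * y`. -/
theorem centralChar_mul_defect_class {p : ℕ} [Fact p.Prime] (hM : Cfsg.IsPModular p M)
    (B : Set (Cfsg.IrrCharacter G)) (hB : Cfsg.IsPBlock M B) (y : G)
    (hy : Cfsg.IsDefectClass M B y) (P : Sylow p (Subgroup.centralizer ({y} : Set G)))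
    (x : G) (hxy : Commute x y) (k : ℕ) (hx : orderOf x = p ^ k)
    (hPx : ∀ w ∈ (P : Subgroup (Subgroup.centralizer ({y} : Set G))), (w : G) * x = x * w)
    (χ : Cfsg.IrrCharacter G) (hχ : χ ∈ B) :
    ¬ MemLocalIdeal M (Cfsg.centralChar (χ : G → ℂ) (x * y)) ∧ (χ : G → ℂ) (x * y) ≠ 0 := by
  have hP := isPrime_of_isPModular hM
  have hp := (Fact.out : p.Prime)
  obtain ⟨ψ, hψ, h0⟩ := Cfsg.Agent.Lib.Helper78.exists_height_zero p B (IsPBlock.nonempty hP hB)
  have h1 := Cfsg.Agent.Lib.Helper78.not_memLocalIdeal_irr_mul_defect_class hM B hB y hy ψ hψ h0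
    x hxy k hx
  have hreg := Cfsg.Agent.Lib.Helper78.isDefectClass_regular hM B hB y hy
  obtain ⟨a, b, ha, hb, -, -⟩ := Cfsg.Agent.Lib.Helper78.exists_pow_split hp hxy hx hreg
  have hzy : Subgroup.centralizer ({x * y} : Set G) ≤ Subgroup.centralizer ({y} : Set G) := by
    intro g hg
    rw [Subgroup.mem_centralizer_iff] at hg ⊢
    intro h hh
    rw [Set.mem_singleton_iff] at hh
    rw [hh, ← hb]
    have h2 : Commute (x * y) g := hg (x * y) rfl
    exact (h2.pow_left b).eq
  have hPz : ∀ w ∈ (P : Subgroup (Subgroup.centralizer ({y} : Set G))),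
      (w : G) * (x * y) = (x * y) * w := by
    intro w hw
    have h2 : y * (w : G) = (w : G) * y := (Subgroup.mem_centralizer_iff.mp w.2) y rfl
    rw [← mul_assoc, hPx w hw, mul_assoc, ← h2, mul_assoc]
  have hf1 := Cfsg.Agent.Lib.Helper78.factorization_index_centralizer_eq hp y (x * y) hzy P hPz
  have hf2 := Cfsg.Agent.Lib.Helper78.factorization_eq_of_height_zero hM B hB y hy ψ hψ h0
  have h3 := (Cfsg.Agent.Lib.Helper78.memLocalIdeal_centralChar_iff hM ψ (x * y)
    (hf2.trans hf1)).not.mpr h1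
  have hsb : SameBlock M (χ : G → ℂ) (ψ : G → ℂ) := IsPBlock.sameBlock hP hB hχ hψ
  have h4 : ¬ MemLocalIdeal M (Cfsg.centralChar (χ : G → ℂ) (x * y)) := by
    intro hc
    apply h3
    have h5 := memLocalIdeal_sub hP hc (hsb (x * y))
    have h6 : Cfsg.centralChar (χ : G → ℂ) (x * y) -
        (Cfsg.centralChar (χ : G → ℂ) (x * y) - Cfsg.centralChar (ψ : G → ℂ) (x * y)) =
        Cfsg.centralChar (ψ : G → ℂ) (x * y) := by ring
    rw [h6] at h5
    exact h5
  refine ⟨h4, ?_⟩
  intro h0'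
  apply h4
  unfold Cfsg.centralChar
  rw [h0', mul_zero, zero_div]
  exact memLocalIdeal_zero hP

/-- **Major subsections**: a block `B` with defect group `D` has a `p`-regular element `y`
centralizing `D` such that no member of `B` vanishes at `x * y`, for all `x` in the centre
of `D`. -/
theorem exists_pRegular_major {p : ℕ} [Fact p.Prime] (hM : Cfsg.IsPModular p M)
    (B : Set (Cfsg.IrrCharacter G)) (hB : Cfsg.IsPBlock M B) (D : Subgroup G)
    (hD : Cfsg.IsDefectGroup p M B D) :
    ∃ y : G, ¬ p ∣ orderOf y ∧ (∀ d ∈ D, d * y = y * d) ∧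
      ∀ x ∈ D, (∀ d ∈ D, d * x = x * d) → ∀ χ ∈ B, (χ : G → ℂ) (x * y) ≠ 0 := by
  obtain ⟨y, hy, P, rfl⟩ := hD
  have hcomm : ∀ d ∈ (P : Subgroup (Subgroup.centralizer ({y} : Set G))).map
      (Subgroup.centralizer ({y} : Set G)).subtype, d * y = y * d := by
    rintro _ ⟨w, -, rfl⟩
    exact ((Subgroup.mem_centralizer_iff.mp w.2) y rfl).symm
  refine ⟨y, Cfsg.Agent.Lib.Helper78.isDefectClass_regular hM B hB y hy, hcomm, ?_⟩
  intro x hx hxc χ hχ
  obtain ⟨w, hw, rfl⟩ := hx
  obtain ⟨k, hk⟩ := (IsPGroup.iff_orderOf.mp P.isPGroup') ⟨w, hw⟩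
  have hord : orderOf ((Subgroup.centralizer ({y} : Set G)).subtype w) = p ^ k := by
    rw [← hk]
    rw [← Subgroup.orderOf_coe (⟨w, hw⟩ : (P : Subgroup (Subgroup.centralizer ({y} : Set G))))]
    rw [← Subgroup.orderOf_coe w]
    rfl
  refine (centralChar_mul_defect_class hM B hB y hy P _ ?_ k hord ?_ χ hχ).2
  · exact (hcomm _ ⟨w, hw, rfl⟩)
  · intro v hv
    exact hxc _ ⟨v, hv, rfl⟩

end Cfsg.Agent.Lib.Helper77
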