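import Mathlib
import Cfsg.Prelude.Def_Blocks
import Cfsg.Prelude.Def_BlockRank
import Cfsg.Agent.Lib.Helper77.IrrMap
import Cfsg.Agent.Lib.Helper76.Frame

/-!
# The norm of the part of a character in a subsection

For a `p`-element `u` with centralizer `C`, a set `e` of irreducible characters of `C` and a
class function `χ` of `G`, `secNorm p C e u χ` is the square norm of the truncation to the
`p`-regular elements of the `e`-part of `c ↦ χ (u c)`.  We prove its invariance under
conjugation and the Cauchy–Schwarz inequality for the contribution numbers.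
-/

set_option autoImplicit false
set_option linter.unusedSectionVars false
set_option linter.style.haveILetI false

namespace Cfsg.Agent.Lib.Helper77

open Cfsg Cfsg.Agent.Lib.Helper16 Cfsg.Agent.Lib.Helper81 Cfsg.Agent.Lib.Helper76
open scoped ComplexConjugate

section Transport

variable {H H' : Type*} [Group H] [Group H'] [Finite H] [Finite H']

/-- the block part of a function, transported along an isomorphism -/
theorem blockPart_mapSet (α : H ≃* H') (A : Set (Cfsg.IrrCharacter H)) (ϑ : H → ℂ) (s : H) :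
    Cfsg.blockPart (mapSet α A) (fun h' => ϑ (α.symm h')) (α s) = Cfsg.blockPart A ϑ s := by
  classical
  letI : Fintype H := Fintype.ofFinite H
  letI : Fintype H' := Fintype.ofFinite H'
  show ∑ᶠ χ' ∈ mapSet α A, Cfsg.classInner (fun h' => ϑ (α.symm h')) (χ' : H' → ℂ) *
      (χ' : H' → ℂ) (α s) = ∑ᶠ χ ∈ A, Cfsg.classInner ϑ (χ : H → ℂ) * (χ : H → ℂ) s
  unfold mapSet
  rw [finsum_mem_image (mapIrr_injective α).injOn]
  apply finsum_mem_congr rfl
  intro χ _
  rw [mapIrr_apply_apply]
  congr 1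
  unfold Cfsg.classInner
  rw [Nat.card_congr α.toEquiv]
  congr 1
  exact (Fintype.sum_equiv α.toEquiv _ _ (fun h => by
    show ϑ h * conj ((χ : H → ℂ) h) =
      ϑ (α.symm (α h)) * conj ((mapIrr α χ : H' → ℂ) (α h))
    rw [mapIrr_apply_apply, α.symm_apply_apply])).symm

end Transport

section SecNorm

variable {G : Type*} [Group G] [Fintype G]

/-- the truncated block part of a section, transported along a conjugation -/
theorem vsec_map (p : ℕ) {C C' : Subgroup G} (α : C ≃* C') (g : G)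
    (hα : ∀ c : C, ((α c : C') : G) = g * (c : G) * g⁻¹) (e : Set (Cfsg.IrrCharacter C))
    (u : G) (χ : G → ℂ) (hχ : Cfsg.IsClassFunction G χ) (s : C) :
    vsec p C' (mapSet α e) (g * u * g⁻¹) χ (α s) = vsec p C e u χ s := by
  classical
  letI : Fintype C := Fintype.ofFinite C
  letI : Fintype C' := Fintype.ofFinite C'
  unfold vsec
  rw [pRegularPart_apply', pRegularPart_apply', MulEquiv.orderOf_eq α s]
  have e1 : (fun c' : C' => χ (g * u * g⁻¹ * (c' : G))) =
      fun c' : C' => χ (u * ((α.symm c' : C) : G)) := by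
    funext c'
    have h1 : (c' : G) = g * ((α.symm c' : C) : G) * g⁻¹ := by
      rw [← hα, α.apply_symm_apply]
    have h2 : g * u * g⁻¹ * (c' : G) = g * (u * ((α.symm c' : C) : G)) * g⁻¹ := by
      rw [h1]; group
    show χ (g * u * g⁻¹ * (c' : G)) = χ (u * ((α.symm c' : C) : G))
    rw [h2]
    exact hχ _ _
  rw [e1, blockPart_mapSet α e (fun c : C => χ (u * (c : G))) s]

/-- the square norm of the part of `χ` in the subsection `(u, e)` -/
noncomputable def secNorm (p : ℕ) (C : Subgroup G) (e : Set (Cfsg.IrrCharacter C)) (u : G)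
    (χ : G → ℂ) : ℝ :=
  (Nat.card C : ℝ)⁻¹ * ∑ᶠ s : C, Complex.normSq (vsec p C e u χ s)

theorem secNorm_nonneg (p : ℕ) (C : Subgroup G) (e : Set (Cfsg.IrrCharacter C)) (u : G)
    (χ : G → ℂ) : 0 ≤ secNorm p C e u χ := by
  unfold secNorm
  exact mul_nonneg (inv_nonneg.mpr (Nat.cast_nonneg _))
    (finsum_nonneg (fun s => Complex.normSq_nonneg _))

/-- invariance of the norm under conjugation -/
theorem secNorm_map (p : ℕ) {C C' : Subgroup G} (α : C ≃* C') (g : G)
    (hα : ∀ c : C, ((α c : C') : G) = g * (c : G) * g⁻¹) (e : Set (Cfsg.IrrCharacter C))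
    (u : G) (χ : G → ℂ) (hχ : Cfsg.IsClassFunction G χ) :
    secNorm p C' (mapSet α e) (g * u * g⁻¹) χ = secNorm p C e u χ := by
  unfold secNorm
  rw [Nat.card_congr α.toEquiv.symm]
  congr 1
  rw [← finsum_comp_equiv α.toEquiv]
  apply finsum_congr
  intro s
  show Complex.normSq (vsec p C' (mapSet α e) (g * u * g⁻¹) χ (α s)) = _
  rw [vsec_map p α g hα e u χ hχ s]

/-- the norm as the inner product of the truncated block part with itself -/
theorem classInner_vsec_self (p : ℕ) (C : Subgroup G) [Fintype C]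
    (e : Set (Cfsg.IrrCharacter C)) (u : G) (χ : G → ℂ) :
    Cfsg.classInner (vsec p C e u χ) (vsec p C e u χ) = ((secNorm p C e u χ : ℝ) : ℂ) := by
  unfold Cfsg.classInner secNorm
  rw [finsum_eq_sum_of_fintype]
  push_cast
  congr 1
  refine Finset.sum_congr rfl (fun s _ => ?_)
  rw [Complex.mul_conj]

/-- **Cauchy–Schwarz** for inner products of class functions -/
theorem normSq_classInner_le {K : Type*} [Group K] [Fintype K] (a b : K → ℂ) :
    Complex.normSq (Cfsg.classInner a b) ≤
      ((Nat.card K : ℝ)⁻¹ * ∑ s : K, Complex.normSq (a s)) *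
      ((Nat.card K : ℝ)⁻¹ * ∑ s : K, Complex.normSq (b s)) := by
  unfold Cfsg.classInner
  rw [Complex.normSq_mul, Complex.normSq_inv, Complex.normSq_natCast]
  have hK : (0 : ℝ) < (Nat.card K : ℝ) := by exact_mod_cast Nat.card_pos
  have h1 : Complex.normSq (∑ s : K, a s * conj (b s)) ≤
      (∑ s : K, Complex.normSq (a s)) * (∑ s : K, Complex.normSq (b s)) := by
    have h2 : ‖∑ s : K, a s * conj (b s)‖ ≤ ∑ s : K, ‖a s‖ * ‖b s‖ := by
      refine (norm_sum_le _ _).trans (le_of_eq ?_)
      refine Finset.sum_congr rfl (fun s _ => ?_)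
      rw [norm_mul, RCLike.norm_conj]
    have h3 : (∑ s : K, ‖a s‖ * ‖b s‖) ^ 2 ≤
        (∑ s : K, ‖a s‖ ^ 2) * (∑ s : K, ‖b s‖ ^ 2) :=
      Finset.sum_mul_sq_le_sq_mul_sq _ _ _
    have h4 : ∀ z : ℂ, Complex.normSq z = ‖z‖ ^ 2 := fun z => Complex.normSq_eq_norm_sq z
    rw [h4]
    simp only [h4]
    calc ‖∑ s : K, a s * conj (b s)‖ ^ 2 ≤ (∑ s : K, ‖a s‖ * ‖b s‖) ^ 2 :=
          pow_le_pow_left₀ (norm_nonneg _) h2 2
      _ ≤ _ := h3
  calc ((Nat.card K : ℝ) * (Nat.card K : ℝ))⁻¹ * Complex.normSq (∑ s : K, a s * conj (b s))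
      ≤ ((Nat.card K : ℝ) * (Nat.card K : ℝ))⁻¹ *
        ((∑ s : K, Complex.normSq (a s)) * (∑ s : K, Complex.normSq (b s))) :=
        mul_le_mul_of_nonneg_left h1 (inv_nonneg.mpr (mul_nonneg hK.le hK.le))
    _ = _ := by rw [mul_inv]; ring

/-- **Cauchy–Schwarz for the contribution numbers.** -/
theorem normSq_contrib_le {p : ℕ} [Fact p.Prime] {M : Ideal Cfsg.AlgInt}
    (hM : Cfsg.IsPModular p M) (u : G) (C : Subgroup G)
    (hC : ∀ g : G, g ∈ C ↔ g * u = u * g) (e : Set (Cfsg.IrrCharacter C))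
    (he : Cfsg.IsPBlock M e) (ψ χ : Cfsg.IrrCharacter G) :
    Complex.normSq (contrib p C e u (ψ : G → ℂ) (χ : G → ℂ)) ≤
      secNorm p C e u (ψ : G → ℂ) * secNorm p C e u (χ : G → ℂ) := by
  classical
  letI : Fintype C := Fintype.ofFinite C
  rw [contrib_eq_inner hM u C hC e he ψ χ]
  refine (normSq_classInner_le _ _).trans (le_of_eq ?_)
  unfold secNorm
  rw [finsum_eq_sum_of_fintype, finsum_eq_sum_of_fintype]

end SecNorm

end Cfsg.Agent.Lib.Helper77
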