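import Mathlib
import Cfsg.Prelude.Def_Blocks
import Cfsg.Prelude.Def_BlockRank
import Cfsg.Agent.Lib.Helper77.SecNorm
import Cfsg.Agent.Lib.Helper76.SectionSum
import Cfsg.Agent.Lib.Helper76.BlockSections

/-!
# The norms of the parts of a character in the subsections add up to one

For an irreducible character `χ` of `G` and a set `X` of representatives of the classes of
`p`-elements, the numbers `secNorm p C_G(x) b x χ`, over `x ∈ X` and the `p`-blocks `b` of
`C_G(x)`, add up to `1`.
-/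

set_option autoImplicit false
set_option linter.unusedSectionVars false
set_option linter.style.haveILetI false

namespace Cfsg.Agent.Lib.Helper77

open Cfsg Cfsg.Agent.Lib.Helper16 Cfsg.Agent.Lib.Helper81 Cfsg.Agent.Lib.Helper76
open scoped ComplexConjugate

section SecSum

variable {G : Type*} [Group G] [Fintype G]

/-- the set of blocks of a finite group as a finite set -/
theorem setOf_isPBlock_eq {K : Type*} [Group K] [Fintype K] [Fintype (Cfsg.IrrCharacter K)]
    [DecidableEq (Set (Cfsg.IrrCharacter K))] (M : Ideal Cfsg.AlgInt) :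
    {b : Set (Cfsg.IrrCharacter K) | Cfsg.IsPBlock M b} =
      ↑(Finset.univ.image (fun ψ : Cfsg.IrrCharacter K => Cfsg.blockOf M (ψ : K → ℂ))) := by
  ext b
  simp only [Set.mem_ofPred_eq, Finset.coe_image, Finset.coe_univ, Set.image_univ, Set.mem_range]
  constructor
  · rintro ⟨ψ, rfl⟩
    exact ⟨ψ, rfl⟩
  · rintro ⟨ψ, rfl⟩
    exact ⟨ψ, rfl⟩

open scoped Classical in
/-- **One section.**  The norm of `χ` on the `p`-section of `x` is the sum of the norms of its
parts in the subsections `(x, b)`. -/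
theorem section_norm_eq {p : ℕ} [Fact p.Prime] {M : Ideal Cfsg.AlgInt}
    (hM : Cfsg.IsPModular p M) (x : G) (χ : Cfsg.IrrCharacter G) :
    ∑ᶠ s : Subgroup.centralizer ({x} : Set G),
        (if p ∣ orderOf s then (0 : ℂ) else
          (χ : G → ℂ) (x * (s : G)) * conj ((χ : G → ℂ) (x * (s : G)))) =
      (Nat.card (Subgroup.centralizer ({x} : Set G)) : ℂ) *
        ((∑ᶠ b ∈ {b : Set (Cfsg.IrrCharacter (Subgroup.centralizer ({x} : Set G))) |
          Cfsg.IsPBlock M b}, secNorm p (Subgroup.centralizer ({x} : Set G)) b x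
            (χ : G → ℂ) : ℝ) : ℂ) := by
  have hP := isPrime_of_isPModular hM
  letI : Fintype (Subgroup.centralizer ({x} : Set G)) := Fintype.ofFinite _
  have := irr_finite (Subgroup.centralizer ({x} : Set G))
  letI : Fintype (Cfsg.IrrCharacter (Subgroup.centralizer ({x} : Set G))) := Fintype.ofFinite _
  have hcomm : ∀ c : Subgroup.centralizer ({x} : Set G), x * (c : G) = (c : G) * x := by
    intro c
    have h := c.2
    rw [Subgroup.mem_centralizer_iff] at h
    exact h x rfl
  have hϑ : Cfsg.IsClassFunction (Subgroup.centralizer ({x} : Set G))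
      (fun c : Subgroup.centralizer ({x} : Set G) => (χ : G → ℂ) (x * (c : G))) :=
    isClassFunction_sec _ x hcomm χ
  have hϑ' : Cfsg.IsClassFunction (Subgroup.centralizer ({x} : Set G))
      (fun c : Subgroup.centralizer ({x} : Set G) =>
        conj ((χ : G → ℂ) (x * ((c⁻¹ : Subgroup.centralizer ({x} : Set G)) : G)))) := by
    intro c t
    show conj ((χ : G → ℂ) (x * (((t * c * t⁻¹)⁻¹ : Subgroup.centralizer ({x} : Set G)) : G))) =
      conj ((χ : G → ℂ) (x * ((c⁻¹ : Subgroup.centralizer ({x} : Set G)) : G)))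
    have e : (t * c * t⁻¹)⁻¹ = t * c⁻¹ * t⁻¹ := by group
    rw [e]
    exact congrArg conj (hϑ c⁻¹ t)
  rw [finsum_eq_sum_of_fintype]
  have e1 : ∑ s : Subgroup.centralizer ({x} : Set G),
      (if p ∣ orderOf s then (0 : ℂ) else
        (χ : G → ℂ) (x * (s : G)) * conj ((χ : G → ℂ) (x * (s : G)))) =
      ∑ s : Subgroup.centralizer ({x} : Set G), (if p ∣ orderOf s then 0 else
        (fun c : Subgroup.centralizer ({x} : Set G) => (χ : G → ℂ) (x * (c : G))) s *
        (fun c : Subgroup.centralizer ({x} : Set G) =>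
          conj ((χ : G → ℂ) (x * ((c⁻¹ : Subgroup.centralizer ({x} : Set G)) : G)))) s⁻¹) := by
    refine Finset.sum_congr rfl fun s _ => ?_
    simp only [inv_inv]
  rw [e1, pairing_block_decomp hM _ _ hϑ hϑ', setOf_isPBlock_eq M,
    finsum_mem_coe_finset]
  push_cast
  rw [Finset.mul_sum]
  refine Finset.sum_congr rfl fun b _ => ?_
  unfold secNorm
  rw [finsum_eq_sum_of_fintype]
  push_cast
  have hC0 : (Nat.card (Subgroup.centralizer ({x} : Set G)) : ℂ) ≠ 0 := by
    exact_mod_cast Nat.card_pos.ne'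
  rw [← mul_assoc, mul_inv_cancel₀ hC0, one_mul]
  refine Finset.sum_congr rfl fun s _ => ?_
  unfold vsec
  rw [pRegularPart_apply']
  by_cases hs : p ∣ orderOf s
  · simp [hs]
  · rw [if_neg hs, if_neg hs, ← Complex.mul_conj, blockPart_conj]
    rfl

/-- **All sections.**  The norms of the parts of an irreducible character in the subsections
`(x, b)`, `x` running over representatives of the classes of `p`-elements and `b` over the
blocks of `C_G(x)`, add up to `1`. -/
theorem sum_secNorm_eq_one {p : ℕ} [Fact p.Prime] {M : Ideal Cfsg.AlgInt}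
    (hM : Cfsg.IsPModular p M) (X : Finset G)
    (hX : ∀ x ∈ X, ∃ k : ℕ, orderOf x = p ^ k)
    (hXrep : ∀ g : G, (∃ k : ℕ, orderOf g = p ^ k) → ∃! x, x ∈ X ∧ IsConj g x)
    (χ : Cfsg.IrrCharacter G) :
    ∑ x ∈ X, ∑ᶠ b ∈ {b : Set (Cfsg.IrrCharacter (Subgroup.centralizer ({x} : Set G))) |
      Cfsg.IsPBlock M b}, secNorm p (Subgroup.centralizer ({x} : Set G)) b x (χ : G → ℂ) = 1 := by
  classical
  have hp : p.Prime := Fact.out
  have hF : Cfsg.IsClassFunction G (fun g => (χ : G → ℂ) g * conj ((χ : G → ℂ) g)) := by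
    intro g h
    show (χ : G → ℂ) (h * g * h⁻¹) * conj ((χ : G → ℂ) (h * g * h⁻¹)) = _
    rw [irr_conj_class χ g h]
  have h1 := section_formula hp X hX hXrep _ hF
  have h2 : ∑ g : G, (χ : G → ℂ) g * conj ((χ : G → ℂ) g) = (Nat.card G : ℂ) := by
    have h3 := Cfsg.Agent.Lib.Helper26.classInner_irr_self χ.2
    unfold Cfsg.classInner at h3
    have hG0 : (Nat.card G : ℂ) ≠ 0 := by exact_mod_cast Nat.card_pos.ne'
    rw [inv_mul_eq_one₀ hG0] at h3
    exact h3.symm
  rw [h2] at h1
  have h4 : ∀ x ∈ X, (Nat.card G : ℂ) /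
      (Nat.card (Subgroup.centralizer ({x} : Set G)) : ℂ) *
        ∑ᶠ s : Subgroup.centralizer ({x} : Set G),
          (if p ∣ orderOf s then 0 else
            (fun g => (χ : G → ℂ) g * conj ((χ : G → ℂ) g)) (x * (s : G))) =
      (Nat.card G : ℂ) * ((∑ᶠ b ∈ {b : Set (Cfsg.IrrCharacter
        (Subgroup.centralizer ({x} : Set G))) | Cfsg.IsPBlock M b},
          secNorm p (Subgroup.centralizer ({x} : Set G)) b x (χ : G → ℂ) : ℝ) : ℂ) := by
    intro x _
    have hC0 : (Nat.card (Subgroup.centralizer ({x} : Set G)) : ℂ) ≠ 0 := by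
      exact_mod_cast Nat.card_pos.ne'
    rw [section_norm_eq hM x χ]
    field_simp
  rw [Finset.sum_congr rfl h4, ← Finset.mul_sum] at h1
  have hG0 : (Nat.card G : ℂ) ≠ 0 := by exact_mod_cast Nat.card_pos.ne'
  have h5 : (1 : ℂ) = ∑ x ∈ X, ((∑ᶠ b ∈ {b : Set (Cfsg.IrrCharacter
        (Subgroup.centralizer ({x} : Set G))) | Cfsg.IsPBlock M b},
          secNorm p (Subgroup.centralizer ({x} : Set G)) b x (χ : G → ℂ) : ℝ) : ℂ) := by
    have h6 : (Nat.card G : ℂ) * 1 = (Nat.card G : ℂ) * ∑ x ∈ X, ((∑ᶠ b ∈ {b : Set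
        (Cfsg.IrrCharacter (Subgroup.centralizer ({x} : Set G))) | Cfsg.IsPBlock M b},
          secNorm p (Subgroup.centralizer ({x} : Set G)) b x (χ : G → ℂ) : ℝ) : ℂ) := by
      rw [mul_one]; exact h1
    exact mul_left_cancel₀ hG0 h6
  have h7 : ((1 : ℝ) : ℂ) = ((∑ x ∈ X, ∑ᶠ b ∈ {b : Set (Cfsg.IrrCharacter
        (Subgroup.centralizer ({x} : Set G))) | Cfsg.IsPBlock M b},
          secNorm p (Subgroup.centralizer ({x} : Set G)) b x (χ : G → ℂ) : ℝ) : ℂ) := by
    push_cast
    exact h5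
  exact (Complex.ofReal_injective h7).symm

end SecSum

end Cfsg.Agent.Lib.Helper77
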