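import Mathlib
import Cfsg.Prelude.Def_Blocks
import Cfsg.Prelude.Def_BlockRank
import Cfsg.Prelude.Def_BlockLocal
import Cfsg.Prelude.Def_BrauerPairs
import Cfsg.Agent.Lib.Helper77.KleinPairs
import Cfsg.Agent.Lib.Helper77.LocalPairs
import Cfsg.Agent.Lib.Helper76.DefectOne
import Cfsg.Agent.S4511

/-!
# Counting subsections of a block with abelian defect group and trivial inertial quotient

For a maximal Brauer pair `(P, c)` of `B` with `P` abelian whose stabilizer in `N_G(P)` is
`C_G(P)`, the elements of `P` give pairwise non-conjugate subsections, hence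
`l(B) + |P| - 1 ≤ k(B)`.
-/

set_option autoImplicit false
set_option linter.unusedSectionVars false

namespace Cfsg.Agent.Lib.Helper77

open Cfsg Cfsg.Agent.Lib.Helper16 Cfsg.Agent.Lib.Helper81

section Combinatorics

/-- a lower bound for a double sum over a dependent family, from an injective family of index
pairs -/
theorem card_le_sum_finsum {G : Type*} (X : Finset G) (F : G → Type*) [∀ x, Finite (F x)]
    (Ind : ∀ x, Set (F x)) (r : ∀ x, F x → ℕ) (hr : ∀ x b, b ∈ Ind x → 1 ≤ r x b)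
    {ι : Type*} [Fintype ι] (φ : ι → Σ x, F x) (hφ : Function.Injective φ)
    (hmem : ∀ i, (φ i).1 ∈ X ∧ (φ i).2 ∈ Ind (φ i).1) :
    Fintype.card ι ≤ ∑ x ∈ X, ∑ᶠ b ∈ Ind x, r x b := by
  classical
  have e1 : ∀ x, ∑ᶠ b ∈ Ind x, r x b = ∑ b ∈ (Set.toFinite (Ind x)).toFinset, r x b :=
    fun x => finsum_mem_eq_finite_toFinset_sum _ (Set.toFinite (Ind x))
  rw [Finset.sum_congr rfl (fun x _ => e1 x)]
  rw [← Finset.sum_sigma X (fun x => (Set.toFinite (Ind x)).toFinset) (fun q => r q.1 q.2)]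
  have hsub : Finset.univ.image φ ⊆ X.sigma (fun x => (Set.toFinite (Ind x)).toFinset) := by
    intro q hq
    rw [Finset.mem_image] at hq
    obtain ⟨i, -, rfl⟩ := hq
    rw [Finset.mem_sigma]
    exact ⟨(hmem i).1, (Set.Finite.mem_toFinset _).mpr (hmem i).2⟩
  calc Fintype.card ι = (Finset.univ.image φ).card := by
        rw [Finset.card_image_of_injective _ hφ, Finset.card_univ]
    _ ≤ (X.sigma (fun x => (Set.toFinite (Ind x)).toFinset)).card := Finset.card_le_card hsub
    _ = ∑ q ∈ X.sigma (fun x => (Set.toFinite (Ind x)).toFinset), 1 := by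
        rw [Finset.sum_const, smul_eq_mul, mul_one]
    _ ≤ ∑ q ∈ X.sigma (fun x => (Set.toFinite (Ind x)).toFinset), r q.1 q.2 := by
        apply Finset.sum_le_sum
        intro q hq
        rw [Finset.mem_sigma] at hq
        exact hr q.1 q.2 ((Set.Finite.mem_toFinset _).mp hq.2)

end Combinatorics

section Pairs

variable {G : Type*} [Group G] [Fintype G] {M : Ideal Cfsg.AlgInt} {p : ℕ} [Fact p.Prime]

/-- the block of `centralizer {x}` obtained from a block `f` of `C_G(u)` by conjugation with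
`g` (intended for `g * u * g⁻¹ = x`) -/
def pairBlock (x g u : G)
    (f : Set (Cfsg.IrrCharacter (Subgroup.centralizer (Subgroup.zpowers u : Set G)))) :
    Set (Cfsg.IrrCharacter (Subgroup.centralizer ({x} : Set G))) :=
  congrSet (centralizer_zpowers_eq x) (conjBlockTo g (Subgroup.zpowers u) (Subgroup.zpowers x) f)

theorem zpowers_eq_map_conj {g u x : G} (h : g * u * g⁻¹ = x) :
    Subgroup.zpowers x = (Subgroup.zpowers u).map (MulAut.conj g).toMonoidHom := by
  rw [MonoidHom.map_zpowers]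
  congr 1
  exact h.symm

/-- conjugation by an element of `C_G(Q)` fixes the blocks of `C_G(Q)` -/
theorem conjBlockTo_of_mem_centralizer (Q : Subgroup G) {h : G}
    (hh : h ∈ Subgroup.centralizer (Q : Set G))
    (f : Set (Cfsg.IrrCharacter (Subgroup.centralizer (Q : Set G)))) :
    conjBlockTo h Q Q f = f := by
  rw [conjBlockTo_eq_conjSet Q h (Subgroup.centralizer_le_normalizer (Q : Set G) hh)]
  exact conjSet_eq_of_stabilizesBlock _ f (stabilizesBlock_of_mem _ f hh)

/-- the pair attached to `u ∈ P` induces `B` -/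
theorem isInducedBlock_pairBlock (hM : Cfsg.IsPModular p M) {B : Set (Cfsg.IrrCharacter G)}
    {P : Subgroup G} {c : Set (Cfsg.IrrCharacter (Subgroup.centralizer (P : Set G)))}
    (hPc : Cfsg.IsBrauerPairOf p M B P c) {u x g : G}
    {f : Set (Cfsg.IrrCharacter (Subgroup.centralizer (Subgroup.zpowers u : Set G)))}
    (hle : Cfsg.SubpairLE p M (Subgroup.zpowers u) f P c) (hg : g * u * g⁻¹ = x) :
    Cfsg.IsInducedBlock M (Subgroup.centralizer ({x} : Set G)) (pairBlock x g u f) B := by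
  have hMp := isPrime_of_isPModular hM
  have hBf : Cfsg.IsBrauerPairOf p M B (Subgroup.zpowers u) f :=
    isBrauerPairOf_of_subpairLE_down hM (a := ⟨Subgroup.zpowers u, f⟩) (b := ⟨P, c⟩) hle hPc
  have hBF := isBrauerPairOf_conjBlockTo hMp g (zpowers_eq_map_conj hg) hBf
  exact isInducedBlock_single_of_isBrauerPairOf hM hBF

/-- **Distinct elements of an abelian defect group with trivial inertial quotient give distinct
subsections.** -/
theorem eq_of_pairBlock_eq (hM : Cfsg.IsPModular p M) {B : Set (Cfsg.IrrCharacter G)}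
    {P : Subgroup G} {c : Set (Cfsg.IrrCharacter (Subgroup.centralizer (P : Set G)))}
    (hmax : Cfsg.IsMaximalBrauerPair p M B P c) (hab : ∀ x ∈ P, ∀ y ∈ P, x * y = y * x)
    (hnil : ∀ y : G, y ∈ Subgroup.normalizer (P : Set G) →
      Cfsg.StabilizesBlock (Subgroup.centralizer (P : Set G)) c y →
      y ∈ Subgroup.centralizer (P : Set G))
    {u u' : G} (hu : u ∈ P) (hu' : u' ∈ P)
    {f : Set (Cfsg.IrrCharacter (Subgroup.centralizer (Subgroup.zpowers u : Set G)))}
    {f' : Set (Cfsg.IrrCharacter (Subgroup.centralizer (Subgroup.zpowers u' : Set G)))}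
    (hf' : Cfsg.IsPBlock M f')
    (hle : Cfsg.SubpairLE p M (Subgroup.zpowers u) f P c)
    (hle' : Cfsg.SubpairLE p M (Subgroup.zpowers u') f' P c)
    {x g g' : G} (hg : g * u * g⁻¹ = x) (hg' : g' * u' * g'⁻¹ = x)
    (heq : pairBlock x g u f = pairBlock x g' u' f') : u = u' := by
  have hMp := isPrime_of_isPModular hM
  have h1 : conjBlockTo g (Subgroup.zpowers u) (Subgroup.zpowers x) f =
      conjBlockTo g' (Subgroup.zpowers u') (Subgroup.zpowers x) f' :=
    congrSet_injective _ heq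
  have hzu := zpowers_eq_map_conj hg
  have hzu' := zpowers_eq_map_conj hg'
  have hg'' : g'⁻¹ * x * g'⁻¹⁻¹ = u' := by rw [← hg']; group
  have hback := zpowers_eq_map_conj hg''
  have h2 := congrArg (conjBlockTo g'⁻¹ (Subgroup.zpowers x) (Subgroup.zpowers u')) h1
  rw [conjBlockTo_conjBlockTo g g'⁻¹ _ _ _ hzu hback,
    conjBlockTo_conjBlockTo g' g'⁻¹ _ _ _ hzu' hback] at h2
  have h1c : g'⁻¹ * g' ∈ Subgroup.centralizer (Subgroup.zpowers u' : Set G) := by
    rw [inv_mul_cancel]; exact Subgroup.one_mem _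
  rw [conjBlockTo_of_mem_centralizer _ h1c] at h2
  have hh : (g'⁻¹ * g) * u * (g'⁻¹ * g)⁻¹ = u' := by
    rw [← hg'']
    rw [← hg]
    group
  have hzh := zpowers_eq_map_conj hh
  have hle₂ : Cfsg.SubpairLE p M (Subgroup.zpowers u') f'
      (P.map (MulAut.conj (g'⁻¹ * g)).toMonoidHom) (Cfsg.conjBlock P (g'⁻¹ * g) c) := by
    have h3 := subpairLE_conjBlock hMp (g'⁻¹ * g) hle
    unfold Cfsg.SubpairLE at h3 ⊢
    rwa [sigma_conjBlock_eq (g'⁻¹ * g) _ _ hzh f, h2] at h3
  have hQP : Subgroup.zpowers u' ≤ P := by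
    rw [Subgroup.zpowers_le]; exact hu'
  obtain ⟨c₀, hc₀, hn, hs⟩ := exists_mul_mem_stabilizer_of_subpairLE_conj hM hmax hab hQP hf'
    hle' (g'⁻¹ * g) hle₂
  have hcent := hnil _ hn hs
  have e1 : u * (c₀ * (g'⁻¹ * g)) = c₀ * (g'⁻¹ * g) * u :=
    Subgroup.mem_centralizer_iff.mp hcent u hu
  have e2 : u' * c₀ = c₀ * u' :=
    Subgroup.mem_centralizer_iff.mp hc₀ u' (Subgroup.mem_zpowers u')
  have e3 : (g'⁻¹ * g) * u = u' * (g'⁻¹ * g) := by
    rw [← hh]; group
  have e4 : u * (c₀ * (g'⁻¹ * g)) = u' * (c₀ * (g'⁻¹ * g)) := by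
    rw [e1, mul_assoc c₀, e3, ← mul_assoc, ← e2, mul_assoc]
  exact mul_right_cancel e4

theorem sigma_pairBlock_inj (x x' g g' u u' : G)
    (f : Set (Cfsg.IrrCharacter (Subgroup.centralizer (Subgroup.zpowers u : Set G))))
    (f' : Set (Cfsg.IrrCharacter (Subgroup.centralizer (Subgroup.zpowers u' : Set G))))
    (h : (⟨x, pairBlock x g u f⟩ :
        Σ x : G, Set (Cfsg.IrrCharacter (Subgroup.centralizer ({x} : Set G)))) =
      ⟨x', pairBlock x' g' u' f'⟩) :
    x = x' ∧ pairBlock x g u f = pairBlock x g' u' f' := by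
  have hx : x = x' := congrArg Sigma.fst h
  subst hx
  exact ⟨rfl, eq_of_heq (Sigma.mk.inj h).2⟩

/-- **Lower bound for the number of characters.**  Let `(P, c)` be a maximal Brauer pair of
the block `B` with `P` abelian, and suppose every element of `N_G(P)` stabilizing `c`
centralizes `P`.  Then `l(B) + |P| - 1 ≤ k(B)`. -/
theorem blockRank_add_card_le (hM : Cfsg.IsPModular p M) {B : Set (Cfsg.IrrCharacter G)}
    {P : Subgroup G} {c : Set (Cfsg.IrrCharacter (Subgroup.centralizer (P : Set G)))}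
    (hmax : Cfsg.IsMaximalBrauerPair p M B P c) (hab : ∀ x ∈ P, ∀ y ∈ P, x * y = y * x)
    (hnil : ∀ y : G, y ∈ Subgroup.normalizer (P : Set G) →
      Cfsg.StabilizesBlock (Subgroup.centralizer (P : Set G)) c y →
      y ∈ Subgroup.centralizer (P : Set G)) :
    Cfsg.blockRank p B + (Nat.card P - 1) ≤ Nat.card B := by
  classical
  have hMp := isPrime_of_isPModular hM
  have hp : p.Prime := Fact.out
  have hB : Cfsg.IsPBlock M B := hmax.1.2.1
  have hPe : Cfsg.IsBrauerPair p M P c := hmax.1.1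
  have hPp : IsPGroup p P := hPe.1
  obtain ⟨X, h1X, hXp, hXrep⟩ :=
    Cfsg.Agent.Lib.Helper76.exists_section_reps p (1 : G) ⟨0, by simp⟩
  have hcount := Cfsg.Agent.S4511.result p M hM B hB X hXp hXrep
  rw [← Finset.add_sum_erase X _ h1X, Cfsg.Agent.Lib.Helper76.induced_count_at_one hM B hB]
    at hcount
  rw [hcount]
  apply Nat.add_le_add_left
  -- the data attached to the nonidentity elements of `P`
  have hdata : ∀ u : {u : P // u ≠ 1}, ∃ (x g : G)
      (f : Set (Cfsg.IrrCharacter (Subgroup.centralizer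
        (Subgroup.zpowers ((u : P) : G) : Set G)))),
      x ∈ X ∧ g * ((u : P) : G) * g⁻¹ = x ∧ Cfsg.IsPBlock M f ∧
        Cfsg.SubpairLE p M (Subgroup.zpowers ((u : P) : G)) f P c := by
    intro u
    obtain ⟨k, hk⟩ := (IsPGroup.iff_orderOf.mp hPp) (u : P)
    have hk' : orderOf ((u : P) : G) = p ^ k := by rw [Subgroup.orderOf_coe]; exact hk
    obtain ⟨x, ⟨hxX, hconj⟩, -⟩ := hXrep ((u : P) : G) ⟨k, hk'⟩
    obtain ⟨g, hg⟩ := isConj_iff.mp hconj
    have hQP : Subgroup.zpowers ((u : P) : G) ≤ P := by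
      rw [Subgroup.zpowers_le]; exact (u : P).2
    obtain ⟨f, hf, hle⟩ := exists_subpairLE hM P c hPe _ (Subgroup.zpowers ((u : P) : G)) hQP
      le_rfl
    exact ⟨x, g, f, hxX, hg, hf, hle⟩
  choose xf gf ff h1 h2 h3 h4 using hdata
  have hcard : Fintype.card {u : P // u ≠ 1} = Nat.card P - 1 := by
    rw [Fintype.card_subtype_compl, Fintype.card_subtype_eq, Nat.card_eq_fintype_card]
  rw [← hcard]
  apply card_le_sum_finsum (X.erase 1)
    (fun x => Set (Cfsg.IrrCharacter (Subgroup.centralizer ({x} : Set G))))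
    (fun x => {b | Cfsg.IsInducedBlock M (Subgroup.centralizer ({x} : Set G)) b B})
    (fun x b => Cfsg.blockRank p b)
    (fun x b hb => Cfsg.Agent.Lib.Helper76.blockRank_pos hp hMp b hb.1)
    (fun u => ⟨xf u, pairBlock (xf u) (gf u) ((u : P) : G) (ff u)⟩)
  · intro u u' huu'
    obtain ⟨hx, hpb⟩ := sigma_pairBlock_inj _ _ _ _ _ _ _ _ huu'
    have hg' : gf u' * ((u' : P) : G) * (gf u')⁻¹ = xf u := by rw [h2 u', hx]
    have := eq_of_pairBlock_eq hM hmax hab hnil (u : P).2 (u' : P).2 (h3 u') (h4 u) (h4 u')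
      (h2 u) hg' hpb
    exact Subtype.ext (Subtype.ext this)
  · intro u
    refine ⟨?_, isInducedBlock_pairBlock hM hmax.1 (h4 u) (h2 u)⟩
    rw [Finset.mem_erase]
    refine ⟨?_, h1 u⟩
    intro hx1
    have hx1' : xf u = 1 := hx1
    have h5 := h2 u
    rw [hx1'] at h5
    have h6 : ((u : P) : G) = 1 := by
      have : ((u : P) : G) = (gf u)⁻¹ * (gf u * ((u : P) : G) * (gf u)⁻¹) * gf u := by group
      rw [this, h5]; group
    exact u.2 (Subtype.ext h6)

end Pairs

end Cfsg.Agent.Lib.Helper77
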