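import Mathlib
import Cfsg.Prelude.Def_Blocks
import Cfsg.Prelude.Def_BlockRank
import Cfsg.Prelude.Def_BlockLocal
import Cfsg.Prelude.Def_BrauerPairs
import Cfsg.Agent.Lib.Helper77.SecSum
import Cfsg.Agent.Lib.Helper77.SubsecCount
import Cfsg.Agent.Lib.Helper77.CentralConj

/-!
# The subsections attached to the central elements of a defect group

Let `(P, c)` be a maximal Brauer pair of the block `B`.  For `u ∈ Z(P)` let `(u, b_u)` be the
subsection with `(⟨u⟩, b_u) ≤ (P, c)`.  Two such subsections are conjugate in `G` only if the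
elements are conjugate under the stabilizer of `(P, c)`; hence the norms of the parts of an
irreducible character in these subsections add up to at most the inertial index.
-/

set_option autoImplicit false
set_option linter.unusedSectionVars false
set_option linter.style.haveILetI false

namespace Cfsg.Agent.Lib.Helper77

open Cfsg Cfsg.Agent.Lib.Helper16 Cfsg.Agent.Lib.Helper81 Cfsg.Agent.Lib.Helper76
open scoped ComplexConjugate

section SubBlock

variable {G : Type*} [Group G] [Fintype G] {M : Ideal Cfsg.AlgInt} {p : ℕ} [Fact p.Prime]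

open scoped Classical in
/-- the block of `C_G(u)` with `(⟨u⟩, b_u) ≤ (P, c)` -/
noncomputable def subBlock (p : ℕ) (M : Ideal Cfsg.AlgInt) (P : Subgroup G)
    (c : Set (Cfsg.IrrCharacter (Subgroup.centralizer (P : Set G)))) (u : G) :
    Set (Cfsg.IrrCharacter (Subgroup.centralizer (Subgroup.zpowers u : Set G))) :=
  if h : ∃ f : Set (Cfsg.IrrCharacter (Subgroup.centralizer (Subgroup.zpowers u : Set G))),
      Cfsg.IsPBlock M f ∧ Cfsg.SubpairLE p M (Subgroup.zpowers u) f P c then h.choose else ∅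

theorem subBlock_spec (hM : Cfsg.IsPModular p M) {P : Subgroup G}
    {c : Set (Cfsg.IrrCharacter (Subgroup.centralizer (P : Set G)))}
    (hPe : Cfsg.IsBrauerPair p M P c) {u : G} (hu : u ∈ P) :
    Cfsg.IsPBlock M (subBlock p M P c u) ∧
      Cfsg.SubpairLE p M (Subgroup.zpowers u) (subBlock p M P c u) P c := by
  have hQP : Subgroup.zpowers u ≤ P := by
    rw [Subgroup.zpowers_le]; exact hu
  have h := exists_subpairLE hM P c hPe _ (Subgroup.zpowers u) hQP le_rfl
  unfold subBlock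
  rw [dif_pos h]
  exact h.choose_spec

/-- the block attached to `u` depends only on the subgroup generated by `u` -/
theorem sigma_subBlock_eq (hM : Cfsg.IsPModular p M) {P : Subgroup G}
    {c : Set (Cfsg.IrrCharacter (Subgroup.centralizer (P : Set G)))}
    (hPe : Cfsg.IsBrauerPair p M P c) {u v : G} (hu : u ∈ P) (hv : v ∈ P)
    (h : Subgroup.zpowers u = Subgroup.zpowers v) :
    (⟨Subgroup.zpowers u, subBlock p M P c u⟩ : Cfsg.BrauerPairIdx G) =
      ⟨Subgroup.zpowers v, subBlock p M P c v⟩ := by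
  have key : ∀ (Q Q' : Subgroup G) (_ : Q = Q')
      (f : Set (Cfsg.IrrCharacter (Subgroup.centralizer (Q : Set G))))
      (f' : Set (Cfsg.IrrCharacter (Subgroup.centralizer (Q' : Set G)))),
      Cfsg.SubpairLE p M Q f P c → Cfsg.SubpairLE p M Q' f' P c →
      (⟨Q, f⟩ : Cfsg.BrauerPairIdx G) = ⟨Q', f'⟩ := by
    intro Q Q' hQ f f' h1 h2
    subst hQ
    rw [subpairLE_unique hM _ P c le_rfl hPe Q f f' h1 h2]
  exact key _ _ h _ _ (subBlock_spec hM hPe hu).2 (subBlock_spec hM hPe hv).2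

end SubBlock

section Transport

variable {G : Type*} [Group G] [Fintype G] {M : Ideal Cfsg.AlgInt} {p : ℕ} [Fact p.Prime]

/-- the norm of the part of a class function in a subsection, read at a conjugate -/
theorem secNorm_pairBlock (p : ℕ) {x g u : G} (hg : g * u * g⁻¹ = x)
    (f : Set (Cfsg.IrrCharacter (Subgroup.centralizer (Subgroup.zpowers u : Set G))))
    (χ : G → ℂ) (hχ : Cfsg.IsClassFunction G χ) :
    secNorm p (Subgroup.centralizer ({x} : Set G)) (pairBlock x g u f) x χ =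
      secNorm p (Subgroup.centralizer (Subgroup.zpowers u : Set G)) f u χ := by
  subst hg
  have hz := zpowers_eq_map_conj (g := g) (u := u) (x := g * u * g⁻¹) rfl
  have e1 : pairBlock (g * u * g⁻¹) g u f =
      mapSet ((centIso g (Subgroup.zpowers u) (Subgroup.zpowers (g * u * g⁻¹)) hz).trans
        (MulEquiv.subgroupCongr (centralizer_zpowers_eq (g * u * g⁻¹)))) f := by
    unfold pairBlock congrSet
    rw [conjBlockTo_eq_mapSet g _ _ hz, mapSet_trans]
  rw [e1]
  exact secNorm_map p _ g (fun c => rfl) f u χ hχ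

/-- the block attached to a conjugate is a block -/
theorem isPBlock_pairBlock (hM : M.IsPrime) {x g u : G} (hg : g * u * g⁻¹ = x)
    {f : Set (Cfsg.IrrCharacter (Subgroup.centralizer (Subgroup.zpowers u : Set G)))}
    (hf : Cfsg.IsPBlock M f) : Cfsg.IsPBlock M (pairBlock x g u f) := by
  have hz := zpowers_eq_map_conj hg
  unfold pairBlock congrSet
  rw [conjBlockTo_eq_mapSet g _ _ hz]
  exact isPBlock_mapSet hM _ (isPBlock_mapSet hM _ hf)

end Transport

section Fusion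

variable {G : Type*} [Group G] [Fintype G] {M : Ideal Cfsg.AlgInt} {p : ℕ} [Fact p.Prime]

/-- **Fusion of the subsections of central elements.**  If the subsections attached to two
central elements `u, u'` of `P` are conjugate in `G`, then `u` and `u'` are conjugate under the
stabilizer of the maximal pair `(P, c)`. -/
theorem exists_stab_conj_of_pairBlock_eq (hM : Cfsg.IsPModular p M)
    {B : Set (Cfsg.IrrCharacter G)}
    {P : Subgroup G} {c : Set (Cfsg.IrrCharacter (Subgroup.centralizer (P : Set G)))}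
    (hmax : Cfsg.IsMaximalBrauerPair p M B P c)
    {u u' : G} (hu' : u' ∈ P) (hucen : ∀ y ∈ P, y * u = u * y)
    (hu'cen : ∀ y ∈ P, y * u' = u' * y)
    {f : Set (Cfsg.IrrCharacter (Subgroup.centralizer (Subgroup.zpowers u : Set G)))}
    {f' : Set (Cfsg.IrrCharacter (Subgroup.centralizer (Subgroup.zpowers u' : Set G)))}
    (hf' : Cfsg.IsPBlock M f')
    (hle : Cfsg.SubpairLE p M (Subgroup.zpowers u) f P c)
    (hle' : Cfsg.SubpairLE p M (Subgroup.zpowers u') f' P c)
    {x g g' : G} (hg : g * u * g⁻¹ = x) (hg' : g' * u' * g'⁻¹ = x)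
    (heq : pairBlock x g u f = pairBlock x g' u' f') :
    ∃ t : G, t ∈ Subgroup.normalizer (P : Set G) ∧
      Cfsg.StabilizesBlock (Subgroup.centralizer (P : Set G)) c t ∧ t * u * t⁻¹ = u' := by
  have hMp := isPrime_of_isPModular hM
  have h1 : conjBlockTo g (Subgroup.zpowers u) (Subgroup.zpowers x) f =
      conjBlockTo g' (Subgroup.zpowers u') (Subgroup.zpowers x) f' :=
    congrSet_injective _ heq
  have hzu := zpowers_eq_map_conj hg
  have hzu' := zpowers_eq_map_conj hg'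
  have hg'' : g'⁻¹ * x * g'⁻¹⁻¹ = u' := by rw [← hg']; group
  have hback := zpowers_eq_map_conj hg''
  have h2 := congrArg (conjBlockTo g'⁻¹ (Subgroup.zpowers x) (Subgroup.zpowers u')) h1
  rw [conjBlockTo_conjBlockTo g g'⁻¹ _ _ _ hzu hback,
    conjBlockTo_conjBlockTo g' g'⁻¹ _ _ _ hzu' hback] at h2
  have h1c : g'⁻¹ * g' ∈ Subgroup.centralizer (Subgroup.zpowers u' : Set G) := by
    rw [inv_mul_cancel]; exact Subgroup.one_mem _
  rw [conjBlockTo_of_mem_centralizer _ h1c] at h2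
  have hh : (g'⁻¹ * g) * u * (g'⁻¹ * g)⁻¹ = u' := by
    rw [← hg'']
    rw [← hg]
    group
  have hzh := zpowers_eq_map_conj hh
  have hle₂ : Cfsg.SubpairLE p M (Subgroup.zpowers u') f'
      (P.map (MulAut.conj (g'⁻¹ * g)).toMonoidHom) (Cfsg.conjBlock P (g'⁻¹ * g) c) := by
    have h3 := subpairLE_conjBlock hMp (g'⁻¹ * g) hle
    unfold Cfsg.SubpairLE at h3 ⊢
    rwa [sigma_conjBlock_eq (g'⁻¹ * g) _ _ hzh f, h2] at h3
  have hQP : Subgroup.zpowers u' ≤ P := by
    rw [Subgroup.zpowers_le]; exact hu'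
  have hmemC : ∀ w : G, w * u' = u' * w →
      w ∈ Subgroup.centralizer (Subgroup.zpowers u' : Set G) := by
    intro w hw
    rw [centralizer_zpowers_eq, Subgroup.mem_centralizer_iff]
    intro y hy
    rw [Set.mem_singleton_iff] at hy
    rw [hy]
    exact hw.symm
  have hPH : P ≤ Subgroup.centralizer (Subgroup.zpowers u' : Set G) :=
    fun y hy => hmemC y (hu'cen y hy)
  have hP₂H : P.map (MulAut.conj (g'⁻¹ * g)).toMonoidHom ≤
      Subgroup.centralizer (Subgroup.zpowers u' : Set G) := by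
    rintro _ ⟨y, hy, rfl⟩
    apply hmemC
    show (g'⁻¹ * g) * y * (g'⁻¹ * g)⁻¹ * u' = u' * ((g'⁻¹ * g) * y * (g'⁻¹ * g)⁻¹)
    rw [← hh]
    have h4 := hucen y hy
    calc (g'⁻¹ * g) * y * (g'⁻¹ * g)⁻¹ * ((g'⁻¹ * g) * u * (g'⁻¹ * g)⁻¹)
        = (g'⁻¹ * g) * (y * u) * (g'⁻¹ * g)⁻¹ := by group
      _ = (g'⁻¹ * g) * (u * y) * (g'⁻¹ * g)⁻¹ := by rw [h4]
      _ = _ := by group
  obtain ⟨c₀, hc₀, hn, hs⟩ := exists_mul_mem_stabilizer_of_subpairLE_conj_central hM hmax hQP hPH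
    hf' hle' (g'⁻¹ * g) hP₂H hle₂
  refine ⟨c₀ * (g'⁻¹ * g), hn, hs, ?_⟩
  have e2 : u' * c₀ = c₀ * u' :=
    Subgroup.mem_centralizer_iff.mp hc₀ u' (Subgroup.mem_zpowers u')
  calc c₀ * (g'⁻¹ * g) * u * (c₀ * (g'⁻¹ * g))⁻¹
      = c₀ * ((g'⁻¹ * g) * u * (g'⁻¹ * g)⁻¹) * c₀⁻¹ := by group
    _ = c₀ * u' * c₀⁻¹ := by rw [hh]
    _ = u' * c₀ * c₀⁻¹ := by rw [e2]
    _ = u' := by group

/-- a set of conjugates of `u₀` under `T`, with `H ≤ T` centralizing `u₀`, has at most
`[T : H]` elements -/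
theorem card_le_relIndex_of_conj (T H : Subgroup G) (S : Finset G) (u₀ : G)
    (hH : ∀ h ∈ H, h * u₀ = u₀ * h) (hS : ∀ u' ∈ S, ∃ t ∈ T, t * u₀ * t⁻¹ = u') :
    S.card ≤ H.relIndex T := by
  classical
  choose! t ht htu using hS
  let ψ : S → T ⧸ H.subgroupOf T := fun u' => ((⟨t u'.1, ht u'.1 u'.2⟩ : T) : T ⧸ H.subgroupOf T)
  have hψ : Function.Injective ψ := by
    intro u₁ u₂ h12
    have h1 : (⟨t u₁.1, ht u₁.1 u₁.2⟩ : T)⁻¹ * (⟨t u₂.1, ht u₂.1 u₂.2⟩ : T) ∈ H.subgroupOf T :=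
      QuotientGroup.eq.mp h12
    rw [Subgroup.mem_subgroupOf] at h1
    have h2 : (t u₁.1)⁻¹ * t u₂.1 ∈ H := h1
    have h3 := hH _ h2
    apply Subtype.ext
    rw [← htu u₁.1 u₁.2, ← htu u₂.1 u₂.2]
    have h4 : t u₂.1 = t u₁.1 * ((t u₁.1)⁻¹ * t u₂.1) := by group
    calc t u₁.1 * u₀ * (t u₁.1)⁻¹
        = t u₁.1 * (u₀ * ((t u₁.1)⁻¹ * t u₂.1)) * ((t u₁.1)⁻¹ * t u₂.1)⁻¹ * (t u₁.1)⁻¹ := by
          group
      _ = t u₁.1 * (((t u₁.1)⁻¹ * t u₂.1) * u₀) * ((t u₁.1)⁻¹ * t u₂.1)⁻¹ * (t u₁.1)⁻¹ := by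
          rw [h3]
      _ = t u₂.1 * u₀ * (t u₂.1)⁻¹ := by group
  have h5 := Nat.card_le_card_of_injective ψ hψ
  rw [Nat.card_eq_fintype_card, Fintype.card_coe] at h5
  exact h5

/-- **The subsections of the central elements of a defect group.**  Let `(P, c)` be a maximal
Brauer pair of `B`, `Z` a set of central elements of `P`, `T` a subgroup containing the
stabilizer of `(P, c)` and `H` a subgroup centralizing `Z`.  For every irreducible character
`χ` of `G`, the norms of the parts of `χ` in the subsections `(u, b_u)`, `u ∈ Z`, add up to at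
most `[T : H]`. -/
theorem sum_secNorm_le (hM : Cfsg.IsPModular p M) {B : Set (Cfsg.IrrCharacter G)}
    {P : Subgroup G} {c : Set (Cfsg.IrrCharacter (Subgroup.centralizer (P : Set G)))}
    (hmax : Cfsg.IsMaximalBrauerPair p M B P c) (Z : Finset G) (hZP : ∀ u ∈ Z, u ∈ P)
    (hZcen : ∀ u ∈ Z, ∀ y ∈ P, y * u = u * y) (T H : Subgroup G)
    (hT : ∀ g : G, g ∈ Subgroup.normalizer (P : Set G) →
      Cfsg.StabilizesBlock (Subgroup.centralizer (P : Set G)) c g → g ∈ T)
    (hH : ∀ h ∈ H, ∀ u ∈ Z, h * u = u * h) (χ : Cfsg.IrrCharacter G) :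
    ∑ u ∈ Z, secNorm p (Subgroup.centralizer (Subgroup.zpowers u : Set G))
      (subBlock p M P c u) u (χ : G → ℂ) ≤ (H.relIndex T : ℝ) := by
  classical
  have hMp := isPrime_of_isPModular hM
  have hPe : Cfsg.IsBrauerPair p M P c := hmax.1.1
  have hPp : IsPGroup p P := hPe.1
  have hχ : Cfsg.IsClassFunction G (χ : G → ℂ) := fun g h => irr_conj_class χ g h
  obtain ⟨X, -, hXp, hXrep⟩ :=
    Cfsg.Agent.Lib.Helper76.exists_section_reps p (1 : G) ⟨0, by simp⟩
  have hdata : ∀ u ∈ Z, ∃ x g : G, x ∈ X ∧ g * u * g⁻¹ = x := by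
    intro u hu
    obtain ⟨k, hk⟩ := (IsPGroup.iff_orderOf.mp hPp) ⟨u, hZP u hu⟩
    have hk' : orderOf u = p ^ k := by
      rw [← hk, ← Subgroup.orderOf_coe]
    obtain ⟨x, ⟨hxX, hconj⟩, -⟩ := hXrep u ⟨k, hk'⟩
    obtain ⟨g, hg⟩ := isConj_iff.mp hconj
    exact ⟨x, g, hxX, hg⟩
  choose! xf gf h1 h2 using hdata
  let φ : G → Σ x : G, Set (Cfsg.IrrCharacter (Subgroup.centralizer ({x} : Set G))) :=
    fun u => ⟨xf u, pairBlock (xf u) (gf u) u (subBlock p M P c u)⟩
  let Bl : ∀ x : G, Finset (Set (Cfsg.IrrCharacter (Subgroup.centralizer ({x} : Set G)))) :=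
    fun x => (Set.toFinite {b : Set (Cfsg.IrrCharacter (Subgroup.centralizer ({x} : Set G))) |
      Cfsg.IsPBlock M b}).toFinset
  let r : (Σ x : G, Set (Cfsg.IrrCharacter (Subgroup.centralizer ({x} : Set G)))) → ℝ :=
    fun q => secNorm p (Subgroup.centralizer ({q.1} : Set G)) q.2 q.1 (χ : G → ℂ)
  have hr0 : ∀ q, 0 ≤ r q := fun q => secNorm_nonneg p _ _ _ _
  have hmaps : ∀ u ∈ Z, φ u ∈ X.sigma Bl := by
    intro u hu
    rw [Finset.mem_sigma]
    refine ⟨h1 u hu, ?_⟩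
    rw [Set.Finite.mem_toFinset]
    exact isPBlock_pairBlock hMp (h2 u hu) (subBlock_spec hM hPe (hZP u hu)).1
  have hval : ∀ u ∈ Z, secNorm p (Subgroup.centralizer (Subgroup.zpowers u : Set G))
      (subBlock p M P c u) u (χ : G → ℂ) = r (φ u) := fun u hu =>
    (secNorm_pairBlock p (h2 u hu) _ (χ : G → ℂ) hχ).symm
  have hfib : ∀ q, ((Z.filter (fun u => φ u = q)).card : ℝ) ≤ (H.relIndex T : ℝ) := by
    intro q
    rcases (Z.filter (fun u => φ u = q)).eq_empty_or_nonempty with hemp | ⟨u₀, hu₀⟩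
    · rw [hemp, Finset.card_empty, Nat.cast_zero]
      exact Nat.cast_nonneg _
    · rw [Finset.mem_filter] at hu₀
      obtain ⟨hu₀Z, hu₀q⟩ := hu₀
      have hb := card_le_relIndex_of_conj T H (Z.filter (fun u => φ u = q)) u₀
        (fun h hh => hH h hh u₀ hu₀Z) (by
          intro u' hu'
          rw [Finset.mem_filter] at hu'
          obtain ⟨hu'Z, hu'q⟩ := hu'
          have hφ : φ u₀ = φ u' := hu₀q.trans hu'q.symm
          obtain ⟨hx, hpb⟩ := sigma_pairBlock_inj _ _ _ _ _ _ _ _ hφ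
          have hg' : gf u' * u' * (gf u')⁻¹ = xf u₀ := by rw [h2 u' hu'Z, hx]
          obtain ⟨t, htn, hts, htu⟩ := exists_stab_conj_of_pairBlock_eq hM hmax (hZP u' hu'Z)
            (hZcen u₀ hu₀Z) (hZcen u' hu'Z) (subBlock_spec hM hPe (hZP u' hu'Z)).1
            (subBlock_spec hM hPe (hZP u₀ hu₀Z)).2 (subBlock_spec hM hPe (hZP u' hu'Z)).2
            (h2 u₀ hu₀Z) hg' hpb
          exact ⟨t, hT t htn hts, htu⟩)
      exact_mod_cast hb
  have hsum1 : ∑ q ∈ X.sigma Bl, r q = 1 := by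
    rw [Finset.sum_sigma]
    rw [← sum_secNorm_eq_one hM X hXp hXrep χ]
    refine Finset.sum_congr rfl (fun x _ => ?_)
    rw [finsum_mem_eq_finite_toFinset_sum _ (Set.toFinite _)]
  calc ∑ u ∈ Z, secNorm p (Subgroup.centralizer (Subgroup.zpowers u : Set G))
        (subBlock p M P c u) u (χ : G → ℂ)
      = ∑ u ∈ Z, r (φ u) := Finset.sum_congr rfl hval
    _ = ∑ q ∈ X.sigma Bl, ∑ u ∈ Z.filter (fun u => φ u = q), r (φ u) :=
        (Finset.sum_fiberwise_of_maps_to hmaps _).symm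
    _ = ∑ q ∈ X.sigma Bl, ((Z.filter (fun u => φ u = q)).card : ℝ) * r q := by
        refine Finset.sum_congr rfl (fun q _ => ?_)
        rw [Finset.sum_congr rfl (fun u hu => by rw [(Finset.mem_filter.mp hu).2]),
          Finset.sum_const, nsmul_eq_mul]
    _ ≤ ∑ q ∈ X.sigma Bl, (H.relIndex T : ℝ) * r q :=
        Finset.sum_le_sum (fun q _ => mul_le_mul_of_nonneg_right (hfib q) (hr0 q))
    _ = (H.relIndex T : ℝ) := by rw [← Finset.mul_sum, hsum1, mul_one]

end Fusion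

end Cfsg.Agent.Lib.Helper77
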