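import Mathlib
import Cfsg.Prelude.Def_Blocks
import Cfsg.Prelude.Def_BrauerPairs
import Cfsg.Agent.Lib.Helper16.Cover
import Cfsg.Agent.Lib.Helper16.PRegular
import Cfsg.Agent.Lib.Helper77.PIndex
import Cfsg.Agent.Lib.Helper77.NilControl
import Cfsg.Agent.S4633

/-!
# Brauer pairs of a stable block of a normal subgroup of `p`-power index

Let `N` be a normal subgroup of `p`-power index in `G`, `c` a `G`-stable block of `N` and `B`
the block of `G` with the idempotent of `c`.  For a `p`-subgroup `R` of `N`, the blocks of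
`C_G(R)` in Brauer pairs of `B` at `R` are the blocks covering the blocks of `C_N(R)` in Brauer
pairs of `c` at `R`.
-/

set_option autoImplicit false

namespace Cfsg.Agent.Lib.Helper77

open Cfsg Cfsg.Agent.Lib.Helper16

section Aut

variable {G : Type*} [Group G]

/-- restriction to a subgroup of an automorphism preserving it -/
def resAut (N : Subgroup G) (α : G ≃* G) (h : ∀ g : G, g ∈ N ↔ α g ∈ N) : N ≃* N where
  toFun n := ⟨α n, (h n).mp n.2⟩
  invFun n := ⟨α.symm (n : G), (h _).mpr (by rw [α.apply_symm_apply]; exact n.2)⟩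
  left_inv n := Subtype.ext (α.symm_apply_apply (n : G))
  right_inv n := Subtype.ext (α.apply_symm_apply (n : G))
  map_mul' a b := Subtype.ext (map_mul α (a : G) (b : G))

theorem resAut_apply_coe (N : Subgroup G) (α : G ≃* G) (h : ∀ g : G, g ∈ N ↔ α g ∈ N) (n : N) :
    ((resAut N α h n : N) : G) = α (n : G) := rfl

theorem resAut_symm_apply_coe (N : Subgroup G) (α : G ≃* G) (h : ∀ g : G, g ∈ N ↔ α g ∈ N)
    (n : N) : (((resAut N α h).symm n : N) : G) = α.symm (n : G) := rfl

end Aut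

section General

variable {G : Type*} [Group G] [Fintype G] {M : Ideal Cfsg.AlgInt} {p : ℕ} [Fact p.Prime]

/-- two blocks one of which is contained in the other are equal -/
theorem isPBlock_eq_of_subset (hM : M.IsPrime) {A A' : Set (Cfsg.IrrCharacter G)}
    (hA : Cfsg.IsPBlock M A) (hA' : Cfsg.IsPBlock M A') (h : A ⊆ A') : A = A' := by
  obtain ⟨χ, hχ⟩ := IsPBlock.nonempty hM hA
  rw [IsPBlock.eq_blockOf hM hA hχ, IsPBlock.eq_blockOf hM hA' (h hχ)]

/-- **Uniqueness of the covering block under `p`-power index.** Irreducible characters of `G`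
lying over members of the same block of a normal subgroup of `p`-power index lie in the same
block. -/
theorem sameBlock_of_over_pindex (hM : Cfsg.IsPModular p M) (N : Subgroup G) [N.Normal]
    [Fintype N] (hN : ∃ k : ℕ, N.index = p ^ k) {b : Set (Cfsg.IrrCharacter N)}
    (hb : Cfsg.IsPBlock M b) {χ₁ χ₂ : Cfsg.IrrCharacter G} {θ₁ θ₂ : Cfsg.IrrCharacter N}
    (hθ₁ : θ₁ ∈ b) (hθ₂ : θ₂ ∈ b)
    (h₁ : Cfsg.classInner (fun n : N => (χ₁ : G → ℂ) n) (θ₁ : N → ℂ) ≠ 0)
    (h₂ : Cfsg.classInner (fun n : N => (χ₂ : G → ℂ) n) (θ₂ : N → ℂ) ≠ 0) :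
    Cfsg.SameBlock M (χ₁ : G → ℂ) (χ₂ : G → ℂ) := by
  have hMp := isPrime_of_isPModular hM
  apply sameBlock_of_pRegular hM
  intro g hg
  have hgN : g ∈ N := by
    by_contra h
    exact hg (dvd_orderOf_of_not_mem N hN h)
  have k1 := congr_of_cover N hMp hb χ₁ hθ₁ h₁ hθ₁ ⟨g, hgN⟩
  have k2 := congr_of_cover N hMp hb χ₂ hθ₂ h₂ hθ₁ ⟨g, hgN⟩
  have := memLocalIdeal_sub hMp k1 k2
  rwa [sub_sub_sub_cancel_right] at this

/-- an automorphism transports "lying over" -/
theorem classInner_mapIrr_resAut (N : Subgroup G) [Fintype N] (α : G ≃* G)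
    (h : ∀ g : G, g ∈ N ↔ α g ∈ N) (χ : Cfsg.IrrCharacter G) (θ : Cfsg.IrrCharacter N) :
    Cfsg.classInner (fun n : N => (mapIrr α χ : G → ℂ) n) (mapIrr (resAut N α h) θ : N → ℂ) =
      Cfsg.classInner (fun n : N => (χ : G → ℂ) n) (θ : N → ℂ) := by
  unfold Cfsg.classInner
  congr 1
  apply Fintype.sum_equiv (resAut N α h).symm.toEquiv
  intro n
  rfl

/-- a block of `G` covering a block of `N` that is fixed by an automorphism is fixed by the
automorphism, when `N` has `p`-power index -/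
theorem mapSet_blockOf_eq_of_over (hM : Cfsg.IsPModular p M) (N : Subgroup G) [N.Normal]
    [Fintype N] (hN : ∃ k : ℕ, N.index = p ^ k) (α : G ≃* G)
    (h : ∀ g : G, g ∈ N ↔ α g ∈ N) {b : Set (Cfsg.IrrCharacter N)} (hb : Cfsg.IsPBlock M b)
    (hαb : mapSet (resAut N α h) b ⊆ b) {χ : Cfsg.IrrCharacter G} {θ : Cfsg.IrrCharacter N}
    (hθ : θ ∈ b) (hover : Cfsg.classInner (fun n : N => (χ : G → ℂ) n) (θ : N → ℂ) ≠ 0) :
    mapSet α (Cfsg.blockOf M (χ : G → ℂ)) = Cfsg.blockOf M (χ : G → ℂ) := by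
  have hMp := isPrime_of_isPModular hM
  rw [mapSet_blockOf hMp]
  symm
  apply blockOf_eq_of_sameBlock hMp
  apply sameBlock_of_over_pindex hM N hN hb hθ (θ₂ := mapIrr (resAut N α h) θ) ?_ hover ?_
  · exact hαb ⟨θ, hθ, rfl⟩
  · rw [classInner_mapIrr_resAut]
    exact hover

/-- the blocks of `N` covered by a block of `G` are conjugate -/
theorem exists_conjIrr_mem_of_over (hM : M.IsPrime) (N : Subgroup G) [N.Normal] [Fintype N]
    {B : Set (Cfsg.IrrCharacter G)} (hB : Cfsg.IsPBlock M B) {b : Set (Cfsg.IrrCharacter N)}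
    (hb : Cfsg.IsPBlock M b) {χ χ' : Cfsg.IrrCharacter G} (hχ : χ ∈ B) (hχ' : χ' ∈ B)
    {θ θ' : Cfsg.IrrCharacter N} (hθ : θ ∈ b)
    (h : Cfsg.classInner (fun n : N => (χ : G → ℂ) n) (θ : N → ℂ) ≠ 0)
    (h' : Cfsg.classInner (fun n : N => (χ' : G → ℂ) n) (θ' : N → ℂ) ≠ 0) :
    ∃ g : G, conjIrr N θ' g ∈ b := by
  obtain ⟨θ₃, hθ₃, h₃⟩ := cover_all N hM hB hb hχ hθ h hχ'
  obtain ⟨g, hg⟩ := Cfsg.Agent.Lib.Helper75.clifford_conj N χ'.2 θ'.2 θ₃.2 h' h₃
  refine ⟨g, ?_⟩
  have e : conjIrr N θ' g = θ₃ := Subtype.ext hg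
  rw [e]
  exact hθ₃

/-- conjugation of characters of a normal subgroup as transport along the restricted inner
automorphism -/
theorem conjIrr_eq_mapIrr (N : Subgroup G) [N.Normal] [Fintype N] (θ : Cfsg.IrrCharacter N)
    (g : G) (h : ∀ k : G, k ∈ N ↔ MulAut.conj g k ∈ N) :
    conjIrr N θ g = mapIrr (resAut N (MulAut.conj g) h) θ := by
  apply Subtype.ext
  funext n
  have hn : g⁻¹ * (n : G) * g ∈ N := by
    have := (h (g⁻¹ * (n : G) * g)).mpr (by
      show g * (g⁻¹ * (n : G) * g) * g⁻¹ ∈ N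
      have e : g * (g⁻¹ * (n : G) * g) * g⁻¹ = (n : G) := by group
      rw [e]; exact n.2)
    exact this
  rw [conjIrr_apply N θ g n hn, mapIrr_apply]
  congr 1

end General

section CentDefs

variable {G : Type*} [Group G]

/-- the centralizer in `N` of a subgroup of `N`, inside the centralizer in `G` -/
def centSubIso (N : Subgroup G) (R' : Subgroup N) (R : Subgroup G) (hR : R'.map N.subtype = R) :
    Subgroup.centralizer (R' : Set N) ≃* N.subgroupOf (Subgroup.centralizer (R : Set G)) where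
  toFun n := ⟨⟨((n : N) : G), by
      rw [Subgroup.mem_centralizer_iff]
      intro r hr
      rw [← hR] at hr
      obtain ⟨r', hr', rfl⟩ := hr
      exact congrArg Subtype.val (Subgroup.mem_centralizer_iff.mp n.2 r' hr')⟩,
    Subgroup.mem_subgroupOf.mpr (n : N).2⟩
  invFun y := ⟨⟨((y : Subgroup.centralizer (R : Set G)) : G), Subgroup.mem_subgroupOf.mp y.2⟩, by
      rw [Subgroup.mem_centralizer_iff]
      intro r' hr'
      apply Subtype.ext
      exact Subgroup.mem_centralizer_iff.mp (y : Subgroup.centralizer (R : Set G)).2 (r' : G)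
        (by rw [← hR]; exact ⟨r', hr', rfl⟩)⟩
  left_inv n := rfl
  right_inv y := rfl
  map_mul' a b := rfl

theorem centSubIso_apply_coe (N : Subgroup G) (R' : Subgroup N) (R : Subgroup G)
    (hR : R'.map N.subtype = R) (n : Subgroup.centralizer (R' : Set N)) :
    (((centSubIso N R' R hR n : N.subgroupOf (Subgroup.centralizer (R : Set G))) :
      Subgroup.centralizer (R : Set G)) : G) = ((n : N) : G) := rfl

/-- conjugation by an element normalizing `C_G(R)` preserves `N ∩ C_G(R)` -/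
theorem mem_subgroupOf_conjAut_iff (N : Subgroup G) [hN : N.Normal] (R : Subgroup G) (y : G)
    (hy : y ∈ Subgroup.normalizer ((Subgroup.centralizer (R : Set G) : Subgroup G) : Set G))
    (k : Subgroup.centralizer (R : Set G)) :
    k ∈ N.subgroupOf (Subgroup.centralizer (R : Set G)) ↔
      conjAut (Subgroup.centralizer (R : Set G)) y hy k ∈
        N.subgroupOf (Subgroup.centralizer (R : Set G)) := by
  rw [Subgroup.mem_subgroupOf, Subgroup.mem_subgroupOf, conjAut_apply_coe]
  constructor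
  · intro h
    exact hN.conj_mem _ h y
  · intro h
    have := hN.conj_mem _ h y⁻¹
    have e : y⁻¹ * (y * (k : G) * y⁻¹) * y⁻¹⁻¹ = (k : G) := by group
    rwa [e] at this

/-- the action of an element normalizing `C_G(R)` on `N ∩ C_G(R)` -/
def conjK (N : Subgroup G) [N.Normal] (R : Subgroup G) (y : G)
    (hy : y ∈ Subgroup.normalizer ((Subgroup.centralizer (R : Set G) : Subgroup G) : Set G)) :
    N.subgroupOf (Subgroup.centralizer (R : Set G)) ≃*
      N.subgroupOf (Subgroup.centralizer (R : Set G)) :=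
  resAut (N.subgroupOf (Subgroup.centralizer (R : Set G)))
    (conjAut (Subgroup.centralizer (R : Set G)) y hy) (mem_subgroupOf_conjAut_iff N R y hy)

theorem conjK_apply_coe (N : Subgroup G) [N.Normal] (R : Subgroup G) (y : G)
    (hy : y ∈ Subgroup.normalizer ((Subgroup.centralizer (R : Set G) : Subgroup G) : Set G))
    (k : N.subgroupOf (Subgroup.centralizer (R : Set G))) :
    (((conjK N R y hy k : N.subgroupOf (Subgroup.centralizer (R : Set G))) :
      Subgroup.centralizer (R : Set G)) : G) =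
      y * ((k : Subgroup.centralizer (R : Set G)) : G) * y⁻¹ := rfl

theorem mapSet_conjK_mul (N : Subgroup G) [N.Normal] (R : Subgroup G) (y z : G)
    (hy : y ∈ Subgroup.normalizer ((Subgroup.centralizer (R : Set G) : Subgroup G) : Set G))
    (hz : z ∈ Subgroup.normalizer ((Subgroup.centralizer (R : Set G) : Subgroup G) : Set G))
    (hyz : y * z ∈ Subgroup.normalizer ((Subgroup.centralizer (R : Set G) : Subgroup G) : Set G))
    (g : Set (Cfsg.IrrCharacter (N.subgroupOf (Subgroup.centralizer (R : Set G))))) :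
    mapSet (conjK N R (y * z) hyz) g = mapSet (conjK N R y hy) (mapSet (conjK N R z hz) g) := by
  rw [← mapSet_trans]
  apply mapSet_congr
  intro k
  apply Subtype.ext
  apply Subtype.ext
  show y * z * ((k : Subgroup.centralizer (R : Set G)) : G) * (y * z)⁻¹ =
    y * (z * ((k : Subgroup.centralizer (R : Set G)) : G) * z⁻¹) * y⁻¹
  group

theorem mapSet_conjK_one (N : Subgroup G) [N.Normal] (R : Subgroup G)
    (h1 : (1 : G) ∈
      Subgroup.normalizer ((Subgroup.centralizer (R : Set G) : Subgroup G) : Set G))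
    (g : Set (Cfsg.IrrCharacter (N.subgroupOf (Subgroup.centralizer (R : Set G))))) :
    mapSet (conjK N R 1 h1) g = g := by
  rw [mapSet_congr (β := MulEquiv.refl _) (fun k => ?_), mapSet_refl]
  apply Subtype.ext
  apply Subtype.ext
  show (1 : G) * ((k : Subgroup.centralizer (R : Set G)) : G) * (1 : G)⁻¹ = _
  simp

/-- the elements normalizing `C_G(R)` which map a set of characters of `N ∩ C_G(R)` into
itself -/
def stabK (N : Subgroup G) [N.Normal] (R : Subgroup G)
    (g : Set (Cfsg.IrrCharacter (N.subgroupOf (Subgroup.centralizer (R : Set G))))) :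
    Submonoid G where
  carrier := {y | ∃ hy : y ∈
    Subgroup.normalizer ((Subgroup.centralizer (R : Set G) : Subgroup G) : Set G),
      mapSet (conjK N R y hy) g ⊆ g}
  one_mem' := ⟨one_mem _, by rw [mapSet_conjK_one]⟩
  mul_mem' := by
    rintro y z ⟨hy, ey⟩ ⟨hz, ez⟩
    refine ⟨mul_mem hy hz, ?_⟩
    rw [mapSet_conjK_mul N R y z hy hz]
    exact (mapSet_mono _ ez).trans ey

theorem mem_stabK_iff (N : Subgroup G) [N.Normal] (R : Subgroup G)
    (g : Set (Cfsg.IrrCharacter (N.subgroupOf (Subgroup.centralizer (R : Set G))))) (y : G) :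
    y ∈ stabK N R g ↔ ∃ hy : y ∈
      Subgroup.normalizer ((Subgroup.centralizer (R : Set G) : Subgroup G) : Set G),
        mapSet (conjK N R y hy) g ⊆ g := Iff.rfl

end CentDefs

section GroupLemmas

variable {G : Type*} [Group G] {p : ℕ} [Fact p.Prime]

theorem conj_pow_succ' (y r : G) (j : ℕ) :
    y ^ (j + 1) * r * (y ^ (j + 1))⁻¹ = y ^ j * (y * r * y⁻¹) * (y ^ j)⁻¹ := by
  rw [pow_succ, mul_inv_rev]
  simp only [mul_assoc]

/-- modulo the centralizer of `R`, the action on `R` of the powers of an element of `N_G(R)`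
does not change -/
theorem conj_pow_mul_eq (R : Subgroup G) {a x : G}
    (ha : a ∈ Subgroup.centralizer (R : Set G)) (hx : x ∈ Subgroup.normalizer (R : Set G)) :
    ∀ (j : ℕ) (r : G), r ∈ R → (a * x) ^ j * r * ((a * x) ^ j)⁻¹ = x ^ j * r * (x ^ j)⁻¹ := by
  intro j
  induction j with
  | zero => intro r _; simp
  | succ j ih =>
    intro r hr
    have hr1 : x * r * x⁻¹ ∈ R := (Subgroup.mem_normalizer_iff.mp hx r).mp hr
    have e1 : a * x * r * (a * x)⁻¹ = x * r * x⁻¹ := by
      have h := Subgroup.mem_centralizer_iff.mp ha _ hr1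
      calc a * x * r * (a * x)⁻¹ = a * (x * r * x⁻¹) * a⁻¹ := by group
        _ = (x * r * x⁻¹) * a * a⁻¹ := by rw [← h]
        _ = x * r * x⁻¹ := by group
    rw [conj_pow_succ', e1, ih _ hr1, ← conj_pow_succ']

/-- a `p`-regular element of a normal subgroup `N` normalizing the `p`-subgroup `Q` and
centralizing `Q ∩ N` centralizes `Q` -/
theorem mem_centralizer_of_centralizes_inf (N Q : Subgroup G) [hN : N.Normal]
    (hQ : IsPGroup p Q) {x : G} (hxN : x ∈ N) (hxQ : x ∈ Subgroup.normalizer (Q : Set G))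
    (hreg : ¬ p ∣ orderOf x)
    (hxR : x ∈ Subgroup.centralizer ((Q ⊓ N : Subgroup G) : Set G)) :
    x ∈ Subgroup.centralizer (Q : Set G) := by
  have hp : p.Prime := Fact.out
  rw [Subgroup.mem_centralizer_iff]
  intro q hq
  obtain ⟨r, hrdef⟩ : ∃ r : G, r = q⁻¹ * (x * q * x⁻¹) := ⟨_, rfl⟩
  have hr : r ∈ Q ⊓ N := by
    rw [hrdef]
    refine ⟨Q.mul_mem (Q.inv_mem hq) ((Subgroup.mem_normalizer_iff.mp hxQ q).mp hq), ?_⟩
    have e : q⁻¹ * (x * q * x⁻¹) = (q⁻¹ * x * q⁻¹⁻¹) * x⁻¹ := by group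
    rw [e]
    exact N.mul_mem (hN.conj_mem x hxN q⁻¹) (N.inv_mem hxN)
  have hxq : x * q * x⁻¹ = q * r := by rw [hrdef]; group
  have hcomm : r * x = x * r := Subgroup.mem_centralizer_iff.mp hxR r hr
  have hxr : x * r * x⁻¹ = r := by rw [← hcomm]; group
  have key : ∀ k : ℕ, x ^ k * q * (x ^ k)⁻¹ = q * r ^ k := by
    intro k
    induction k with
    | zero => simp
    | succ k ih =>
      have e1 : x ^ (k + 1) * q * (x ^ (k + 1))⁻¹ = x ^ k * (x * q * x⁻¹) * (x ^ k)⁻¹ :=
        conj_pow_succ' x q k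
      have e2 : x ^ k * r * (x ^ k)⁻¹ = r := by
        have h2 : ∀ j : ℕ, x ^ j * r * (x ^ j)⁻¹ = r := by
          intro j
          induction j with
          | zero => simp
          | succ j ihj => rw [conj_pow_succ', hxr, ihj]
        exact h2 k
      calc x ^ (k + 1) * q * (x ^ (k + 1))⁻¹ = x ^ k * (q * r) * (x ^ k)⁻¹ := by rw [e1, hxq]
        _ = (x ^ k * q * (x ^ k)⁻¹) * (x ^ k * r * (x ^ k)⁻¹) := by group
        _ = q * r ^ k * r := by rw [ih, e2]
        _ = q * r ^ (k + 1) := by rw [pow_succ, mul_assoc]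
  have h1 := key (orderOf x)
  rw [pow_orderOf_eq_one] at h1
  have h1' : r ^ orderOf x = 1 := by
    have : q = q * r ^ orderOf x := by simpa using h1
    exact (mul_eq_left.mp this.symm)
  have hr1 : r = 1 := by
    obtain ⟨j, hj⟩ := hQ ⟨r, hr.1⟩
    have hj' : r ^ (p ^ j) = 1 := by
      have := congrArg Subtype.val hj
      simpa using this
    have hd1 : orderOf r ∣ orderOf x := orderOf_dvd_of_pow_eq_one h1'
    have hd2 : orderOf r ∣ p ^ j := orderOf_dvd_of_pow_eq_one hj'
    have hcop : Nat.Coprime (orderOf x) (p ^ j) :=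
      Nat.Coprime.pow_right j (Nat.Coprime.symm ((Nat.Prime.coprime_iff_not_dvd hp).mpr hreg))
    exact orderOf_eq_one_iff.mp (Nat.eq_one_of_dvd_coprimes hcop hd1 hd2)
  rw [hr1, mul_one] at hxq
  calc q * x = (x * q * x⁻¹) * x := by rw [hxq]
    _ = x * q := by group

/-- a normal subgroup of `p`-power index has `p`-power index in every subgroup -/
theorem index_subgroupOf_pow (N : Subgroup G) [N.Normal] (hN : ∃ k : ℕ, N.index = p ^ k)
    (C : Subgroup G) : ∃ k : ℕ, (N.subgroupOf C).index = p ^ k := by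
  obtain ⟨k, hk⟩ := hN
  have h1 : N.relIndex C ∣ N.index := Subgroup.relIndex_dvd_index_of_normal N C
  rw [hk] at h1
  obtain ⟨j, -, hj⟩ := (Nat.dvd_prime_pow (Fact.out : p.Prime)).mp h1
  exact ⟨j, hj⟩

/-- an element of `N` normalizing a subgroup of `N` normalizes its image in `G` -/
theorem coe_mem_normalizer_of_mem (N : Subgroup G) (R' : Subgroup N) (R : Subgroup G)
    (hR : R'.map N.subtype = R) {n : N} (hn : n ∈ Subgroup.normalizer (R' : Set N)) :
    (n : G) ∈ Subgroup.normalizer (R : Set G) := by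
  rw [Subgroup.mem_normalizer_iff] at hn ⊢
  intro r
  rw [← hR]
  constructor
  · rintro ⟨r', hr', rfl⟩
    exact ⟨n * r' * n⁻¹, (hn r').mp hr', rfl⟩
  · rintro ⟨s', hs', hs⟩
    refine ⟨n⁻¹ * s' * n, (hn _).mpr ?_, ?_⟩
    · have e : n * (n⁻¹ * s' * n) * n⁻¹ = s' := by group
      rw [e]
      exact hs'
    · show ((n⁻¹ * s' * n : N) : G) = r
      have hs2 : (s' : G) = (n : G) * r * (n : G)⁻¹ := hs
      push_cast
      rw [hs2]
      group

end GroupLemmas

section Cent

variable {G : Type*} [Group G] [Fintype G] {M : Ideal Cfsg.AlgInt} {p : ℕ} [Fact p.Prime]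

/-- the Brauer functional of `B` at a character of `C_G(R)` is the Brauer functional of `c` at
any character of `C_N(R)` below it -/
theorem brauerOmega_eq_of_over (N : Subgroup G) [N.Normal] (R' : Subgroup N) (R : Subgroup G)
    (hR : R'.map N.subtype = R) (c : Set (Cfsg.IrrCharacter N)) (B : Set (Cfsg.IrrCharacter G))
    (hBc : ∀ g : G, Cfsg.blockCoeff B g = Cfsg.subgroupBlockCoeff N c g)
    [Fintype (Subgroup.centralizer (R : Set G))]
    [Fintype (N.subgroupOf (Subgroup.centralizer (R : Set G)))]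
    (ξ : Cfsg.IrrCharacter (Subgroup.centralizer (R : Set G)))
    (θ : Cfsg.IrrCharacter (N.subgroupOf (Subgroup.centralizer (R : Set G))))
    (hover : Cfsg.classInner (fun k : N.subgroupOf (Subgroup.centralizer (R : Set G)) =>
      (ξ : Subgroup.centralizer (R : Set G) → ℂ) k)
      (θ : N.subgroupOf (Subgroup.centralizer (R : Set G)) → ℂ) ≠ 0) :
    Cfsg.brauerOmega R (Cfsg.blockCoeff B) (ξ : Subgroup.centralizer (R : Set G) → ℂ) =
      Cfsg.brauerOmega R' (Cfsg.blockCoeff c)
        (mapIrr (centSubIso N R' R hR).symm θ : Subgroup.centralizer (R' : Set N) → ℂ) := by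
  classical
  have hfinN : Fintype N := Fintype.ofFinite _
  have hfinC' : Fintype (Subgroup.centralizer (R' : Set N)) := Fintype.ofFinite _
  rw [brauerOmega_eq_omegaF, brauerOmega_eq_omegaF]
  unfold omegaF
  have hu : Cfsg.IsClassFunction (Subgroup.centralizer (R : Set G))
      (res (Subgroup.centralizer (R : Set G)) (Cfsg.blockCoeff B)) :=
    isClassFunction_res (invBy_of_isClassFunction (blockCoeff_isClassFunction B) _)
  have h1 := sum_res_mul_eq (N.subgroupOf (Subgroup.centralizer (R : Set G))) hover hu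
  have e1 : ∑ x : Subgroup.centralizer (R : Set G),
      res (Subgroup.centralizer (R : Set G)) (Cfsg.blockCoeff B) x *
        (ξ : Subgroup.centralizer (R : Set G) → ℂ) x =
      ∑ m : N.subgroupOf (Subgroup.centralizer (R : Set G)),
        res (Subgroup.centralizer (R : Set G)) (Cfsg.blockCoeff B) m *
          (ξ : Subgroup.centralizer (R : Set G) → ℂ) m := by
    rw [← sum_ext0_mul (N.subgroupOf (Subgroup.centralizer (R : Set G)))
      (fun m => res (Subgroup.centralizer (R : Set G)) (Cfsg.blockCoeff B) m)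
      (ξ : Subgroup.centralizer (R : Set G) → ℂ)]
    refine Finset.sum_congr rfl fun x _ => ?_
    congr 1
    by_cases hx : x ∈ N.subgroupOf (Subgroup.centralizer (R : Set G))
    · rw [ext0_of_mem _ _ hx]
    · rw [ext0_of_not_mem _ _ hx, res_apply, hBc, subgroupBlockCoeff_eq_ext0,
        ext0_of_not_mem N _ (fun h => hx (Subgroup.mem_subgroupOf.mpr h))]
  have e2 : ∑ m : N.subgroupOf (Subgroup.centralizer (R : Set G)),
      res (Subgroup.centralizer (R : Set G)) (Cfsg.blockCoeff B) m *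
        (θ : N.subgroupOf (Subgroup.centralizer (R : Set G)) → ℂ) m =
      ∑ n : Subgroup.centralizer (R' : Set N),
        res (Subgroup.centralizer (R' : Set N)) (Cfsg.blockCoeff c) n *
          (mapIrr (centSubIso N R' R hR).symm θ : Subgroup.centralizer (R' : Set N) → ℂ) n := by
    symm
    apply Fintype.sum_equiv (centSubIso N R' R hR).toEquiv
    intro n
    rw [mapIrr_apply, res_apply, res_apply]
    show Cfsg.blockCoeff c (n : N) * _ = Cfsg.blockCoeff B (((n : N) : G)) * _
    rw [hBc, subgroupBlockCoeff_eq_ext0, ext0_coe]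
    rfl
  rw [e1, h1, e2, mapIrr_one]

/-- a block of `C_G(R)` covering a block of `C_N(R)` in a Brauer pair of `c` is in a Brauer pair
of `B` -/
theorem isBrauerPairOf_blockOf_of_over (hM : M.IsPrime) (N : Subgroup G) [N.Normal]
    (R' : Subgroup N) (R : Subgroup G) (hR : R'.map N.subtype = R)
    (c : Set (Cfsg.IrrCharacter N)) (B : Set (Cfsg.IrrCharacter G)) (hB : Cfsg.IsPBlock M B)
    (hBc : ∀ g : G, Cfsg.blockCoeff B g = Cfsg.subgroupBlockCoeff N c g)
    [Fintype (Subgroup.centralizer (R : Set G))]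
    [Fintype (N.subgroupOf (Subgroup.centralizer (R : Set G)))]
    {g' : Set (Cfsg.IrrCharacter (Subgroup.centralizer (R' : Set N)))}
    (hpair : Cfsg.IsBrauerPairOf p M c R' g')
    {θ' : Cfsg.IrrCharacter (Subgroup.centralizer (R' : Set N))} (hθ' : θ' ∈ g')
    {ξ : Cfsg.IrrCharacter (Subgroup.centralizer (R : Set G))}
    (hover : Cfsg.classInner (fun k : N.subgroupOf (Subgroup.centralizer (R : Set G)) =>
      (ξ : Subgroup.centralizer (R : Set G) → ℂ) k)
      (mapIrr (centSubIso N R' R hR) θ' :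
        N.subgroupOf (Subgroup.centralizer (R : Set G)) → ℂ) ≠ 0) :
    Cfsg.IsBrauerPairOf p M B R (Cfsg.blockOf M (ξ : Subgroup.centralizer (R : Set G) → ℂ)) := by
  refine ⟨⟨?_, ⟨ξ, rfl⟩⟩, hB, ?_⟩
  · rw [← hR]
    exact hpair.1.1.map _
  · intro ξ₁ hξ₁
    have hadm : BrAdm M R (Cfsg.blockCoeff B) :=
      brAdm_of_isClassFunction (memLocalRing_blockCoeff' hM B hB) (blockCoeff_isClassFunction B)
    have h1 := memLocalIdeal_brauerOmega_sub_of_sameBlock hM R (sameBlock_symm hξ₁) hadm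
    rw [brauerOmega_eq_of_over N R' R hR c B hBc ξ _ hover, mapIrr_symm_mapIrr] at h1
    have h2 := hpair.2.2 θ' hθ'
    have e : Cfsg.brauerOmega R (Cfsg.blockCoeff B)
        (ξ₁ : Subgroup.centralizer (R : Set G) → ℂ) - 1 =
        (Cfsg.brauerOmega R (Cfsg.blockCoeff B) (ξ₁ : Subgroup.centralizer (R : Set G) → ℂ) -
          Cfsg.brauerOmega R' (Cfsg.blockCoeff c)
            (θ' : Subgroup.centralizer (R' : Set N) → ℂ)) +
        (Cfsg.brauerOmega R' (Cfsg.blockCoeff c)
          (θ' : Subgroup.centralizer (R' : Set N) → ℂ) - 1) := by ring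
    rw [e]
    exact memLocalIdeal_add hM h1 h2

/-- a block of `C_N(R)` covered by a block of `C_G(R)` in a Brauer pair of `B` is in a Brauer
pair of `c` -/
theorem isBrauerPairOf_mapSet_of_under (hM : M.IsPrime) (N : Subgroup G) [N.Normal]
    (R' : Subgroup N) (R : Subgroup G) (hR : R'.map N.subtype = R)
    (c : Set (Cfsg.IrrCharacter N)) (hc : Cfsg.IsPBlock M c) (B : Set (Cfsg.IrrCharacter G))
    (hBc : ∀ g : G, Cfsg.blockCoeff B g = Cfsg.subgroupBlockCoeff N c g)
    [Fintype (Subgroup.centralizer (R : Set G))]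
    [Fintype (N.subgroupOf (Subgroup.centralizer (R : Set G)))]
    {e : Set (Cfsg.IrrCharacter (Subgroup.centralizer (R : Set G)))}
    (hpair : Cfsg.IsBrauerPairOf p M B R e)
    {ξ : Cfsg.IrrCharacter (Subgroup.centralizer (R : Set G))} (hξ : ξ ∈ e)
    {θ : Cfsg.IrrCharacter (N.subgroupOf (Subgroup.centralizer (R : Set G)))}
    (hover : Cfsg.classInner (fun k : N.subgroupOf (Subgroup.centralizer (R : Set G)) =>
      (ξ : Subgroup.centralizer (R : Set G) → ℂ) k)
      (θ : N.subgroupOf (Subgroup.centralizer (R : Set G)) → ℂ) ≠ 0) :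
    Cfsg.IsBrauerPairOf p M c R' (mapSet (centSubIso N R' R hR).symm
      (Cfsg.blockOf M (θ : N.subgroupOf (Subgroup.centralizer (R : Set G)) → ℂ))) := by
  have hfinN : Fintype N := Fintype.ofFinite _
  refine ⟨⟨?_, isPBlock_mapSet hM _ ⟨θ, rfl⟩⟩, hc, ?_⟩
  · have h1 : IsPGroup p (R'.map N.subtype) := by rw [hR]; exact hpair.1.1
    exact h1.of_equiv
      (Subgroup.equivMapOfInjective R' N.subtype (Subgroup.subtype_injective N)).symm
  · rintro θ₁' ⟨θ₁, hθ₁, rfl⟩
    have hadm : BrAdm M R' (Cfsg.blockCoeff c) :=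
      brAdm_of_isClassFunction (memLocalRing_blockCoeff' hM c hc) (blockCoeff_isClassFunction c)
    have hsb : Cfsg.SameBlock M
        (mapIrr (centSubIso N R' R hR).symm θ₁ : Subgroup.centralizer (R' : Set N) → ℂ)
        (mapIrr (centSubIso N R' R hR).symm θ : Subgroup.centralizer (R' : Set N) → ℂ) :=
      (sameBlock_mapIrr_iff _ _ _).mpr (sameBlock_symm hθ₁)
    have h1 := memLocalIdeal_brauerOmega_sub_of_sameBlock hM R' hsb hadm
    rw [← brauerOmega_eq_of_over N R' R hR c B hBc ξ θ hover] at h1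
    have h2 := hpair.2.2 ξ hξ
    have e : Cfsg.brauerOmega R' (Cfsg.blockCoeff c)
        (mapIrr (centSubIso N R' R hR).symm θ₁ : Subgroup.centralizer (R' : Set N) → ℂ) - 1 =
        (Cfsg.brauerOmega R' (Cfsg.blockCoeff c)
          (mapIrr (centSubIso N R' R hR).symm θ₁ : Subgroup.centralizer (R' : Set N) → ℂ) -
          Cfsg.brauerOmega R (Cfsg.blockCoeff B)
            (ξ : Subgroup.centralizer (R : Set G) → ℂ)) +
        (Cfsg.brauerOmega R (Cfsg.blockCoeff B)
          (ξ : Subgroup.centralizer (R : Set G) → ℂ) - 1) := by ring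
    rw [e]
    exact memLocalIdeal_add hM h1 h2

omit [Fintype G] in
/-- the isomorphism `C_N(R) ≅ N ∩ C_G(R)` intertwines the conjugation actions -/
theorem mapSet_conjK_centSubIso (N : Subgroup G) [N.Normal] (R' : Subgroup N) (R : Subgroup G)
    (hR : R'.map N.subtype = R) (n : N)
    (hn' : n ∈ Subgroup.normalizer
      ((Subgroup.centralizer (R' : Set N) : Subgroup N) : Set N))
    (hy : (n : G) ∈
      Subgroup.normalizer ((Subgroup.centralizer (R : Set G) : Subgroup G) : Set G))
    (g' : Set (Cfsg.IrrCharacter (Subgroup.centralizer (R' : Set N)))) :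
    mapSet (conjK N R (n : G) hy) (mapSet (centSubIso N R' R hR) g') =
      mapSet (centSubIso N R' R hR) (conjSet (Subgroup.centralizer (R' : Set N)) n hn' g') := by
  unfold conjSet
  rw [← mapSet_trans, ← mapSet_trans]
  apply mapSet_congr
  intro k
  apply Subtype.ext
  apply Subtype.ext
  rfl

end Cent

section Main

variable {G : Type*} [Group G] [Fintype G] {M : Ideal Cfsg.AlgInt} {p : ℕ} [Fact p.Prime]

/-- **Nilpotent blocks and normal subgroups of `p`-power index, downwards.** -/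
theorem isNilpotentBlock_of_pindex_down (hM : Cfsg.IsPModular p M) (N : Subgroup G) [N.Normal]
    (hN : ∃ k : ℕ, N.index = p ^ k) (c : Set (Cfsg.IrrCharacter N)) (hc : Cfsg.IsPBlock M c)
    (B : Set (Cfsg.IrrCharacter G)) (hB : Cfsg.IsPBlock M B)
    (hBc : ∀ g : G, Cfsg.blockCoeff B g = Cfsg.subgroupBlockCoeff N c g)
    (hnil : Cfsg.IsNilpotentBlock p M B) : Cfsg.IsNilpotentBlock p M c := by
  classical
  have hMp := isPrime_of_isPModular hM
  have hfinN : Fintype N := Fintype.ofFinite _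
  refine ⟨hc, ?_⟩
  intro R' g' hpair x hx hstab hreg
  have hfinC : Fintype (Subgroup.centralizer ((R'.map N.subtype : Subgroup G) : Set G)) :=
    Fintype.ofFinite _
  have hfinK : Fintype (N.subgroupOf
      (Subgroup.centralizer ((R'.map N.subtype : Subgroup G) : Set G))) := Fintype.ofFinite _
  obtain ⟨θ', hθ'⟩ := IsPBlock.nonempty hMp hpair.1.2
  obtain ⟨ξ, hover⟩ := exists_irr_over
    (N.subgroupOf (Subgroup.centralizer ((R'.map N.subtype : Subgroup G) : Set G)))
    (mapIrr (centSubIso N R' _ rfl) θ')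
  have hpairG := isBrauerPairOf_blockOf_of_over hMp N R' _ rfl c B hB hBc hpair hθ' hover
  have hxR : (x : G) ∈ Subgroup.normalizer ((R'.map N.subtype : Subgroup G) : Set G) :=
    coe_mem_normalizer_of_mem N R' _ rfl hx
  have hxC := normalizer_le_normalizer_centralizer _ hxR
  have hstabG : Cfsg.StabilizesBlock
      (Subgroup.centralizer ((R'.map N.subtype : Subgroup G) : Set G))
      (Cfsg.blockOf M (ξ : Subgroup.centralizer
        ((R'.map N.subtype : Subgroup G) : Set G) → ℂ)) (x : G) := by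
    rw [stabilizesBlock_iff _ _ _ hxC]
    unfold conjSet
    rw [mapSet_blockOf_eq_of_over hM
      (N.subgroupOf (Subgroup.centralizer ((R'.map N.subtype : Subgroup G) : Set G)))
      (index_subgroupOf_pow N hN _) (conjAut _ (x : G) hxC)
      (mem_subgroupOf_conjAut_iff N _ (x : G) hxC)
      (isPBlock_mapSet hMp (centSubIso N R' _ rfl) hpair.1.2) ?_ ⟨θ', hθ', rfl⟩ hover]
    show mapSet (conjK N _ (x : G) hxC) (mapSet (centSubIso N R' _ rfl) g') ⊆ _
    rw [mapSet_conjK_centSubIso N R' _ rfl x hstab.1 hxC g']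
    exact mapSet_mono _ ((stabilizesBlock_iff _ _ _ hstab.1).mp hstab)
  have hregG : Cfsg.IsPRegular p (x : G) := by
    unfold Cfsg.IsPRegular
    rw [Subgroup.orderOf_coe]
    exact hreg
  have hcent := hnil.2 _ _ hpairG (x : G) hxR hstabG hregG
  rw [Subgroup.mem_centralizer_iff] at hcent ⊢
  intro r' hr'
  apply Subtype.ext
  exact hcent (r' : G) ⟨r', hr', rfl⟩

/-- **Nilpotent blocks and normal subgroups of `p`-power index, upwards.** -/
theorem isNilpotentBlock_of_pindex_up (hM : Cfsg.IsPModular p M) (N : Subgroup G) [hNn : N.Normal]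
    (hN : ∃ k : ℕ, N.index = p ^ k) (c : Set (Cfsg.IrrCharacter N)) (hc : Cfsg.IsPBlock M c)
    (B : Set (Cfsg.IrrCharacter G)) (hB : Cfsg.IsPBlock M B)
    (hBc : ∀ g : G, Cfsg.blockCoeff B g = Cfsg.subgroupBlockCoeff N c g)
    (hnil : Cfsg.IsNilpotentBlock p M c) : Cfsg.IsNilpotentBlock p M B := by
  classical
  have hp : p.Prime := Fact.out
  have hMp := isPrime_of_isPModular hM
  have hfinN : Fintype N := Fintype.ofFinite _
  refine ⟨hB, ?_⟩
  intro Q e hpair x hx hstab hreg
  have hxN : x ∈ N := by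
    by_contra h
    exact hreg (dvd_orderOf_of_not_mem N hN h)
  obtain ⟨R, hRdef⟩ : ∃ R : Subgroup G, R = Q ⊓ N := ⟨_, rfl⟩
  have hRQ : R ≤ Q := hRdef ▸ inf_le_left
  have hRN : R ≤ N := hRdef ▸ inf_le_right
  have hR : (R.subgroupOf N).map N.subtype = R := Subgroup.map_subgroupOf_eq_of_le hRN
  obtain ⟨ê, hê, hle⟩ := exists_subpairLE hM Q e hpair.1 _ R hRQ le_rfl
  have hpairR : Cfsg.IsBrauerPairOf p M B R ê :=
    isBrauerPairOf_of_subpairLE_down hM (a := ⟨R, ê⟩) (b := ⟨Q, e⟩) hle hpair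
  have hxR : x ∈ Subgroup.normalizer (R : Set G) := by
    rw [Subgroup.mem_normalizer_iff]
    intro r
    rw [hRdef, Subgroup.mem_inf, Subgroup.mem_inf]
    constructor
    · rintro ⟨h1, h2⟩
      exact ⟨(Subgroup.mem_normalizer_iff.mp hx r).mp h1, hNn.conj_mem r h2 x⟩
    · rintro ⟨h1, h2⟩
      refine ⟨(Subgroup.mem_normalizer_iff.mp hx r).mpr h1, ?_⟩
      have := hNn.conj_mem _ h2 x⁻¹
      have e : x⁻¹ * (x * r * x⁻¹) * x⁻¹⁻¹ = r := by group
      rwa [e] at this
  have hstabR : Cfsg.StabilizesBlock (Subgroup.centralizer (R : Set G)) ê x :=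
    stabilizesBlock_of_subpairLE hM hpair.1 hle hx hstab hxR
  have hxC := normalizer_le_normalizer_centralizer R hxR
  have hfinC : Fintype (Subgroup.centralizer (R : Set G)) := Fintype.ofFinite _
  have hfinK : Fintype (N.subgroupOf (Subgroup.centralizer (R : Set G))) := Fintype.ofFinite _
  obtain ⟨ξ, hξ⟩ := IsPBlock.nonempty hMp hê
  obtain ⟨θ, hover⟩ := exists_irr_under (N.subgroupOf (Subgroup.centralizer (R : Set G))) ξ
  have hpairN := isBrauerPairOf_mapSet_of_under hMp N (R.subgroupOf N) R hR c hc B hBc hpairR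
    hξ hover
  have hξ₂ : mapIrr (conjAut _ x hxC) ξ ∈ ê :=
    ((stabilizesBlock_iff _ _ _ hxC).mp hstabR) ⟨ξ, hξ, rfl⟩
  have hover₂ : Cfsg.classInner (fun k : N.subgroupOf (Subgroup.centralizer (R : Set G)) =>
      (mapIrr (conjAut _ x hxC) ξ : Subgroup.centralizer (R : Set G) → ℂ) k)
      (mapIrr (conjK N R x hxC) θ :
        N.subgroupOf (Subgroup.centralizer (R : Set G)) → ℂ) ≠ 0 := by
    unfold conjK
    rw [classInner_mapIrr_resAut]
    exact hover
  obtain ⟨a, ha⟩ := exists_conjIrr_mem_of_over hMp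
    (N.subgroupOf (Subgroup.centralizer (R : Set G))) hê
    (b := Cfsg.blockOf M (θ : N.subgroupOf (Subgroup.centralizer (R : Set G)) → ℂ)) ⟨θ, rfl⟩
    hξ hξ₂ (mem_blockOf_self hMp θ) hover hover₂
  have haC : (a : G) ∈
      Subgroup.normalizer ((Subgroup.centralizer (R : Set G) : Subgroup G) : Set G) :=
    Subgroup.le_normalizer a.2
  have haxC := mul_mem haC hxC
  have hx' : (a : G) * x ∈ stabK N R
      (Cfsg.blockOf M (θ : N.subgroupOf (Subgroup.centralizer (R : Set G)) → ℂ)) := by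
    rw [mem_stabK_iff]
    refine ⟨haxC, ?_⟩
    rw [mapSet_blockOf hMp]
    have e : mapIrr (conjK N R ((a : G) * x) haxC) θ =
        conjIrr (N.subgroupOf (Subgroup.centralizer (R : Set G)))
          (mapIrr (conjK N R x hxC) θ) a := by
      rw [conjIrr_eq_mapIrr (N.subgroupOf (Subgroup.centralizer (R : Set G))) _ a
        (fun k => by
          rw [Subgroup.mem_subgroupOf, Subgroup.mem_subgroupOf]
          show (k : G) ∈ N ↔ (a : G) * (k : G) * (a : G)⁻¹ ∈ N
          constructor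
          · intro h; exact hNn.conj_mem _ h _
          · intro h
            have := hNn.conj_mem _ h (a : G)⁻¹
            have e : (a : G)⁻¹ * ((a : G) * (k : G) * (a : G)⁻¹) * (a : G)⁻¹⁻¹ = (k : G) := by
              group
            rwa [e] at this), ← mapIrr_trans]
      apply mapIrr_congr
      intro k
      apply Subtype.ext
      apply Subtype.ext
      show (a : G) * x * ((k : Subgroup.centralizer (R : Set G)) : G) * ((a : G) * x)⁻¹ =
        (a : G) * (x * ((k : Subgroup.centralizer (R : Set G)) : G) * x⁻¹) * (a : G)⁻¹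
      group
    rw [e, ← IsPBlock.eq_blockOf hMp ⟨θ, rfl⟩ ha]
  obtain ⟨k, m, hpm, hord⟩ :=
    Nat.exists_eq_pow_mul_and_not_dvd (orderOf_pos ((a : G) * x)).ne' p hp.ne_one
  have hx'' := pow_mem hx' (p ^ k)
  have hreg'' : Cfsg.IsPRegular p (((a : G) * x) ^ (p ^ k)) := isPRegular_pow_of_orderOf hpm hord
  have hx''N : ((a : G) * x) ^ (p ^ k) ∈ N := by
    by_contra h
    exact hreg'' (dvd_orderOf_of_not_mem N hN h)
  obtain ⟨hy'', hsub⟩ := (mem_stabK_iff _ _ _ _).mp hx''
  have haxR : (a : G) * x ∈ Subgroup.normalizer (R : Set G) :=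
    mul_mem (Subgroup.centralizer_le_normalizer _ a.2) hxR
  have hx''R : ((a : G) * x) ^ (p ^ k) ∈ Subgroup.normalizer (R : Set G) := pow_mem haxR _
  have hnR' : (⟨((a : G) * x) ^ (p ^ k), hx''N⟩ : N) ∈
      Subgroup.normalizer ((R.subgroupOf N : Subgroup N) : Set N) := by
    rw [Subgroup.mem_normalizer_iff]
    intro r'
    rw [Subgroup.mem_subgroupOf, Subgroup.mem_subgroupOf]
    exact Subgroup.mem_normalizer_iff.mp hx''R (r' : G)
  have hn' := normalizer_le_normalizer_centralizer (R.subgroupOf N) hnR'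
  have hstabN : Cfsg.StabilizesBlock (Subgroup.centralizer ((R.subgroupOf N : Subgroup N) : Set N))
      (mapSet (centSubIso N (R.subgroupOf N) R hR).symm
        (Cfsg.blockOf M (θ : N.subgroupOf (Subgroup.centralizer (R : Set G)) → ℂ)))
      (⟨((a : G) * x) ^ (p ^ k), hx''N⟩ : N) := by
    rw [stabilizesBlock_iff _ _ _ hn']
    have h1 := mapSet_conjK_centSubIso N (R.subgroupOf N) R hR
      (⟨((a : G) * x) ^ (p ^ k), hx''N⟩ : N) hn' hy''
      (mapSet (centSubIso N (R.subgroupOf N) R hR).symm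
        (Cfsg.blockOf M (θ : N.subgroupOf (Subgroup.centralizer (R : Set G)) → ℂ)))
    rw [mapSet_mapSet_symm] at h1
    have h2 := mapSet_mono (centSubIso N (R.subgroupOf N) R hR).symm (h1 ▸ hsub)
    rwa [mapSet_symm_mapSet] at h2
  have hregN : Cfsg.IsPRegular p (⟨((a : G) * x) ^ (p ^ k), hx''N⟩ : N) := by
    unfold Cfsg.IsPRegular
    rw [← Subgroup.orderOf_coe]
    exact hreg''
  have hcentN := hnil.2 (R.subgroupOf N) _ hpairN _ hnR' hstabN hregN
  have hpowR : x ^ (p ^ k) ∈ Subgroup.centralizer (R : Set G) := by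
    rw [Subgroup.mem_centralizer_iff]
    intro r hr
    have h1 := Subgroup.mem_centralizer_iff.mp hcentN ⟨r, hRN hr⟩ (Subgroup.mem_subgroupOf.mpr hr)
    have h2 : r * ((a : G) * x) ^ (p ^ k) = ((a : G) * x) ^ (p ^ k) * r :=
      congrArg Subtype.val h1
    have h3 := conj_pow_mul_eq R a.2 hxR (p ^ k) r hr
    have h4 : ((a : G) * x) ^ (p ^ k) * r * (((a : G) * x) ^ (p ^ k))⁻¹ = r := by
      rw [← h2]; group
    rw [h4] at h3
    calc r * x ^ (p ^ k) = (x ^ (p ^ k) * r * (x ^ (p ^ k))⁻¹) * x ^ (p ^ k) := by rw [← h3]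
      _ = x ^ (p ^ k) * r := by group
  have hxcR : x ∈ Subgroup.centralizer (R : Set G) := by
    apply Cfsg.Agent.S4633.mem_of_pow_mem_of_coprime (Subgroup.centralizer (R : Set G))
      (a := p ^ k) (b := orderOf x)
      (Nat.Coprime.pow_left k ((Nat.Prime.coprime_iff_not_dvd hp).mpr hreg)) hpowR
    rw [pow_orderOf_eq_one]
    exact one_mem _
  rw [hRdef] at hxcR
  exact mem_centralizer_of_centralizes_inf N Q hpair.1.1 hxN hx hreg hxcR

end Main

end Cfsg.Agent.Lib.Helper77
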