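import Mathlib
import Cfsg.Prelude.Def_Blocks
import Cfsg.Prelude.Def_BlockLocal
import Cfsg.Prelude.Def_BrauerPairs
import Cfsg.Agent.Lib.Helper77.IdemSet

/-!
# Brauer pairs on a normal `p`-subgroup

For a normal `p`-subgroup `P` and a Brauer pair `(P, e)` of the block `B`: the idempotent of
`B` is the sum of the distinct conjugates of the idempotent of `e`.
-/

set_option autoImplicit false
set_option linter.unusedSectionVars false

namespace Cfsg.Agent.Lib.Helper77

open Cfsg Cfsg.Agent.Lib.Helper16 Cfsg.Agent.Lib.Helper81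

section NormalPair

variable {G : Type*} [Group G] [Fintype G] {M : Ideal Cfsg.AlgInt}

/-- the idempotent of `B` is the idempotent of the union of the conjugates of `e` -/
theorem blockCoeff_eq_ext0_normOrbitUnion {p : ℕ} [Fact p.Prime] (hM : Cfsg.IsPModular p M)
    (P : Subgroup G) [P.Normal] (hP : IsPGroup p P) {B : Set (Cfsg.IrrCharacter G)}
    {e : Set (Cfsg.IrrCharacter (Subgroup.centralizer (P : Set G)))}
    (hBe : Cfsg.IsBrauerPairOf p M B P e) :
    Cfsg.blockCoeff B =
      ext0 (Subgroup.centralizer (P : Set G)) (Cfsg.blockCoeff (normOrbitUnion P e)) := by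
  classical
  have hMp := isPrime_of_isPModular hM
  obtain ⟨⟨-, he⟩, hB, hω⟩ := hBe
  have hfinC : Fintype (Subgroup.centralizer (P : Set G)) := Fintype.ofFinite _
  have hx : ∀ x : G, x ∈ Subgroup.normalizer (P : Set G) := by
    intro x
    rw [Subgroup.normalizer_eq_top P]
    trivial
  have hU := isBlockUnion_normOrbitUnion hMp P he
  have hbR : LocInt M (ext0 (Subgroup.centralizer (P : Set G))
      (Cfsg.blockCoeff (normOrbitUnion P e))) :=
    locInt_ext0 hMp _ (locInt_blockCoeff_of_isBlockUnion hMp _ hU)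
  have hbN : InvBy (Subgroup.normalizer (P : Set G)) (ext0 (Subgroup.centralizer (P : Set G))
      (Cfsg.blockCoeff (normOrbitUnion P e))) :=
    invBy_ext0_blockCoeff_of_stabilizes (stabilizes_normOrbitUnion P e)
  have hbc : Cfsg.IsClassFunction G (ext0 (Subgroup.centralizer (P : Set G))
      (Cfsg.blockCoeff (normOrbitUnion P e))) := fun g h => hbN h (hx h) g
  have hbidem : conv (ext0 (Subgroup.centralizer (P : Set G))
      (Cfsg.blockCoeff (normOrbitUnion P e))) (ext0 (Subgroup.centralizer (P : Set G))
      (Cfsg.blockCoeff (normOrbitUnion P e))) = ext0 (Subgroup.centralizer (P : Set G))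
      (Cfsg.blockCoeff (normOrbitUnion P e)) := by
    rw [conv_ext0, conv_blockCoeff_self]
  have hb := eq_blockCoeff_idemSet hbc hbidem
  have hbU := isBlockUnion_idemSet hMp hbc hbidem hbR
  -- the idempotent of `B` is supported on the centralizer
  have hBext : Cfsg.blockCoeff B = ext0 (Subgroup.centralizer (P : Set G))
      (res (Subgroup.centralizer (P : Set G)) (Cfsg.blockCoeff B)) := by
    funext g
    by_cases hg : g ∈ Subgroup.centralizer (P : Set G)
    · rw [ext0_res_of_mem _ _ hg]
    · rw [ext0_of_not_mem _ _ hg]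
      exact blockCoeff_eq_zero_of_not_mem_centralizer hM P hP B hB g hg
  have hβc : Cfsg.IsClassFunction (Subgroup.centralizer (P : Set G))
      (res (Subgroup.centralizer (P : Set G)) (Cfsg.blockCoeff B)) :=
    isClassFunction_res (invBy_of_isClassFunction (blockCoeff_isClassFunction B) _)
  have hβidem : conv (res (Subgroup.centralizer (P : Set G)) (Cfsg.blockCoeff B))
      (res (Subgroup.centralizer (P : Set G)) (Cfsg.blockCoeff B)) =
      res (Subgroup.centralizer (P : Set G)) (Cfsg.blockCoeff B) := by
    apply ext0_injective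
    rw [← conv_ext0, ← hBext, conv_blockCoeff_self]
  have hβ := eq_blockCoeff_idemSet hβc hβidem
  have hUA : normOrbitUnion P e ⊆
      idemSet (res (Subgroup.centralizer (P : Set G)) (Cfsg.blockCoeff B)) := by
    rintro ξ ⟨x, hx', hξ⟩
    have h1 : Cfsg.IsBrauerPairOf p M B P (conjBlockTo x P P e) :=
      isBrauerPairOf_conjBlockTo hMp x (map_conj_eq_of_mem_normalizer hx') ⟨⟨hP, he⟩, hB, hω⟩
    rw [conjBlockTo_eq_conjSet P x hx' e] at h1
    have h2 := h1.2.2 ξ hξ
    rw [brauerOmega_eq_omegaF, hβ, omegaF_blockCoeff_set] at h2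
    by_contra hn
    rw [if_neg hn, zero_sub] at h2
    have h3 := memLocalIdeal_neg h2
    rw [neg_neg] at h3
    exact not_memLocalIdeal_one hMp h3
  have hbB : conv (ext0 (Subgroup.centralizer (P : Set G))
      (Cfsg.blockCoeff (normOrbitUnion P e))) (Cfsg.blockCoeff B) =
      ext0 (Subgroup.centralizer (P : Set G)) (Cfsg.blockCoeff (normOrbitUnion P e)) := by
    conv_lhs => rw [hBext, hβ]
    rw [conv_ext0, conv_blockCoeff, Set.inter_eq_left.mpr hUA]
  have hsub : idemSet (ext0 (Subgroup.centralizer (P : Set G))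
      (Cfsg.blockCoeff (normOrbitUnion P e))) ⊆ B := by
    intro χ hχ
    have h1 : omegaF (χ : G → ℂ) (ext0 (Subgroup.centralizer (P : Set G))
        (Cfsg.blockCoeff (normOrbitUnion P e))) = 1 := hχ
    have h2 := omegaF_conv χ (ext0 (Subgroup.centralizer (P : Set G))
        (Cfsg.blockCoeff (normOrbitUnion P e))) (blockCoeff_isClassFunction B)
    rw [hbB, h1, one_mul, omegaF_blockCoeff_set] at h2
    by_contra hn
    rw [if_neg hn] at h2
    exact one_ne_zero h2
  have hne : (idemSet (ext0 (Subgroup.centralizer (P : Set G))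
      (Cfsg.blockCoeff (normOrbitUnion P e)))).Nonempty := by
    by_contra hcon
    rw [Set.not_nonempty_iff_eq_empty] at hcon
    rw [hcon, blockCoeff_empty] at hb
    have h2 : Cfsg.blockCoeff (normOrbitUnion P e) = 0 := by
      apply ext0_injective (Subgroup.centralizer (P : Set G))
      rw [hb, ext0_zero]
    obtain ⟨ξ, hξ⟩ := IsPBlock.nonempty hMp he
    exact blockCoeff_ne_zero ⟨ξ, subset_normOrbitUnion P e hξ⟩ h2
  have heq := eq_of_isBlockUnion_of_subset hMp hbU hne hB hsub
  rw [heq] at hb
  exact hb.symm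

/-- **Sum of conjugates.**  For a normal `p`-subgroup `P`, a Brauer pair `(P, e)` of `B` and
the stabilizer `T` of `e`, the idempotent of `B` is the sum over `G` of the conjugates of the
idempotent of `e`, divided by the order of `T`. -/
theorem blockCoeff_eq_sum_conj {p : ℕ} [Fact p.Prime] (hM : Cfsg.IsPModular p M)
    (P : Subgroup G) [P.Normal] (hP : IsPGroup p P) {B : Set (Cfsg.IrrCharacter G)}
    {e : Set (Cfsg.IrrCharacter (Subgroup.centralizer (P : Set G)))}
    (hBe : Cfsg.IsBrauerPairOf p M B P e) (T : Subgroup G)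
    (hT : ∀ x : G, x ∈ T ↔ Cfsg.StabilizesBlock (Subgroup.centralizer (P : Set G)) e x) (g : G) :
    Cfsg.blockCoeff B g = (Nat.card T : ℂ)⁻¹ *
      ∑ x : G, ext0 (Subgroup.centralizer (P : Set G)) (Cfsg.blockCoeff e) (x⁻¹ * g * x) := by
  classical
  have hMp := isPrime_of_isPModular hM
  have he := hBe.1.2
  have hfinC : Fintype (Subgroup.centralizer (P : Set G)) := Fintype.ofFinite _
  have hx : ∀ x : G, x ∈ Subgroup.normalizer (P : Set G) := by
    intro x
    rw [Subgroup.normalizer_eq_top P]
    trivial
  have hxc : ∀ x : G, x ∈ Subgroup.normalizer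
      ((Subgroup.centralizer (P : Set G) : Subgroup G) : Set G) :=
    fun x => normalizer_le_normalizer_centralizer P (hx x)
  have hTs : ∀ x ∈ T, Cfsg.StabilizesBlock (Subgroup.centralizer (P : Set G)) e x :=
    fun x hx => (hT x).mp hx
  have hTpos : (Nat.card T : ℂ) ≠ 0 := by exact_mod_cast Nat.card_pos.ne'
  -- the sum of the conjugate idempotents
  have key : ∑ x : G, Cfsg.blockCoeff (conjSet (Subgroup.centralizer (P : Set G)) x (hxc x) e) =
      (Nat.card T : ℂ) • Cfsg.blockCoeff (normOrbitUnion P e) := by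
    apply eq_of_omegaF_eq
    · exact isClassFunction_finset_sum _ _ (fun x _ => blockCoeff_isClassFunction _)
    · exact isClassFunction_smul _ (blockCoeff_isClassFunction _)
    · intro ξ
      rw [omegaF_finset_sum, omegaF_smul', omegaF_blockCoeff_set]
      simp only [omegaF_blockCoeff_set]
      by_cases hξ : ξ ∈ normOrbitUnion P e
      · rw [if_pos hξ, mul_one]
        obtain ⟨x₀, hx₀, hξ₀⟩ := hξ
        rw [← Fintype.sum_equiv (Equiv.mulLeft x₀)
          (fun y => if ξ ∈ conjSet (Subgroup.centralizer (P : Set G)) (x₀ * y) (hxc (x₀ * y)) e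
            then (1 : ℂ) else 0)
          (fun x => if ξ ∈ conjSet (Subgroup.centralizer (P : Set G)) x (hxc x) e
            then (1 : ℂ) else 0) (fun y => rfl)]
        have hiff : ∀ y : G, ξ ∈ conjSet (Subgroup.centralizer (P : Set G)) (x₀ * y)
            (hxc (x₀ * y)) e ↔ y ∈ T := by
          intro y
          rw [conjSet_mul _ x₀ y (hxc x₀) (hxc y) (hxc (x₀ * y))]
          constructor
          · intro h
            have hb1 := isPBlock_conjSet hMp _ x₀ (hxc x₀) he
            have hb2 := isPBlock_conjSet hMp _ x₀ (hxc x₀)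
              (isPBlock_conjSet hMp _ y (hxc y) he)
            have h1 : conjSet (Subgroup.centralizer (P : Set G)) x₀ (hxc x₀)
                (conjSet (Subgroup.centralizer (P : Set G)) y (hxc y) e) =
                conjSet (Subgroup.centralizer (P : Set G)) x₀ (hxc x₀) e := by
              rw [IsPBlock.eq_blockOf hMp hb2 h, IsPBlock.eq_blockOf hMp hb1 hξ₀]
            have h2 := congrArg (conjSet (Subgroup.centralizer (P : Set G)) x₀⁻¹ (hxc x₀⁻¹)) h1
            rw [conjSet_inv_conjSet, conjSet_inv_conjSet] at h2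
            rw [hT y, stabilizesBlock_iff _ _ y (hxc y), h2]
          · intro hy
            have h1 := conjSet_eq_of_stabilizes hTs hy
            rw [conjSet_congr _ rfl (hxc y) (hTs y hy).1 e, h1]
            exact hξ₀
        simp only [hiff]
        rw [Finset.sum_boole]
        congr 1
        rw [← Fintype.card_subtype, Nat.card_eq_fintype_card]
      · rw [if_neg hξ, mul_zero]
        apply Finset.sum_eq_zero
        intro x _
        rw [if_neg]
        intro h
        exact hξ ⟨x, hx x, h⟩
  rw [blockCoeff_eq_ext0_normOrbitUnion hM P hP hBe]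
  have h1 : ∑ x : G, ext0 (Subgroup.centralizer (P : Set G)) (Cfsg.blockCoeff e)
      (x⁻¹ * g * x) = ext0 (Subgroup.centralizer (P : Set G))
        (∑ x : G, Cfsg.blockCoeff (conjSet (Subgroup.centralizer (P : Set G)) x (hxc x) e)) g := by
    rw [ext0_finset_sum, Finset.sum_apply]
    refine Finset.sum_congr rfl fun x _ => ?_
    have h2 := ext0_blockCoeff_conjSet (Subgroup.centralizer (P : Set G)) x (hxc x) e
      (x⁻¹ * g * x)
    have e2 : x * (x⁻¹ * g * x) * x⁻¹ = g := by group
    rw [e2] at h2
    exact h2.symm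
  rw [h1, key, ext0_smul, Pi.smul_apply, smul_eq_mul, ← mul_assoc, inv_mul_cancel₀ hTpos,
    one_mul]

end NormalPair

end Cfsg.Agent.Lib.Helper77
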