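import Mathlib
import Cfsg.Prelude.Def_Blocks
import Cfsg.Prelude.Def_BlockRank
import Cfsg.Agent.S4666
import Cfsg.Agent.Lib.Helper76.PRegNorm
import Cfsg.Agent.Lib.Helper77.Degree
import Cfsg.Agent.Lib.Helper77.Osima
import Cfsg.Agent.Lib.Helper26.VChar
import Cfsg.Agent.Lib.Helper16.ClassSum

/-!
# Blocks of `p`-regular rank one

For a block `B` with `p`-regular rank one, every member of `B` is, on the `p`-regular elements, a
natural multiple `d_χ φ` of one function `φ`, and `∑ d_χ ^ 2` is the order of a defect group.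
-/

set_option autoImplicit false

namespace Cfsg.Agent.Lib.Helper77

open Cfsg Cfsg.Agent.Lib.Helper16 Cfsg.Agent.Lib.Helper26
open scoped ComplexConjugate

section

variable {G : Type*} [Group G] [Fintype G] {M : Ideal Cfsg.AlgInt} {p : ℕ} [Fact p.Prime]

/-- rank one: the members of `B` are proportional to a common function on `p`-regular elements,
with ratios given by the degrees -/
theorem exists_common_pRegular (B : Set (Cfsg.IrrCharacter G)) (hl : Cfsg.blockRank p B = 1) :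
    ∃ w : G → ℂ, ∀ χ ∈ B, ∀ x : G, Cfsg.IsPRegular p x →
      (χ : G → ℂ) x = (χ : G → ℂ) 1 * w x := by
  classical
  have hp : p.Prime := Fact.out
  unfold Cfsg.blockRank at hl
  obtain ⟨v, hv0, hv⟩ := finrank_eq_one_iff'.mp hl
  have h1reg : Cfsg.IsPRegular p (1 : G) := by
    unfold Cfsg.IsPRegular
    rw [orderOf_one]
    exact hp.one_lt.ne' ∘ Nat.dvd_one.mp
  have key : ∀ χ ∈ B, ∃ c : ℂ, ∀ x : G, c * (v : G → ℂ) x = Cfsg.pRegularPart p (χ : G → ℂ) x := by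
    intro χ hχ
    obtain ⟨c, hc⟩ := hv ⟨Cfsg.pRegularPart p (χ : G → ℂ), Submodule.subset_span ⟨χ, hχ, rfl⟩⟩
    refine ⟨c, fun x => ?_⟩
    have := congrArg (fun u : ↥(Submodule.span ℂ ((fun χ : Cfsg.IrrCharacter G =>
      Cfsg.pRegularPart p (χ : G → ℂ)) '' B)) => (u : G → ℂ) x) hc
    simpa using this
  have hreg : ∀ (χ : Cfsg.IrrCharacter G) (x : G), Cfsg.IsPRegular p x →
      Cfsg.pRegularPart p (χ : G → ℂ) x = (χ : G → ℂ) x := by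
    intro χ x hx
    unfold Cfsg.pRegularPart
    rw [if_pos hx]
  by_cases hBe : B.Nonempty
  · obtain ⟨χ₀, hχ₀⟩ := hBe
    obtain ⟨c₀, hc₀⟩ := key χ₀ hχ₀
    have hv1 : (v : G → ℂ) 1 ≠ 0 := by
      intro h0
      have := hc₀ 1
      rw [h0, mul_zero, hreg χ₀ 1 h1reg] at this
      exact irr_one_ne_zero χ₀ this.symm
    refine ⟨fun x => (v : G → ℂ) x / (v : G → ℂ) 1, ?_⟩
    intro χ hχ x hx
    obtain ⟨c, hc⟩ := key χ hχ
    have e1 := hc 1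
    have ex := hc x
    rw [hreg χ 1 h1reg] at e1
    rw [hreg χ x hx] at ex
    rw [← ex, ← e1]
    field_simp
  · exact ⟨fun _ => 0, fun χ hχ => absurd ⟨χ, hχ⟩ hBe⟩

/-- **Blocks of rank one.** -/
theorem rankOne_main (hM : Cfsg.IsPModular p M) (B : Set (Cfsg.IrrCharacter G))
    (hB : Cfsg.IsPBlock M B) (P : Subgroup G) (hP : Cfsg.IsDefectGroup p M B P)
    (hl : Cfsg.blockRank p B = 1) :
    ∃ φ : G → ℂ, ∃ d : Cfsg.IrrCharacter G → ℕ,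
      (∃ n : Cfsg.IrrCharacter G → ℤ, ∀ x : G, Cfsg.IsPRegular p x →
        φ x = ∑ᶠ ψ ∈ B, (n ψ : ℂ) * (ψ : G → ℂ) x) ∧
      (∀ χ ∈ B, ∀ x : G, Cfsg.IsPRegular p x → (χ : G → ℂ) x = (d χ : ℂ) * φ x) ∧
      ∑ᶠ χ ∈ B, d χ ^ 2 = Nat.card P := by
  classical
  have hp : p.Prime := Fact.out
  have hMp := isPrime_of_isPModular hM
  have hfinI : Finite (Cfsg.IrrCharacter G) := irr_finite G
  have hfI : Fintype (Cfsg.IrrCharacter G) := Fintype.ofFinite _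
  obtain ⟨w, hw⟩ := exists_common_pRegular B hl
  obtain ⟨χ₀, hχ₀⟩ := IsPBlock.nonempty hMp hB
  have hcard : Nat.card P = p ^ Cfsg.blockDefect p B := card_isDefectGroup hM B hB P hP
  have hdeg : ∀ χ : Cfsg.IrrCharacter G,
      (χ : G → ℂ) 1 = (Cfsg.charDegree (χ : G → ℂ) : ℂ) ∧ 0 < Cfsg.charDegree (χ : G → ℂ) ∧
        Cfsg.charDegree (χ : G → ℂ) ∣ Nat.card G :=
    fun χ => Cfsg.Agent.Lib.Helper79.irr_charDegree χ.2
  obtain ⟨Bf, hBf⟩ : ∃ Bf : Finset (Cfsg.IrrCharacter G), B = (Bf : Set (Cfsg.IrrCharacter G)) :=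
    ⟨Finset.univ.filter (· ∈ B), by ext χ; simp⟩
  subst hBf
  have hχ₀' : χ₀ ∈ Bf := Finset.mem_coe.mp hχ₀
  obtain ⟨g, hg⟩ : ∃ g : ℕ, g = Bf.gcd (fun χ => Cfsg.charDegree (χ : G → ℂ)) := ⟨_, rfl⟩
  have hgdvd : ∀ χ ∈ Bf, g ∣ Cfsg.charDegree (χ : G → ℂ) :=
    fun χ hχ => by
      rw [hg]
      exact Finset.gcd_dvd (f := fun χ : Cfsg.IrrCharacter G => Cfsg.charDegree (χ : G → ℂ)) hχ
  have hg0 : g ≠ 0 := by
    rintro rfl
    exact (hdeg χ₀).2.1.ne' (Nat.eq_zero_of_zero_dvd (hgdvd χ₀ hχ₀'))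
  have hg0' : (g : ℂ) ≠ 0 := by exact_mod_cast hg0
  -- Bezout
  obtain ⟨k, hk⟩ := Finset.gcd_eq_sum_mul (R := ℤ) Bf
    (fun χ => (Cfsg.charDegree (χ : G → ℂ) : ℤ))
  have hGdvd : Bf.gcd (fun χ => (Cfsg.charDegree (χ : G → ℂ) : ℤ)) ∣ (g : ℤ) := by
    have h1 : ∀ χ ∈ Bf, (Bf.gcd (fun χ => (Cfsg.charDegree (χ : G → ℂ) : ℤ))).natAbs ∣
        Cfsg.charDegree (χ : G → ℂ) := by
      intro χ hχ
      have := Finset.gcd_dvd
        (f := fun χ : Cfsg.IrrCharacter G => (Cfsg.charDegree (χ : G → ℂ) : ℤ)) hχ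
      have h3 := Int.natAbs_dvd_natAbs.mpr this
      simpa using h3
    have h2 : (Bf.gcd (fun χ => (Cfsg.charDegree (χ : G → ℂ) : ℤ))).natAbs ∣ g := by
      rw [hg]
      exact Finset.dvd_gcd h1
    exact Int.natAbs_dvd.mp (Int.natCast_dvd_natCast.mpr h2)
  obtain ⟨t, ht⟩ := hGdvd
  obtain ⟨n, hn⟩ : ∃ n : Cfsg.IrrCharacter G → ℤ, n = fun χ => k χ * t := ⟨_, rfl⟩
  have hbez : ∑ χ ∈ Bf, (Cfsg.charDegree (χ : G → ℂ) : ℤ) * n χ = (g : ℤ) := by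
    rw [ht, hk, Finset.sum_mul, hn]
    exact Finset.sum_congr rfl fun χ _ => by ring
  obtain ⟨d, hd⟩ : ∃ d : Cfsg.IrrCharacter G → ℕ,
      d = fun χ : Cfsg.IrrCharacter G => Cfsg.charDegree (χ : G → ℂ) / g := ⟨_, rfl⟩
  have hdg : ∀ χ ∈ Bf, Cfsg.charDegree (χ : G → ℂ) = d χ * g := by
    intro χ hχ
    rw [hd]
    exact (Nat.div_mul_cancel (hgdvd χ hχ)).symm
  have hd0 : ∀ χ ∈ Bf, d χ ≠ 0 := by
    intro χ hχ h0
    have := hdg χ hχ
    rw [h0, zero_mul] at this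
    exact (hdeg χ).2.1.ne' this
  have hone : ∀ χ ∈ Bf, (χ : G → ℂ) 1 = (d χ : ℂ) * (g : ℂ) := by
    intro χ hχ
    rw [(hdeg χ).1, hdg χ hχ]
    push_cast
    ring
  obtain ⟨φ, hφ⟩ : ∃ φ : G → ℂ, φ = fun x => (g : ℂ) * w x := ⟨_, rfl⟩
  have hχφ : ∀ χ ∈ Bf, ∀ x : G, Cfsg.IsPRegular p x → (χ : G → ℂ) x = (d χ : ℂ) * φ x := by
    intro χ hχ x hx
    rw [hw χ (Finset.mem_coe.mpr hχ) x hx, hone χ hχ, hφ]
    ring
  have hbez1 : ∑ χ ∈ Bf, (d χ : ℤ) * n χ = 1 := by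
    have h1 : (∑ χ ∈ Bf, (d χ : ℤ) * n χ) * (g : ℤ) = (g : ℤ) := by
      rw [Finset.sum_mul]
      refine Eq.trans (Finset.sum_congr rfl fun χ hχ => ?_) hbez
      rw [hdg χ hχ]
      push_cast
      ring
    have hgz : (g : ℤ) ≠ 0 := by exact_mod_cast hg0
    exact mul_right_cancel₀ hgz (by rw [h1, one_mul])
  refine ⟨φ, d, ⟨n, ?_⟩, fun χ hχ => hχφ χ (Finset.mem_coe.mp hχ), ?_⟩
  · intro x hx
    rw [finsum_mem_coe_finset]
    have h1 : ∑ ψ ∈ Bf, (n ψ : ℂ) * (ψ : G → ℂ) x =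
        ((∑ ψ ∈ Bf, (d ψ : ℤ) * n ψ : ℤ) : ℂ) * φ x := by
      push_cast
      rw [Finset.sum_mul]
      apply Finset.sum_congr rfl
      intro ψ hψ
      rw [hχφ ψ hψ x hx]
      ring
    rw [h1, hbez1]
    simp
  · rw [finsum_mem_coe_finset, hcard]
    obtain ⟨s, hs⟩ : ∃ s : ℕ, s = ∑ χ ∈ Bf, d χ ^ 2 := ⟨_, rfl⟩
    rw [← hs]
    obtain ⟨dB, hdB⟩ : ∃ dB : ℕ, dB = Cfsg.blockDefect p (Bf : Set (Cfsg.IrrCharacter G)) :=
      ⟨_, rfl⟩
    rw [← hdB]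
    have hs0 : s ≠ 0 := by
      rw [hs]
      intro h0
      have := Finset.sum_eq_zero_iff.mp h0 χ₀ hχ₀'
      exact hd0 χ₀ hχ₀' ((pow_eq_zero_iff (two_ne_zero)).mp this)
    have hcG : (Nat.card G : ℂ) ≠ 0 := by
      exact_mod_cast Nat.card_pos.ne'
    -- (3a) s ∣ p ^ dB
    obtain ⟨Nφ, hNφ⟩ : ∃ Nφ : ℂ, Nφ = (Nat.card G : ℂ)⁻¹ *
        ∑ x : G, Cfsg.pRegularPart p φ x * conj (φ x) := ⟨_, rfl⟩
    have hm : ∀ ψ₁ : Cfsg.IrrCharacter G, ψ₁ ∈ Bf → ∃ m : Cfsg.IrrCharacter G → ℤ,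
        ∀ x : G, (p ^ dB : ℂ) * Cfsg.pRegularPart p (ψ₁ : G → ℂ) x =
          ∑ ψ ∈ Bf, (m ψ : ℂ) * (ψ : G → ℂ) x := by
      intro ψ₁ hψ₁
      obtain ⟨m, hm⟩ := Cfsg.Agent.S4666.result p M hM (Bf : Set (Cfsg.IrrCharacter G)) hB
        (ψ₁ : G → ℂ) ⟨fun ψ => if ψ = ψ₁ then 1 else 0, fun x => by
          rw [finsum_mem_coe_finset, Finset.sum_eq_single ψ₁]
          · simp
          · intro ψ _ hne
            simp [hne]
          · intro h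
            exact absurd hψ₁ h⟩
      refine ⟨m, fun x => ?_⟩
      rw [hdB, hm x, finsum_mem_coe_finset]
    choose! m hm using hm
    have hE1 : ∀ ψ₁ ∈ Bf, ∀ ψ₂ ∈ Bf,
        (m ψ₁ ψ₂ : ℂ) = (p ^ dB : ℂ) * (d ψ₁ : ℂ) * (d ψ₂ : ℂ) * Nφ := by
      intro ψ₁ hψ₁ ψ₂ hψ₂
      have hexp : (fun x : G => (p ^ dB : ℂ) * Cfsg.pRegularPart p (ψ₁ : G → ℂ) x) =
          ∑ ψ : Cfsg.IrrCharacter G, (if ψ ∈ Bf then (m ψ₁ ψ : ℂ) else 0) • (ψ : G → ℂ) := by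
        funext x
        rw [hm ψ₁ hψ₁ x, Finset.sum_apply]
        simp only [Pi.smul_apply, smul_eq_mul, ite_mul, zero_mul]
        rw [Finset.sum_ite_mem, Finset.univ_inter]
      have h1 := classInner_expansion_irr
        (fun ψ : Cfsg.IrrCharacter G => if ψ ∈ Bf then (m ψ₁ ψ : ℂ) else 0) ψ₂
      rw [← hexp, if_pos hψ₂] at h1
      rw [← h1, hNφ]
      unfold Cfsg.classInner
      rw [mul_comm ((p ^ dB : ℂ) * (d ψ₁ : ℂ) * (d ψ₂ : ℂ)), mul_assoc]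
      congr 1
      rw [Finset.sum_mul]
      apply Finset.sum_congr rfl
      intro x _
      show (p ^ dB : ℂ) * Cfsg.pRegularPart p (ψ₁ : G → ℂ) x * conj ((ψ₂ : G → ℂ) x) =
        Cfsg.pRegularPart p φ x * conj (φ x) * ((p ^ dB : ℂ) * (d ψ₁ : ℂ) * (d ψ₂ : ℂ))
      unfold Cfsg.pRegularPart
      by_cases hx : Cfsg.IsPRegular p x
      · rw [if_pos hx, if_pos hx, hχφ ψ₁ hψ₁ x hx, hχφ ψ₂ hψ₂ x hx, map_mul, map_natCast]
        ring
      · rw [if_neg hx, if_neg hx]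
        ring
    have hE2 : Nφ * (s : ℂ) = 1 := by
      have h1 := hm χ₀ hχ₀' 1
      have h1reg : Cfsg.IsPRegular p (1 : G) := by
        unfold Cfsg.IsPRegular
        rw [orderOf_one]
        exact hp.one_lt.ne' ∘ Nat.dvd_one.mp
      unfold Cfsg.pRegularPart at h1
      rw [if_pos h1reg, hone χ₀ hχ₀'] at h1
      have h2 : ∑ ψ ∈ Bf, (m χ₀ ψ : ℂ) * (ψ : G → ℂ) 1 =
          (p ^ dB : ℂ) * ((d χ₀ : ℂ) * (g : ℂ)) * (Nφ * (s : ℂ)) := by
        rw [hs]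
        push_cast
        rw [Finset.mul_sum, Finset.mul_sum]
        apply Finset.sum_congr rfl
        intro ψ hψ
        rw [hE1 χ₀ hχ₀' ψ hψ, hone ψ hψ]
        ring
      rw [h2] at h1
      have hne : (p ^ dB : ℂ) * ((d χ₀ : ℂ) * (g : ℂ)) ≠ 0 := by
        apply mul_ne_zero
        · exact pow_ne_zero _ (by exact_mod_cast hp.ne_zero)
        · exact mul_ne_zero (by exact_mod_cast hd0 χ₀ hχ₀') hg0'
      have h3 : (p ^ dB : ℂ) * ((d χ₀ : ℂ) * (g : ℂ)) * 1 =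
          (p ^ dB : ℂ) * ((d χ₀ : ℂ) * (g : ℂ)) * (Nφ * (s : ℂ)) := by rw [mul_one]; exact h1
      exact (mul_left_cancel₀ hne h3).symm
    have hms : ∀ ψ₁ ∈ Bf, ∀ ψ₂ ∈ Bf, m ψ₁ ψ₂ * (s : ℤ) = (p ^ dB : ℤ) * (d ψ₁ : ℤ) * (d ψ₂ : ℤ) := by
      intro ψ₁ hψ₁ ψ₂ hψ₂
      have h1 : ((m ψ₁ ψ₂ * (s : ℤ) : ℤ) : ℂ) = (((p ^ dB : ℤ) * (d ψ₁ : ℤ) * (d ψ₂ : ℤ) : ℤ) : ℂ) := by
        push_cast
        rw [hE1 ψ₁ hψ₁ ψ₂ hψ₂, mul_assoc, hE2, mul_one]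
      exact_mod_cast h1
    have hdvd1 : (s : ℤ) ∣ (p ^ dB : ℤ) := by
      refine ⟨∑ χ ∈ Bf, ∑ ψ ∈ Bf, m χ ψ * (n χ * n ψ), ?_⟩
      calc (p ^ dB : ℤ) = (p ^ dB : ℤ) *
            ((∑ χ ∈ Bf, (d χ : ℤ) * n χ) * (∑ ψ ∈ Bf, (d ψ : ℤ) * n ψ)) := by
              rw [hbez1, mul_one, mul_one]
        _ = ∑ χ ∈ Bf, ∑ ψ ∈ Bf, ((p ^ dB : ℤ) * (d χ : ℤ) * (d ψ : ℤ)) * (n χ * n ψ) := by
              rw [Finset.sum_mul_sum, Finset.mul_sum]
              apply Finset.sum_congr rfl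
              intro χ _
              rw [Finset.mul_sum]
              apply Finset.sum_congr rfl
              intro ψ _
              ring
        _ = ∑ χ ∈ Bf, ∑ ψ ∈ Bf, (m χ ψ * (s : ℤ)) * (n χ * n ψ) := by
              apply Finset.sum_congr rfl
              intro χ hχ
              apply Finset.sum_congr rfl
              intro ψ hψ
              rw [hms χ hχ ψ hψ]
        _ = (s : ℤ) * ∑ χ ∈ Bf, ∑ ψ ∈ Bf, m χ ψ * (n χ * n ψ) := by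
              rw [Finset.mul_sum]
              apply Finset.sum_congr rfl
              intro χ _
              rw [Finset.mul_sum]
              apply Finset.sum_congr rfl
              intro ψ _
              ring
    have hdvd1' : s ∣ p ^ dB := by
      apply Int.natCast_dvd_natCast.mp
      push_cast
      exact hdvd1
    -- (3b) p ^ dB ∣ s
    have hgen : Cfsg.IsGeneralizedCharacter G (∑ χ ∈ Bf, (d χ) • (χ : G → ℂ)) :=
      isGen_sum Bf _ (fun χ _ => isGen_nsmul (isGen_of_irr χ.2) (d χ))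
    have hΨ : ∀ y : G, (∑ χ ∈ Bf, (d χ) • (χ : G → ℂ)) y = ∑ χ ∈ Bf, (d χ : ℂ) * (χ : G → ℂ) y := by
      intro y
      rw [Finset.sum_apply]
      apply Finset.sum_congr rfl
      intro χ _
      simp
    have hv : ∀ y : G, p ∣ orderOf y → (∑ χ ∈ Bf, (d χ) • (χ : G → ℂ)) y = 0 := by
      intro y hy
      rw [hΨ]
      have h1 := blockCoeff_eq_zero_of_singular hM (Bf : Set (Cfsg.IrrCharacter G)) hB
        (g := y⁻¹) (by rw [orderOf_inv]; exact hy)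
      unfold Cfsg.blockCoeff at h1
      rw [finsum_mem_coe_finset] at h1
      have h2 : ∑ χ ∈ Bf, (χ : G → ℂ) 1 * conj ((χ : G → ℂ) y⁻¹) = 0 := by
        rcases mul_eq_zero.mp h1 with h | h
        · exact absurd (inv_eq_zero.mp h) hcG
        · exact h
      have h3 : ∑ χ ∈ Bf, (χ : G → ℂ) 1 * conj ((χ : G → ℂ) y⁻¹) =
          (g : ℂ) * ∑ χ ∈ Bf, (d χ : ℂ) * (χ : G → ℂ) y := by
        rw [Finset.mul_sum]
        apply Finset.sum_congr rfl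
        intro χ hχ
        rw [hone χ hχ, Cfsg.Agent.Lib.Helper81.irr_inv χ y, Complex.conj_conj]
        ring
      rw [h3] at h2
      rcases mul_eq_zero.mp h2 with h | h
      · exact absurd h hg0'
      · exact h
    obtain ⟨z, hz⟩ := Cfsg.Agent.Lib.Helper76.dvd_degree_of_vanish_singular p _ hgen hv
    rw [hΨ] at hz
    have hΨ1 : ∑ χ ∈ Bf, (d χ : ℂ) * (χ : G → ℂ) 1 = ((s * g : ℕ) : ℂ) := by
      rw [hs]
      push_cast
      rw [Finset.sum_mul]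
      apply Finset.sum_congr rfl
      intro χ hχ
      rw [hone χ hχ]
      ring
    rw [hΨ1] at hz
    have hdvd2 : p ^ (Nat.card G).factorization p ∣ s * g := by
      apply Int.natCast_dvd_natCast.mp
      refine ⟨z, ?_⟩
      exact_mod_cast hz
    have hsg0 : s * g ≠ 0 := mul_ne_zero hs0 hg0
    have hle1 := (hp.pow_dvd_iff_le_factorization hsg0).mp hdvd2
    rw [Nat.factorization_mul hs0 hg0, Finsupp.add_apply] at hle1
    -- a height zero character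
    have hSne : ((fun χ : Cfsg.IrrCharacter G => (Cfsg.charDegree (χ : G → ℂ)).factorization p) ''
        (Bf : Set (Cfsg.IrrCharacter G))).Nonempty := ⟨_, χ₀, hχ₀, rfl⟩
    obtain ⟨χ₁, hχ₁, hmin⟩ := Nat.sInf_mem hSne
    have hχ₁' : χ₁ ∈ Bf := Finset.mem_coe.mp hχ₁
    have hdB' : dB = (Nat.card G).factorization p -
        (Cfsg.charDegree (χ₁ : G → ℂ)).factorization p := by
      rw [hdB]
      unfold Cfsg.blockDefect
      rw [← hmin]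
    have hle2 : g.factorization p ≤ (Cfsg.charDegree (χ₁ : G → ℂ)).factorization p :=
      (Nat.factorization_le_iff_dvd hg0 (hdeg χ₁).2.1.ne').mpr (hgdvd χ₁ hχ₁') p
    have hle3 : dB ≤ s.factorization p := by omega
    have hdvd3 : p ^ dB ∣ s := (hp.pow_dvd_iff_le_factorization hs0).mpr hle3
    exact Nat.dvd_antisymm hdvd1' hdvd3

end

end Cfsg.Agent.Lib.Helper77
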