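import Mathlib
import Cfsg.Prelude.Def_Blocks
import Cfsg.Prelude.Def_BlockLocal
import Cfsg.Prelude.Def_BrauerPairs
import Cfsg.Agent.Lib.Helper77.SubBlock
import Cfsg.Agent.Lib.Helper77.Degree
import Cfsg.Agent.Lib.Helper77.Defect
import Cfsg.Agent.Lib.Helper77.Osima
import Cfsg.Agent.Lib.Helper77.IdemCalc
import Cfsg.Agent.Lib.Helper79.QuotBlockP
import Cfsg.Agent.Lib.Helper80.BrolineGarrison
import Cfsg.Agent.Lib.Helper80.Orthogonality
import Cfsg.Agent.Lib.Helper16.CentProd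
import Cfsg.Agent.Lib.Helper16.Cover
import Cfsg.Agent.S0887

/-!
# Brauer pairs carrying a weight

If the stabilizer of a Brauer pair `(Q, e)` has, in its block over `e`, a character trivial on
`Q` of defect zero modulo `Q`, then `Z(Q)` is a defect group of `e` and `Q` is the largest normal
`p`-subgroup of the stabilizer.
-/

set_option autoImplicit false
set_option linter.unusedSectionVars false

namespace Cfsg.Agent.Lib.Helper77

open Cfsg Cfsg.Agent.Lib.Helper16 Cfsg.Agent.Lib.Helper81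
open scoped ComplexConjugate

section Central

variable {H : Type*} [Group H] [Fintype H] {M : Ideal Cfsg.AlgInt} {p : ℕ} [Fact p.Prime]

theorem sup_centralizer_eq_top_of_le_center {Z : Subgroup H} (hZ : Z ≤ Subgroup.center H) :
    Z ⊔ Subgroup.centralizer (Z : Set H) = ⊤ := by
  rw [Subgroup.centralizer_eq_top_iff_subset.mpr hZ]
  exact sup_top_eq _

/-- an irreducible character with the central subgroup `Z` in its kernel is invariant under
translation by `Z` -/
theorem irr_mul_of_central_ker (Z : Subgroup H) (hZ : Z ≤ Subgroup.center H)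
    (ψ : Cfsg.IrrCharacter H) (hker : ∀ z ∈ Z, (ψ : H → ℂ) z = (ψ : H → ℂ) 1) {z : H}
    (hz : z ∈ Z) (g : H) : (ψ : H → ℂ) (z * g) = (ψ : H → ℂ) g := by
  have hG := sup_centralizer_eq_top_of_le_center hZ
  obtain ⟨lam, psi, hdec⟩ := exists_prod_decomp Z hG ψ
  have hgC : g ∈ Subgroup.centralizer (Z : Set H) := by
    rw [Subgroup.centralizer_eq_top_iff_subset.mpr hZ]
    trivial
  have h1 := hdec ⟨z, hz⟩ ⟨g, hgC⟩
  have h2 := hdec 1 ⟨g, hgC⟩
  have h3 := hdec ⟨z, hz⟩ 1
  have h4 := hdec 1 1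
  simp only [OneMemClass.coe_one, one_mul, mul_one] at h1 h2 h3 h4
  have hpsi : (psi : ↥(Subgroup.centralizer (Z : Set H)) → ℂ) 1 ≠ 0 := irr_one_ne_zero psi
  have h5 : (lam : Z → ℂ) ⟨z, hz⟩ = (lam : Z → ℂ) 1 := by
    have h6 := hker z hz
    rw [h3, h4] at h6
    exact mul_right_cancel₀ hpsi h6
  rw [h1, h2, h5]

/-- the sum of the translates by a central subgroup not in the kernel vanishes -/
theorem sum_central_eq_zero (Z : Subgroup H) [Fintype Z] (hZ : Z ≤ Subgroup.center H)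
    (ψ : Cfsg.IrrCharacter H) (hnk : ¬ ∀ z ∈ Z, (ψ : H → ℂ) z = (ψ : H → ℂ) 1) (g : H) :
    ∑ z : Z, (ψ : H → ℂ) ((z : H) * g) = 0 := by
  classical
  have hG := sup_centralizer_eq_top_of_le_center hZ
  obtain ⟨lam, psi, hdec⟩ := exists_prod_decomp Z hG ψ
  have hgC : g ∈ Subgroup.centralizer (Z : Set H) := by
    rw [Subgroup.centralizer_eq_top_iff_subset.mpr hZ]
    trivial
  have h1 : ∀ z : Z, (ψ : H → ℂ) ((z : H) * g) =
      (lam : Z → ℂ) z * (psi : ↥(Subgroup.centralizer (Z : Set H)) → ℂ) ⟨g, hgC⟩ :=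
    fun z => hdec z ⟨g, hgC⟩
  simp only [h1]
  rw [← Finset.sum_mul]
  have h2 := Cfsg.Agent.Lib.Helper80.classInner_irr_fun lam.2
    (Cfsg.Agent.Lib.Helper81.isIrrCharacter_one (G := Z))
  have hne : (lam : Z → ℂ) ≠ fun _ => (1 : ℂ) := by
    intro heq
    apply hnk
    intro z hz
    have h3 := hdec ⟨z, hz⟩ 1
    have h4 := hdec 1 1
    simp only [OneMemClass.coe_one, one_mul, mul_one] at h3 h4
    rw [h3, h4, heq]
  rw [if_neg hne] at h2
  unfold Cfsg.classInner at h2
  have hcard : (Nat.card Z : ℂ)⁻¹ ≠ 0 := by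
    apply inv_ne_zero
    exact_mod_cast Nat.card_pos.ne'
  have h5 : ∑ z : Z, (lam : Z → ℂ) z = 0 := by
    have h6 := (mul_eq_zero.mp h2).resolve_left hcard
    simpa using h6
  rw [h5, zero_mul]

/-- **Defect zero modulo a central `p`-subgroup.**  If the block `e` contains a character
trivial on the central `p`-subgroup `Z` whose degree has the `p`-part of `[H : Z]`, then `Z` is
a defect group of `e`. -/
theorem isDefectGroup_of_central_of_defect_zero (hM : Cfsg.IsPModular p M) (Z : Subgroup H)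
    (hZc : Z ≤ Subgroup.center H) (hZp : IsPGroup p Z) (e : Set (Cfsg.IrrCharacter H))
    (he : Cfsg.IsPBlock M e) (θ : Cfsg.IrrCharacter H) (hθ : θ ∈ e)
    (hker : ∀ z ∈ Z, (θ : H → ℂ) z = (θ : H → ℂ) 1)
    (hdeg : (Nat.card H).factorization p ≤
      (Cfsg.charDegree (θ : H → ℂ)).factorization p + (Nat.card Z).factorization p) :
    Cfsg.IsDefectGroup p M e Z := by
  classical
  have hp : p.Prime := Fact.out
  have hMp := isPrime_of_isPModular hM
  haveI hZn : Z.Normal := ⟨fun z hz g => by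
    have h1 := Subgroup.mem_center_iff.mp (hZc hz) g
    rw [h1, mul_inv_cancel_right]
    exact hz⟩
  have hsup := sup_centralizer_eq_top_of_le_center hZc
  have hfinI0 : Finite (Cfsg.IrrCharacter H) := irr_finite H
  have hfinI : Fintype (Cfsg.IrrCharacter H) := Fintype.ofFinite _
  have hfinZ : Fintype Z := Fintype.ofFinite _
  have hfinQ : Fintype (H ⧸ Z) := Fintype.ofFinite _
  obtain ⟨θb, hθb⟩ : ∃ θb : Cfsg.IrrCharacter (H ⧸ Z),
      ∀ g : H, (θb : H ⧸ Z → ℂ) (g : H ⧸ Z) = (θ : H → ℂ) g :=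
    ⟨Cfsg.Agent.Lib.Helper80.deflateIrr Z ⟨θ, hker⟩,
      fun g => Cfsg.Agent.Lib.Helper80.deflateIrr_apply Z ⟨θ, hker⟩ g⟩
  have hdegθ := Cfsg.Agent.Lib.Helper79.irr_charDegree θ.2
  have hdegb := Cfsg.Agent.Lib.Helper79.irr_charDegree θb.2
  have hdeq : Cfsg.charDegree (θb : H ⧸ Z → ℂ) = Cfsg.charDegree (θ : H → ℂ) := by
    have h1 := hθb 1
    rw [QuotientGroup.mk_one, hdegb.1, hdegθ.1] at h1
    exact_mod_cast h1
  have hcard : Nat.card H = Nat.card (H ⧸ Z) * Nat.card Z :=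
    Subgroup.card_eq_card_quotient_mul_card_subgroup Z
  have hcq0 : Nat.card (H ⧸ Z) ≠ 0 := Nat.card_pos.ne'
  have hcz0 : Nat.card Z ≠ 0 := Nat.card_pos.ne'
  have hfac : (Nat.card H).factorization p =
      (Nat.card (H ⧸ Z)).factorization p + (Nat.card Z).factorization p := by
    rw [hcard, Nat.factorization_mul hcq0 hcz0, Finsupp.add_apply]
  have hle1 : (Cfsg.charDegree (θb : H ⧸ Z → ℂ)).factorization p ≤
      (Nat.card (H ⧸ Z)).factorization p :=
    (Nat.factorization_le_iff_dvd hdegb.2.1.ne' hcq0).mpr hdegb.2.2 p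
  have hfeq : (Cfsg.charDegree (θb : H ⧸ Z → ℂ)).factorization p =
      (Nat.card (H ⧸ Z)).factorization p := by
    rw [hdeq] at hle1 ⊢
    omega
  have hdz : ¬ p ∣ Nat.card (H ⧸ Z) / Cfsg.charDegree (θb : H ⧸ Z → ℂ) := by
    intro hdvd
    have hne : Nat.card (H ⧸ Z) / Cfsg.charDegree (θb : H ⧸ Z → ℂ) ≠ 0 := by
      intro h0
      rw [h0] at hdvd
      have h1 := Nat.div_mul_cancel hdegb.2.2
      rw [h0, zero_mul] at h1
      exact hcq0 h1.symm
    have h2 := (hp.dvd_iff_one_le_factorization hne).mp hdvd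
    rw [Nat.factorization_div hdegb.2.2, Finsupp.tsub_apply, hfeq] at h2
    omega
  have hblk : Cfsg.blockOf M (θb : H ⧸ Z → ℂ) = {θb} :=
    blockOf_eq_singleton_of_defect_zero hM θb hdz
  have hsB : Cfsg.IsPBlock M ({θb} : Set (Cfsg.IrrCharacter (H ⧸ Z))) := ⟨θb, hblk.symm⟩
  obtain ⟨x, hx⟩ := exists_isDefectClass hMp e he
  have hxreg : ¬ p ∣ orderOf x := fun h => hx.2.1 (by
    rw [blockCoeff_eq_zero_of_singular hM e he h]
    exact memLocalIdeal_zero hMp)
  have huniq : ∀ ψ : Cfsg.IrrCharacter H, ψ ∈ e →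
      (∀ z ∈ Z, (ψ : H → ℂ) z = (ψ : H → ℂ) 1) → ψ = θ := by
    intro ψ hψ hψk
    obtain ⟨ψb, hψb⟩ : ∃ ψb : Cfsg.IrrCharacter (H ⧸ Z),
        ∀ g : H, (ψb : H ⧸ Z → ℂ) (g : H ⧸ Z) = (ψ : H → ℂ) g :=
      ⟨Cfsg.Agent.Lib.Helper80.deflateIrr Z ⟨ψ, hψk⟩,
        fun g => Cfsg.Agent.Lib.Helper80.deflateIrr_apply Z ⟨ψ, hψk⟩ g⟩
    have hsb : Cfsg.SameBlock M ((θb : H ⧸ Z → ℂ) ∘ QuotientGroup.mk)
        ((ψb : H ⧸ Z → ℂ) ∘ QuotientGroup.mk) := by
      have h1 : ((θb : H ⧸ Z → ℂ) ∘ QuotientGroup.mk) = (θ : H → ℂ) := funext hθb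
      have h2 : ((ψb : H ⧸ Z → ℂ) ∘ QuotientGroup.mk) = (ψ : H → ℂ) := funext hψb
      rw [h1, h2]
      exact IsPBlock.sameBlock hMp he hθ hψ
    have h3 := Cfsg.Agent.Lib.Helper79.sameBlock_deflate_of_centralizer Z hM hZp hsup θb ψb hsb
    have h4 : ψb ∈ Cfsg.blockOf M (θb : H ⧸ Z → ℂ) := h3
    rw [hblk] at h4
    have h5 : ψb = θb := h4
    apply Subtype.ext
    funext g
    rw [← hψb g, ← hθb g, h5]
  have hcoef : Cfsg.blockCoeff ({θb} : Set (Cfsg.IrrCharacter (H ⧸ Z))) (x : H ⧸ Z) =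
      Cfsg.blockCoeff e x := by
    rw [blockCoeff_singleton]
    have h1 : Cfsg.blockCoeff e x = ∑ z : Z, Cfsg.blockCoeff e ((z : H) * x) := by
      rw [Finset.sum_eq_single (1 : Z)]
      · simp
      · intro z _ hz1
        apply blockCoeff_eq_zero_of_singular hM e he
        by_contra hreg
        have h2 := Cfsg.Agent.Lib.Helper79.eq_of_pRegular_of_mk_eq Z hZp hsup hxreg hreg (by
          rw [QuotientGroup.mk_mul, (QuotientGroup.eq_one_iff (z : H)).mpr z.2, one_mul])
        apply hz1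
        apply Subtype.ext
        have h3 : (z : H) * x = 1 * x := by rw [h2, one_mul]
        exact mul_right_cancel h3
      · intro h
        exact absurd (Finset.mem_univ _) h
    rw [h1]
    simp only [blockCoeff_eq_sum e]
    rw [← Finset.mul_sum, Finset.sum_comm]
    have hterm : ∀ ψ : Cfsg.IrrCharacter H,
        (∑ z : Z, if ψ ∈ e then (ψ : H → ℂ) 1 * (ψ : H → ℂ) ((z : H) * x)⁻¹ else 0) =
          if ψ = θ then (Nat.card Z : ℂ) * ((θ : H → ℂ) 1 * (θ : H → ℂ) x⁻¹) else 0 := by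
      intro ψ
      by_cases hψθ : ψ = θ
      · rw [if_pos hψθ, hψθ]
        simp only [if_pos hθ]
        have h2 : ∀ z : Z, (θ : H → ℂ) ((z : H) * x)⁻¹ = (θ : H → ℂ) x⁻¹ := by
          intro z
          have h3 : ((z : H) * x)⁻¹ = (z : H)⁻¹ * x⁻¹ := by
            rw [mul_inv_rev]
            exact (Subgroup.mem_center_iff.mp (hZc (Z.inv_mem z.2)) x⁻¹)
          rw [h3]
          exact irr_mul_of_central_ker Z hZc θ hker (Z.inv_mem z.2) x⁻¹
        simp only [h2]
        rw [Finset.sum_const, Finset.card_univ, Nat.card_eq_fintype_card, nsmul_eq_mul]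
      · rw [if_neg hψθ]
        by_cases hψe : ψ ∈ e
        · simp only [if_pos hψe]
          rw [← Finset.mul_sum]
          have hnk : ¬ ∀ z ∈ Z, (ψ : H → ℂ) z = (ψ : H → ℂ) 1 := fun hk => hψθ (huniq ψ hψe hk)
          have h2 : ∑ z : Z, (ψ : H → ℂ) ((z : H) * x)⁻¹ =
              ∑ z : Z, (ψ : H → ℂ) ((z : H) * x⁻¹) := by
            apply Fintype.sum_equiv (Equiv.inv Z)
            intro z
            have h3 : ((z : H) * x)⁻¹ = (z : H)⁻¹ * x⁻¹ := by
              rw [mul_inv_rev]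
              exact (Subgroup.mem_center_iff.mp (hZc (Z.inv_mem z.2)) x⁻¹)
            rw [h3]
            rfl
          rw [h2, sum_central_eq_zero Z hZc ψ hnk x⁻¹, mul_zero]
        · simp only [if_neg hψe]
          exact Finset.sum_const_zero
    simp only [hterm]
    rw [Finset.sum_ite_eq' Finset.univ θ, if_pos (Finset.mem_univ _)]
    have e1 : (θb : H ⧸ Z → ℂ) 1 = (θ : H → ℂ) 1 := by
      rw [← hθb 1, QuotientGroup.mk_one]
    have e2 : (θb : H ⧸ Z → ℂ) (x : H ⧸ Z)⁻¹ = (θ : H → ℂ) x⁻¹ := by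
      rw [← hθb x⁻¹, QuotientGroup.mk_inv]
    rw [e1, e2, hcard]
    have hz0 : (Nat.card Z : ℂ) ≠ 0 := by exact_mod_cast hcz0
    have hq0 : (Nat.card (H ⧸ Z) : ℂ) ≠ 0 := by exact_mod_cast hcq0
    push_cast
    field_simp
  have hdc : Cfsg.IsDefectClass M ({θb} : Set (Cfsg.IrrCharacter (H ⧸ Z))) (x : H ⧸ Z) := by
    refine ⟨by rw [hcoef]; exact hx.1, by rw [hcoef]; exact hx.2.1, ?_⟩
    intro χ hχ
    rw [Set.mem_singleton_iff] at hχ
    rw [hχ]
    have h1 : Cfsg.centralChar (θb : H ⧸ Z → ℂ) (x : H ⧸ Z) =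
        Cfsg.centralChar (θ : H → ℂ) x := by
      unfold Cfsg.centralChar
      rw [Cfsg.Agent.Lib.Helper79.index_centralizer_quot_eq Z hZp hsup hxreg, hθb x,
        ← QuotientGroup.mk_one, hθb 1]
    rw [h1]
    exact hx.2.2 θ hθ
  obtain ⟨Sb⟩ : Nonempty (Sylow p (Subgroup.centralizer ({(x : H ⧸ Z)} : Set (H ⧸ Z)))) :=
    inferInstance
  have hDb : Cfsg.IsDefectGroup p M ({θb} : Set (Cfsg.IrrCharacter (H ⧸ Z)))
      ((Sb : Subgroup (Subgroup.centralizer ({(x : H ⧸ Z)} : Set (H ⧸ Z)))).map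
        (Subgroup.centralizer ({(x : H ⧸ Z)} : Set (H ⧸ Z))).subtype) := ⟨_, hdc, Sb, rfl⟩
  have hcDb := card_isDefectGroup hM _ hsB _ hDb
  have hdef0 : Cfsg.blockDefect p ({θb} : Set (Cfsg.IrrCharacter (H ⧸ Z))) = 0 := by
    unfold Cfsg.blockDefect
    rw [Set.image_singleton, csInf_singleton, hfeq]
    exact Nat.sub_self _
  rw [hdef0, pow_zero] at hcDb
  have hSb1 : Nat.card Sb = 1 := by
    rw [← hcDb]
    exact (Subgroup.card_map_of_injective (Subgroup.subtype_injective _)).symm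
  have hpb : (Nat.card (Subgroup.centralizer ({(x : H ⧸ Z)} : Set (H ⧸ Z)))).factorization p
      = 0 := by
    have h1 := Sb.card_eq_multiplicity
    rw [hSb1] at h1
    by_contra hne
    have h2 : 1 < p ^ (Nat.card (Subgroup.centralizer
        ({(x : H ⧸ Z)} : Set (H ⧸ Z)))).factorization p :=
      Nat.one_lt_pow hne hp.one_lt
    omega
  have hidx := Cfsg.Agent.Lib.Helper79.index_centralizer_quot_eq Z hZp hsup hxreg
  have hcx : Nat.card (Subgroup.centralizer ({x} : Set H)) =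
      Nat.card (Subgroup.centralizer ({(x : H ⧸ Z)} : Set (H ⧸ Z))) * Nat.card Z := by
    have h1 := Subgroup.index_mul_card (Subgroup.centralizer ({x} : Set H))
    have h2 := Subgroup.index_mul_card (Subgroup.centralizer ({(x : H ⧸ Z)} : Set (H ⧸ Z)))
    rw [hidx] at h2
    have h3 : (Subgroup.centralizer ({x} : Set H)).index *
        Nat.card (Subgroup.centralizer ({x} : Set H)) =
        (Subgroup.centralizer ({x} : Set H)).index *
          (Nat.card (Subgroup.centralizer ({(x : H ⧸ Z)} : Set (H ⧸ Z))) * Nat.card Z) := by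
      rw [h1, ← mul_assoc, h2, hcard]
    exact Nat.eq_of_mul_eq_mul_left (Nat.pos_of_ne_zero (Subgroup.index_ne_zero_of_finite)) h3
  obtain ⟨S⟩ : Nonempty (Sylow p (Subgroup.centralizer ({x} : Set H))) := inferInstance
  have hD : Cfsg.IsDefectGroup p M e
      ((S : Subgroup (Subgroup.centralizer ({x} : Set H))).map
        (Subgroup.centralizer ({x} : Set H)).subtype) :=
    ⟨x, hx, S, rfl⟩
  have hZD := normal_pgroup_le_of_isDefectGroup hM Z hZp he hD
  have hcD : Nat.card ((S : Subgroup (Subgroup.centralizer ({x} : Set H))).map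
      (Subgroup.centralizer ({x} : Set H)).subtype) = Nat.card Z := by
    rw [Subgroup.card_map_of_injective (Subgroup.subtype_injective _), S.card_eq_multiplicity,
      hcx, Nat.factorization_mul Nat.card_pos.ne' hcz0, Finsupp.add_apply, hpb, zero_add]
    exact pow_factorization_card_of_isPGroup hZp
  have hZeq := Subgroup.eq_of_le_of_card_ge hZD hcD.le
  rw [hZeq]
  exact hD

end Central

section Weight

/-- pulling back an irreducible character along a homomorphism that is onto modulo a normal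
subgroup in the kernel gives an irreducible character -/
theorem isIrrCharacter_comp_of_ker {N C : Type*} [Group N] [Finite N] [Group C] (A : Subgroup N)
    [A.Normal] {ψ : N → ℂ} (hψ : Cfsg.IsIrrCharacter N ψ) (hker : ∀ a ∈ A, ψ a = ψ 1)
    (φ : C →* N) (hsurj : ∀ n : N, ∃ a ∈ A, ∃ c : C, n = a * φ c) :
    Cfsg.IsIrrCharacter C (fun c => ψ (φ c)) := by
  obtain ⟨ψb, hψb, hval⟩ := Cfsg.Agent.Lib.Helper80.exists_isIrrCharacter_deflate A hψ hker
  have hs : Function.Surjective ((QuotientGroup.mk' A).comp φ) := by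
    intro x
    obtain ⟨n, rfl⟩ := QuotientGroup.mk_surjective x
    obtain ⟨a, ha, c, rfl⟩ := hsurj n
    refine ⟨c, ?_⟩
    change ((φ c : N) : N ⧸ A) = ((a * φ c : N) : N ⧸ A)
    rw [QuotientGroup.mk_mul, (QuotientGroup.eq_one_iff a).mpr ha, one_mul]
  have h1 := Cfsg.Agent.Lib.Helper80.isIrrCharacter_comp ((QuotientGroup.mk' A).comp φ) hs hψb
  have h2 : (fun c : C => ψ (φ c)) = fun c : C => ψb (((QuotientGroup.mk' A).comp φ) c) :=
    funext fun c => (hval (φ c)).symm
  rw [h2]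
  exact h1

variable {G : Type*} [Group G] [Fintype G]

/-- the degree of an irreducible character over a normal subgroup -/
theorem factorization_degree_le_of_under (p : ℕ) [Fact p.Prime] (N : Subgroup G) [N.Normal]
    [Fintype N] (χ : Cfsg.IrrCharacter G) (ψ : Cfsg.IrrCharacter N)
    (hcon : Cfsg.classInner (fun n : N => (χ : G → ℂ) n) (ψ : N → ℂ) ≠ 0) :
    (Cfsg.charDegree (χ : G → ℂ)).factorization p ≤
      (Cfsg.charDegree (ψ : N → ℂ)).factorization p + (N.index).factorization p := by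
  have hdχ := Cfsg.Agent.Lib.Helper79.irr_charDegree χ.2
  have hdψ := Cfsg.Agent.Lib.Helper79.irr_charDegree ψ.2
  obtain ⟨h1, h2⟩ := Cfsg.Agent.S0887.result N (χ : G → ℂ) χ.2 (ψ : N → ℂ) ψ.2 hcon _ _
    hdχ.1 hdψ.1
  have h3 : Cfsg.charDegree (χ : G → ℂ) =
      Cfsg.charDegree (ψ : N → ℂ) * (Cfsg.charDegree (χ : G → ℂ) / Cfsg.charDegree (ψ : N → ℂ)) :=
    (Nat.mul_div_cancel' h1).symm
  have h4 : Cfsg.charDegree (χ : G → ℂ) / Cfsg.charDegree (ψ : N → ℂ) ≠ 0 := by
    intro h0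
    rw [h0, mul_zero] at h3
    omega
  have h5 : N.index ≠ 0 := Subgroup.index_ne_zero_of_finite
  have h6 := (Nat.factorization_le_iff_dvd h4 h5).mpr h2 p
  rw [h3, Nat.factorization_mul hdψ.2.1.ne' h4, Finsupp.add_apply]
  omega

/-- a constituent of the restriction of a weight character to a normal subgroup containing `Q` -/
theorem exists_under_of_weight (p : ℕ) [Fact p.Prime] (Q T K : Subgroup G) [Fintype T]
    [Fintype (K.subgroupOf T)] (hQK : Q ≤ K) (hKT : K ≤ T)
    (hTK : T ≤ Subgroup.normalizer (K : Set G)) (χ : Cfsg.IrrCharacter T)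
    (hχQ : ∀ q : G, q ∈ Q → ∀ t : T, ∀ t' : T, (t' : G) = q * (t : G) →
      (χ : T → ℂ) t' = (χ : T → ℂ) t)
    (hdeg : (Cfsg.charDegree (χ : T → ℂ)).factorization p + (Nat.card Q).factorization p =
      (Nat.card T).factorization p) :
    ∃ θ : Cfsg.IrrCharacter (K.subgroupOf T),
      Cfsg.classInner (fun n : K.subgroupOf T => (χ : T → ℂ) n) (θ : K.subgroupOf T → ℂ) ≠ 0 ∧
      (∀ n : K.subgroupOf T, ((n : T) : G) ∈ Q →
        (θ : K.subgroupOf T → ℂ) n = (θ : K.subgroupOf T → ℂ) 1) ∧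
      (Nat.card K).factorization p ≤
        (Cfsg.charDegree (θ : K.subgroupOf T → ℂ)).factorization p +
          (Nat.card Q).factorization p := by
  classical
  have hp : p.Prime := Fact.out
  haveI hN : (K.subgroupOf T).Normal :=
    (Subgroup.normal_subgroupOf_iff_le_normalizer hKT).mpr hTK
  obtain ⟨θ, hcon⟩ := Cfsg.Agent.Lib.Helper16.exists_irr_under (K.subgroupOf T) χ
  refine ⟨θ, hcon, ?_, ?_⟩
  · intro n hn
    have hfinI0 : Finite (Cfsg.IrrCharacter (K.subgroupOf T)) := irr_finite _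
    have hfinI : Fintype (Cfsg.IrrCharacter (K.subgroupOf T)) := Fintype.ofFinite _
    apply Cfsg.Agent.Lib.Helper80.constituent_ker
      (φ := fun n : K.subgroupOf T => (χ : T → ℂ) n)
      (Cfsg.Agent.Lib.Helper75.isCharacter_res _
        (Cfsg.Agent.Lib.Helper80.isCharacter_of_isIrrCharacter χ.2)) θ.2 hcon
    exact hχQ ((n : T) : G) hn 1 (n : T) (by simp)
  · have h1 := factorization_degree_le_of_under p (K.subgroupOf T) χ θ hcon
    have h2 := Subgroup.index_mul_card (K.subgroupOf T)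
    have h3 : Nat.card (K.subgroupOf T) = Nat.card K :=
      Nat.card_congr (Subgroup.subgroupOfEquivOfLe hKT).toEquiv
    have h4 : (Nat.card T).factorization p =
        ((K.subgroupOf T).index).factorization p + (Nat.card K).factorization p := by
      rw [← h2, h3, Nat.factorization_mul Subgroup.index_ne_zero_of_finite Nat.card_pos.ne',
        Finsupp.add_apply]
    omega

/-- **Weights are radical.**  If the stabilizer `T` of a Brauer pair `(Q, e)` has an irreducible
character trivial on `Q` whose degree has the `p`-part of `[T : Q]`, then every `p`-subgroup of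
`T` normalized by `T` lies in `Q`. -/
theorem weightPair_radical (p : ℕ) [Fact p.Prime] (Q T : Subgroup G) (hQp : IsPGroup p Q)
    (hQT : Q ≤ T) (hTQ : T ≤ Subgroup.normalizer (Q : Set G)) (χ : Cfsg.IrrCharacter T)
    (hχQ : ∀ q : G, q ∈ Q → ∀ t : T, ∀ t' : T, (t' : G) = q * (t : G) →
      (χ : T → ℂ) t' = (χ : T → ℂ) t)
    (hdeg : (Cfsg.charDegree (χ : T → ℂ)).factorization p + (Nat.card Q).factorization p =
      (Nat.card T).factorization p)
    (R : Subgroup G) (hRT : R ≤ T) (hRp : IsPGroup p R)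
    (hRn : ∀ t ∈ T, t ∈ Subgroup.normalizer (R : Set G)) : R ≤ Q := by
  classical
  have hp : p.Prime := Fact.out
  have hfinT : Fintype T := Fintype.ofFinite _
  have hfinQ : Fintype Q := Fintype.ofFinite _
  have hKT : Q ⊔ R ≤ T := sup_le hQT hRT
  have hfinN : Fintype ((Q ⊔ R).subgroupOf T) := Fintype.ofFinite _
  have hTK : T ≤ Subgroup.normalizer ((Q ⊔ R : Subgroup G) : Set G) := fun t ht =>
    Subgroup.normalizer_inf_normalizer_le_normalizer_sup Q R ⟨hTQ ht, hRn t ht⟩
  have hKp : IsPGroup p (Q ⊔ R : Subgroup G) :=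
    IsPGroup.to_sup_of_normal_left' hQp hRp (fun r hr => hTQ (hRT hr))
  obtain ⟨θ, hcon, hker, hdegK⟩ :=
    exists_under_of_weight p Q T (Q ⊔ R) le_sup_left hKT hTK χ hχQ hdeg
  have hdθ := Cfsg.Agent.Lib.Helper79.irr_charDegree θ.2
  have hcN : Nat.card ((Q ⊔ R).subgroupOf T) = Nat.card (Q ⊔ R : Subgroup G) :=
    Nat.card_congr (Subgroup.subgroupOfEquivOfLe hKT).toEquiv
  have hKpow := pow_factorization_card_of_isPGroup hKp
  have hQpow := pow_factorization_card_of_isPGroup hQp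
  -- the degree of θ is a power of p
  obtain ⟨j, hj, hdj⟩ : ∃ j, j ≤ (Nat.card (Q ⊔ R : Subgroup G)).factorization p ∧
      Cfsg.charDegree (θ : (Q ⊔ R).subgroupOf T → ℂ) = p ^ j := by
    have h1 := hdθ.2.2
    rw [hcN, ← hKpow] at h1
    exact (Nat.dvd_prime_pow hp).mp h1
  have hfj : (Cfsg.charDegree (θ : (Q ⊔ R).subgroupOf T → ℂ)).factorization p = j := by
    rw [hdj, hp.factorization_pow, Finsupp.single_eq_same]
  -- |Q| d² ≤ |K|
  have hsum := Cfsg.Agent.Lib.Helper80.sum_norm_sq_eq_card θ.2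
  obtain ⟨ι, hι⟩ : ∃ ι : Q → (Q ⊔ R).subgroupOf T, ∀ q : Q, ((ι q : T) : G) = (q : G) :=
    ⟨fun q => ⟨⟨(q : G), hQT q.2⟩, Subgroup.mem_subgroupOf.mpr (le_sup_left (a := Q) q.2)⟩,
      fun q => rfl⟩
  have hιinj : Function.Injective ι := by
    intro a b hab
    apply Subtype.ext
    rw [← hι a, ← hι b, hab]
  have h1 : ∑ q : Q, ‖(θ : (Q ⊔ R).subgroupOf T → ℂ) (ι q)‖ ^ 2 =
      ∑ n ∈ Finset.univ.map ⟨ι, hιinj⟩, ‖(θ : (Q ⊔ R).subgroupOf T → ℂ) n‖ ^ 2 :=
    (Finset.sum_map Finset.univ ⟨ι, hιinj⟩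
      (fun n => ‖(θ : (Q ⊔ R).subgroupOf T → ℂ) n‖ ^ 2)).symm
  have h2 : ∑ n ∈ Finset.univ.map ⟨ι, hιinj⟩, ‖(θ : (Q ⊔ R).subgroupOf T → ℂ) n‖ ^ 2 ≤
      ∑ n : (Q ⊔ R).subgroupOf T, ‖(θ : (Q ⊔ R).subgroupOf T → ℂ) n‖ ^ 2 :=
    Finset.sum_le_sum_of_subset_of_nonneg (Finset.subset_univ _)
      (fun _ _ _ => by positivity)
  have h3 : ∑ q : Q, ‖(θ : (Q ⊔ R).subgroupOf T → ℂ) (ι q)‖ ^ 2 =
      (Nat.card Q : ℝ) * ((p : ℝ) ^ j) ^ 2 := by
    have h4 : ∀ q : Q, ‖(θ : (Q ⊔ R).subgroupOf T → ℂ) (ι q)‖ ^ 2 = ((p : ℝ) ^ j) ^ 2 := by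
      intro q
      rw [hker (ι q) (by rw [hι q]; exact q.2), hdθ.1, hdj, Complex.norm_natCast]
      push_cast
      ring
    simp only [h4]
    rw [Finset.sum_const, Finset.card_univ, Nat.card_eq_fintype_card, nsmul_eq_mul]
  have h5 : Nat.card Q * (p ^ j) ^ 2 ≤ Nat.card (Q ⊔ R : Subgroup G) := by
    have h6 : (Nat.card Q : ℝ) * ((p : ℝ) ^ j) ^ 2 ≤ (Nat.card (Q ⊔ R : Subgroup G) : ℝ) := by
      rw [← h3, h1, ← hcN, ← hsum]
      exact h2
    exact_mod_cast h6
  rw [← hQpow, ← hKpow, ← pow_mul, ← pow_add] at h5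
  have h7 := (Nat.pow_le_pow_iff_right hp.one_lt).mp h5
  have h8 : (Nat.card (Q ⊔ R : Subgroup G)).factorization p = (Nat.card Q).factorization p := by
    omega
  have h9 : Nat.card (Q ⊔ R : Subgroup G) = Nat.card Q := by
    rw [← hQpow, ← hKpow, h8]
  have h10 : Q = Q ⊔ R := Subgroup.eq_of_le_of_card_ge le_sup_left h9.le
  rw [h10]
  exact le_sup_right

/-- **Weights are centric.**  If the stabilizer `T` of a Brauer pair `(Q, e)` has, in the block
with the idempotent of `e`, an irreducible character trivial on `Q` whose degree has the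
`p`-part of `[T : Q]`, then `Z(Q)` is a defect group of `e`. -/
theorem weightPair_defect (p : ℕ) [Fact p.Prime] (M : Ideal Cfsg.AlgInt)
    (hM : Cfsg.IsPModular p M) (Q T : Subgroup G) (hQp : IsPGroup p Q)
    (e : Set (Cfsg.IrrCharacter (Subgroup.centralizer (Q : Set G)))) (he : Cfsg.IsPBlock M e)
    (hQT : Q ≤ T) (hCT : Subgroup.centralizer (Q : Set G) ≤ T)
    (hTQ : T ≤ Subgroup.normalizer (Q : Set G))
    (F' : Set (Cfsg.IrrCharacter T))
    (hF'e : ∀ t : T, Cfsg.blockCoeff F' t =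
      Cfsg.subgroupBlockCoeff (Subgroup.centralizer (Q : Set G)) e (t : G))
    (χ : Cfsg.IrrCharacter T) (hχ : χ ∈ F')
    (hχQ : ∀ q : G, q ∈ Q → ∀ t : T, ∀ t' : T, (t' : G) = q * (t : G) →
      (χ : T → ℂ) t' = (χ : T → ℂ) t)
    (hdeg : (Cfsg.charDegree (χ : T → ℂ)).factorization p + (Nat.card Q).factorization p =
      (Nat.card T).factorization p) :
    Cfsg.IsDefectGroup p M e
      ((Q ⊓ Subgroup.centralizer (Q : Set G)).subgroupOf (Subgroup.centralizer (Q : Set G))) := by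
  classical
  have hp : p.Prime := Fact.out
  have hfinT : Fintype T := Fintype.ofFinite _
  have hfinC : Fintype (Subgroup.centralizer (Q : Set G)) := Fintype.ofFinite _
  have hTC : T ≤ Subgroup.normalizer
      ((Subgroup.centralizer (Q : Set G) : Subgroup G) : Set G) :=
    hTQ.trans (normalizer_le_normalizer_centralizer Q)
  have hKT : Q ⊔ Subgroup.centralizer (Q : Set G) ≤ T := sup_le hQT hCT
  have hfinN : Fintype ((Q ⊔ Subgroup.centralizer (Q : Set G)).subgroupOf T) :=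
    Fintype.ofFinite _
  have hTK : T ≤ Subgroup.normalizer
      ((Q ⊔ Subgroup.centralizer (Q : Set G) : Subgroup G) : Set G) := fun t ht =>
    Subgroup.normalizer_inf_normalizer_le_normalizer_sup Q _ ⟨hTQ ht, hTC ht⟩
  obtain ⟨ψ, hcon, hker, hdegK⟩ :=
    exists_under_of_weight p Q T (Q ⊔ Subgroup.centralizer (Q : Set G)) le_sup_left hKT hTK χ
      hχQ hdeg
  -- the homomorphism from the centralizer
  obtain ⟨φ, hφ⟩ : ∃ φ : Subgroup.centralizer (Q : Set G) →*
      (Q ⊔ Subgroup.centralizer (Q : Set G)).subgroupOf T,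
      ∀ c : Subgroup.centralizer (Q : Set G), ((φ c : T) : G) = (c : G) :=
    ⟨{ toFun := fun c => ⟨⟨(c : G), hCT c.2⟩,
          Subgroup.mem_subgroupOf.mpr (le_sup_right (b := Subgroup.centralizer (Q : Set G)) c.2)⟩
       map_one' := rfl
       map_mul' := fun _ _ => rfl }, fun c => rfl⟩
  haveI hQn : (Q.subgroupOf T).Normal :=
    (Subgroup.normal_subgroupOf_iff_le_normalizer hQT).mpr hTQ
  have hirr : Cfsg.IsIrrCharacter (Subgroup.centralizer (Q : Set G))
      (fun c => (ψ : (Q ⊔ Subgroup.centralizer (Q : Set G)).subgroupOf T → ℂ) (φ c)) := by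
    apply isIrrCharacter_comp_of_ker
      ((Q.subgroupOf T).subgroupOf ((Q ⊔ Subgroup.centralizer (Q : Set G)).subgroupOf T)) ψ.2
    · intro a ha
      exact hker a ha
    · intro n
      have hn : ((n : T) : G) ∈ ((Q ⊔ Subgroup.centralizer (Q : Set G) : Subgroup G) : Set G) :=
        n.2
      rw [Subgroup.coe_mul_of_left_le_normalizer_right Q _ (hQT.trans hTC)] at hn
      obtain ⟨q, hq, c, hc, hqc⟩ := Set.mem_mul.mp hn
      refine ⟨⟨⟨q, hQT hq⟩, Subgroup.mem_subgroupOf.mpr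
        (le_sup_left (a := Q) hq)⟩, hq, ⟨c, hc⟩, ?_⟩
      apply Subtype.ext
      apply Subtype.ext
      rw [Subgroup.coe_mul, Subgroup.coe_mul, hφ]
      exact hqc.symm
  obtain ⟨θ, hθ⟩ : ∃ θ : Cfsg.IrrCharacter (Subgroup.centralizer (Q : Set G)),
      ∀ c, (θ : Subgroup.centralizer (Q : Set G) → ℂ) c =
        (ψ : (Q ⊔ Subgroup.centralizer (Q : Set G)).subgroupOf T → ℂ) (φ c) :=
    ⟨⟨_, hirr⟩, fun c => rfl⟩
  have hθ1 : (θ : Subgroup.centralizer (Q : Set G) → ℂ) 1 =
      (ψ : (Q ⊔ Subgroup.centralizer (Q : Set G)).subgroupOf T → ℂ) 1 := by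
    rw [hθ 1, map_one]
  -- θ lies in e
  have hmem : θ ∈ e := by
    have h0 := omegaF_blockCoeff_set e θ
    have h1 := omegaF_blockCoeff_set F' χ
    rw [if_pos hχ] at h1
    by_contra hne
    rw [if_neg hne] at h0
    haveI hNn : ((Q ⊔ Subgroup.centralizer (Q : Set G)).subgroupOf T).Normal :=
      (Subgroup.normal_subgroupOf_iff_le_normalizer hKT).mpr hTK
    have h2 := Cfsg.Agent.Lib.Helper16.sum_res_mul_eq
      ((Q ⊔ Subgroup.centralizer (Q : Set G)).subgroupOf T) hcon (blockCoeff_isClassFunction F')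
    have hzero : ∀ t : T, (t : G) ∉ Subgroup.centralizer (Q : Set G) →
        Cfsg.blockCoeff F' t = 0 := by
      intro t ht
      rw [hF'e t]
      unfold Cfsg.subgroupBlockCoeff
      rw [dif_neg ht]
    have h3 : ∑ m : (Q ⊔ Subgroup.centralizer (Q : Set G)).subgroupOf T,
        Cfsg.blockCoeff F' (m : T) * (χ : T → ℂ) (m : T) =
        ∑ t : T, Cfsg.blockCoeff F' t * (χ : T → ℂ) t := by
      apply Finset.sum_of_injOn
        (fun m : (Q ⊔ Subgroup.centralizer (Q : Set G)).subgroupOf T => (m : T))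
      · intro a _ b _ hab
        exact Subtype.ext hab
      · intro a _
        exact Finset.mem_coe.mpr (Finset.mem_univ _)
      · intro t _ ht
        have ht' : (t : G) ∉ Subgroup.centralizer (Q : Set G) := by
          intro hc
          apply ht
          exact ⟨⟨t, Subgroup.mem_subgroupOf.mpr
            (le_sup_right (b := Subgroup.centralizer (Q : Set G)) hc)⟩,
            Finset.mem_coe.mpr (Finset.mem_univ _), rfl⟩
        rw [hzero t ht', zero_mul]
      · intro m _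
        rfl
    have h4 : ∑ c : Subgroup.centralizer (Q : Set G),
        Cfsg.blockCoeff e c * (θ : Subgroup.centralizer (Q : Set G) → ℂ) c =
        ∑ m : (Q ⊔ Subgroup.centralizer (Q : Set G)).subgroupOf T,
          Cfsg.blockCoeff F' (m : T) *
            (ψ : (Q ⊔ Subgroup.centralizer (Q : Set G)).subgroupOf T → ℂ) m := by
      apply Finset.sum_of_injOn φ
      · intro a _ b _ hab
        apply Subtype.ext
        rw [← hφ a, ← hφ b, hab]
      · intro a _
        exact Finset.mem_coe.mpr (Finset.mem_univ _)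
      · intro m _ hm
        have hm' : ((m : T) : G) ∉ Subgroup.centralizer (Q : Set G) := by
          intro hc
          apply hm
          refine ⟨⟨((m : T) : G), hc⟩, Finset.mem_coe.mpr (Finset.mem_univ _), ?_⟩
          apply Subtype.ext
          apply Subtype.ext
          exact hφ _
        rw [hzero (m : T) hm', zero_mul]
      · intro c _
        rw [hθ c, hF'e (φ c : T)]
        unfold Cfsg.subgroupBlockCoeff
        have hc : ((φ c : T) : G) ∈ Subgroup.centralizer (Q : Set G) := by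
          rw [hφ c]
          exact c.2
        rw [dif_pos hc]
        congr 2
        apply Subtype.ext
        exact (hφ c).symm
    unfold omegaF at h0 h1
    rw [h4, hθ1, ← h2, h3, h1] at h0
    exact one_ne_zero h0
  -- the central subgroup
  have hZc : (Q ⊓ Subgroup.centralizer (Q : Set G)).subgroupOf (Subgroup.centralizer (Q : Set G))
      ≤ Subgroup.center (Subgroup.centralizer (Q : Set G)) := by
    intro z hz
    have hzQ : (z : G) ∈ Q := (Subgroup.mem_subgroupOf.mp hz).1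
    rw [Subgroup.mem_center_iff]
    intro g
    apply Subtype.ext
    rw [Subgroup.coe_mul, Subgroup.coe_mul]
    exact (Subgroup.mem_centralizer_iff.mp g.2 (z : G) hzQ).symm
  have hZp : IsPGroup p ((Q ⊓ Subgroup.centralizer (Q : Set G)).subgroupOf
      (Subgroup.centralizer (Q : Set G))) :=
    (hQp.to_le inf_le_left).comap_subtype
  have hkerθ : ∀ z ∈ (Q ⊓ Subgroup.centralizer (Q : Set G)).subgroupOf
      (Subgroup.centralizer (Q : Set G)),
      (θ : Subgroup.centralizer (Q : Set G) → ℂ) z =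
        (θ : Subgroup.centralizer (Q : Set G) → ℂ) 1 := by
    intro z hz
    have hzQ : (z : G) ∈ Q := (Subgroup.mem_subgroupOf.mp hz).1
    rw [hθ z, hθ1]
    apply hker
    rw [hφ z]
    exact hzQ
  have hdθ : Cfsg.charDegree (θ : Subgroup.centralizer (Q : Set G) → ℂ) =
      Cfsg.charDegree (ψ : (Q ⊔ Subgroup.centralizer (Q : Set G)).subgroupOf T → ℂ) := by
    unfold Cfsg.charDegree
    rw [hθ1]
  -- the order of QC
  have hcardZ : Nat.card ((Q ⊓ Subgroup.centralizer (Q : Set G)).subgroupOf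
      (Subgroup.centralizer (Q : Set G))) =
      Nat.card (Q ⊓ Subgroup.centralizer (Q : Set G) : Subgroup G) :=
    Nat.card_congr (Subgroup.subgroupOfEquivOfLe inf_le_right).toEquiv
  have hcards : Nat.card (Q ⊔ Subgroup.centralizer (Q : Set G) : Subgroup G) *
      Nat.card (Q ⊓ Subgroup.centralizer (Q : Set G) : Subgroup G) =
      Nat.card Q * Nat.card (Subgroup.centralizer (Q : Set G)) := by
    haveI hCn : ((Subgroup.centralizer (Q : Set G)).subgroupOf T).Normal :=
      (Subgroup.normal_subgroupOf_iff_le_normalizer hCT).mpr hTC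
    have e1 := Subgroup.relIndex_sup_right (Q.subgroupOf T)
      ((Subgroup.centralizer (Q : Set G)).subgroupOf T)
    rw [← Subgroup.subgroupOf_sup hQT hCT, Subgroup.relIndex_subgroupOf hKT,
      Subgroup.relIndex_subgroupOf hQT] at e1
    have e2 := Subgroup.relIndex_mul_relIndex (⊥ : Subgroup G)
      (Subgroup.centralizer (Q : Set G)) (Q ⊔ Subgroup.centralizer (Q : Set G)) bot_le
      le_sup_right
    have e3 := Subgroup.relIndex_mul_relIndex (⊥ : Subgroup G)
      (Q ⊓ Subgroup.centralizer (Q : Set G)) Q bot_le inf_le_left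
    rw [Subgroup.relIndex_bot_left, Subgroup.relIndex_bot_left] at e2 e3
    rw [Subgroup.inf_relIndex_left] at e3
    rw [← e2, ← e3, e1]
    ring
  apply isDefectGroup_of_central_of_defect_zero hM _ hZc hZp e he θ hmem hkerθ
  rw [hdθ, hcardZ]
  have hK0 : Nat.card (Q ⊔ Subgroup.centralizer (Q : Set G) : Subgroup G) ≠ 0 :=
    Nat.card_pos.ne'
  have hI0 : Nat.card (Q ⊓ Subgroup.centralizer (Q : Set G) : Subgroup G) ≠ 0 :=
    Nat.card_pos.ne'
  have hQ0 : Nat.card Q ≠ 0 := Nat.card_pos.ne'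
  have hC0 : Nat.card (Subgroup.centralizer (Q : Set G)) ≠ 0 := Nat.card_pos.ne'
  have hf := congrArg (fun n : ℕ => n.factorization p) hcards
  simp only [Nat.factorization_mul hK0 hI0, Nat.factorization_mul hQ0 hC0,
    Finsupp.add_apply] at hf
  omega

end Weight

end Cfsg.Agent.Lib.Helper77
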